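import Mathlib
import Cfsg.Agent.Helper8.S4504Defs
import Cfsg.Agent.Helper15.CharScalar
import Cfsg.Agent.Helper15.CharInner

/-!
helper4: piece SING (`s4504_sing`) of CALL S4504 (helper8): the `p`-singular elements.
-/

set_option autoImplicit false
open Cfsg Cfsg.Agent.Helper8
open scoped ComplexConjugate

universe u

namespace Cfsg.Agent.Helper4

theorem s4504s_orderOf_conj {H : Type u} [Group H] (a g : H) :
    orderOf (a * g * a⁻¹) = orderOf g := by
  rw [← MulAut.conj_apply]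
  exact MulEquiv.orderOf_eq _ _

/-- a `p`-subgroup containing an element of order `p` is generated by it when `p² ∤ |H|` -/
theorem s4504s_pgroup_eq {H : Type u} [Group H] [Finite H] (p : ℕ) [Fact p.Prime]
    (hsq : ¬ p ^ 2 ∣ Nat.card H) (Q : Subgroup H) (hQ : IsPGroup p Q) {w : H}
    (hw : orderOf w = p) (hwQ : w ∈ Q) : Q = Subgroup.zpowers w := by
  have hp : p.Prime := Fact.out
  obtain ⟨k, hk⟩ := IsPGroup.iff_card.mp hQ
  have hk1 : k ≤ 1 := by
    by_contra hk2
    apply hsq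
    have h1 : p ^ 2 ∣ p ^ k := pow_dvd_pow p (by omega)
    exact h1.trans (hk ▸ Subgroup.card_subgroup_dvd_card Q)
  have hle : Subgroup.zpowers w ≤ Q := Subgroup.zpowers_le.mpr hwQ
  have hcard : Nat.card Q ≤ Nat.card (Subgroup.zpowers w) := by
    rw [Nat.card_zpowers, hw, hk]
    calc p ^ k ≤ p ^ 1 := Nat.pow_le_pow_right hp.pos hk1
      _ = p := pow_one p
  exact (Subgroup.eq_of_le_of_card_ge hle hcard).symm

/-- commuting elements of order `p` generate the same subgroup when `p² ∤ |H|` -/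
theorem s4504s_mem_zpowers {H : Type u} [Group H] [Finite H] (p : ℕ) [Fact p.Prime]
    (hsq : ¬ p ^ 2 ∣ Nat.card H) {y y' : H} (hy : orderOf y = p) (hy' : orderOf y' = p)
    (hc : y * y' = y' * y) : y' ∈ Subgroup.zpowers y := by
  have h1 : IsPGroup p (Subgroup.zpowers y) :=
    IsPGroup.iff_card.mpr ⟨1, by rw [Nat.card_zpowers, hy, pow_one]⟩
  have h2 : IsPGroup p (Subgroup.zpowers y') :=
    IsPGroup.iff_card.mpr ⟨1, by rw [Nat.card_zpowers, hy', pow_one]⟩
  have hcomm : ∀ k : ℤ, y' * y ^ k = y ^ k * y' := fun k =>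
    (Commute.zpow_right (show Commute y' y from hc.symm) k).eq
  have hn : Subgroup.zpowers y' ≤
      Subgroup.normalizer ((Subgroup.zpowers y : Subgroup H) : Set H) := by
    rw [Subgroup.zpowers_le, Subgroup.mem_normalizer_iff]
    intro h
    constructor
    · intro hh
      obtain ⟨k, rfl⟩ := Subgroup.mem_zpowers_iff.mp hh
      rw [hcomm k, mul_inv_cancel_right]
      exact hh
    · intro hh
      obtain ⟨k, hk⟩ := Subgroup.mem_zpowers_iff.mp hh
      have h3 : y' * h * y'⁻¹ = y' * y ^ k * y'⁻¹ := by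
        rw [← hk, hcomm k, mul_inv_cancel_right]
      have h4 : h = y ^ k := mul_left_cancel (mul_right_cancel h3)
      rw [h4]
      exact Subgroup.zpow_mem_zpowers y k
  have hQ := IsPGroup.to_sup_of_normal_right' h2 h1 hn
  have heq := s4504s_pgroup_eq p hsq _ hQ hy (Subgroup.mem_sup_right (Subgroup.mem_zpowers y))
  rw [← heq]
  exact Subgroup.mem_sup_left (Subgroup.mem_zpowers y')

theorem s4504s_mem_normalizer {H : Type u} [Group H] [Finite H] {p : ℕ} {x : H}
    (hx : orderOf x = p) (n : H) (hn : n * x * n⁻¹ ∈ Subgroup.zpowers x) :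
    n ∈ Subgroup.normalizer ((Subgroup.zpowers x : Subgroup H) : Set H) := by
  rw [Subgroup.mem_normalizer_iff]
  have ho : orderOf (n * x * n⁻¹) = p := by rw [s4504s_orderOf_conj, hx]
  have heq : Subgroup.zpowers (n * x * n⁻¹) = Subgroup.zpowers x := by
    apply Subgroup.eq_of_le_of_card_ge (Subgroup.zpowers_le.mpr hn)
    rw [Nat.card_zpowers, Nat.card_zpowers, ho, hx]
  intro h
  constructor
  · intro hh
    obtain ⟨k, rfl⟩ := Subgroup.mem_zpowers_iff.mp hh
    rw [← conj_zpow]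
    exact Subgroup.zpow_mem _ hn k
  · intro hh
    rw [← heq] at hh
    obtain ⟨k, hk⟩ := Subgroup.mem_zpowers_iff.mp hh
    rw [conj_zpow] at hk
    have h3 : x ^ k = h := mul_left_cancel (mul_right_cancel hk)
    rw [← h3]
    exact Subgroup.zpow_mem_zpowers x k

theorem s4504s_norm_mul_center {H : Type u} [Group H] [Finite H] (χ : H → ℂ)
    (hχ : Cfsg.IsIrrCharacter H χ) (g z : H) (hz : z ∈ Subgroup.center H) :
    ‖χ (g * z)‖ = ‖χ g‖ := by
  obtain ⟨n, ρ, hirr, rfl⟩ := hχ
  haveI := hirr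
  obtain ⟨c, hc⟩ := Cfsg.Agent.Helper15.rep_central_scalar ρ hz
  have hnorm := Cfsg.Agent.Helper15.norm_eq_one_of_rep_scalar ρ hc
  have h1 := Cfsg.Agent.Helper15.char_mul_of_rep_scalar ρ hc g
  have hzg : g * z = z * g := Subgroup.mem_center_iff.mp hz g
  rw [hzg, h1, norm_mul, hnorm, one_mul]

/-- the counting core of SING -/
theorem s4504s_core {H : Type u} [Group H] [Fintype H] (p : ℕ) [Fact p.Prime] (x : H)
    (hg : S4504Grp p x) (d : ℕ) (hpd : p = 2 * d + 1)
    (hcent : ∀ g : H, g * x = x * g → ∃ i : ℕ, ∃ z ∈ Subgroup.center H, g = x ^ i * z)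
    (hnormcard : Nat.card (Subgroup.normalizer ((Subgroup.zpowers x : Subgroup H) : Set H))
      = p * d * Nat.card (Subgroup.center H))
    (F : H → ℝ) (hF1 : ∀ a g : H, F (a * g * a⁻¹) = F g)
    (hF2 : ∀ g z : H, z ∈ Subgroup.center H → F (g * z) = F g)
    (P : ℕ → Prop) (A A₂ : ℝ) (B₁ : Finset ℕ)
    (hB₁ : ∀ b : ℕ, b ∈ B₁ ↔ b < p ∧ b ≠ 0 ∧ P b) (hhalf : B₁.card = d)
    (hA : ∀ b : ℕ, ¬ p ∣ b → P b → F (x ^ b) = A)
    (hA₂ : ∀ b : ℕ, ¬ p ∣ b → ¬ P b → F (x ^ b) = A₂) :
    (p : ℝ) * ∑ g ∈ Finset.univ.filter (fun g : H => p ∣ orderOf g), F g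
      = (Nat.card H : ℝ) * (A + A₂) := by
  classical
  have hp : p.Prime := Fact.out
  have hx := hg.hx
  have hsq := hg.hsq
  have hd1 : 1 ≤ d := by
    by_contra h0
    have h1 : d = 0 := by omega
    rw [h1] at hpd
    exact hp.one_lt.ne' (by omega)
  -- `⟨x⟩ ∩ Z = 1`
  have hxZ : ∀ i : ℕ, x ^ i ∈ Subgroup.center H → p ∣ i := by
    intro i hi
    by_contra hpi
    apply hg.hnn
    have hcop : (orderOf x).Coprime i := by
      rw [hx]
      exact (Nat.Prime.coprime_iff_not_dvd hp).mpr hpi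
    have ho : orderOf (x ^ i) = orderOf x := hcop.orderOf_pow
    have heq : Subgroup.zpowers (x ^ i) = Subgroup.zpowers x := by
      apply Subgroup.eq_of_le_of_card_ge
        (Subgroup.zpowers_le.mpr (Subgroup.pow_mem _ (Subgroup.mem_zpowers x) i))
      rw [Nat.card_zpowers, Nat.card_zpowers, ho]
    have hle : Subgroup.zpowers x ≤ Subgroup.center H := by
      rw [← heq]
      exact Subgroup.zpowers_le.mpr hi
    constructor
    intro n hn a
    have hnc : n ∈ Subgroup.center H := hle hn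
    have h1 : a * n * a⁻¹ = n := by
      rw [Subgroup.mem_center_iff.mp hnc a, mul_inv_cancel_right]
    rw [h1]
    exact hn
  -- `Z` is a `p'`-group
  have hZp : ∀ z ∈ Subgroup.center H, ¬ p ∣ orderOf z := by
    intro z hz hpz
    have hz' : orderOf (z ^ (orderOf z / p)) = p :=
      orderOf_pow_orderOf_div (orderOf_pos z).ne' hpz
    have hzc : z ^ (orderOf z / p) ∈ Subgroup.center H := Subgroup.pow_mem _ hz _
    have hcomm : z ^ (orderOf z / p) * x = x * z ^ (orderOf z / p) :=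
      (Subgroup.mem_center_iff.mp hzc x).symm
    have hxin := s4504s_mem_zpowers p hsq hz' hx hcomm
    have hxc : x ^ 1 ∈ Subgroup.center H := by
      rw [pow_one]
      exact (Subgroup.zpowers_le.mpr hzc) hxin
    exact hp.one_lt.ne' (Nat.dvd_one.mp (hxZ 1 hxc))
  -- the `p`-singular elements of `C(x)`
  have hsing : ∀ (i : ℕ) (z : H), z ∈ Subgroup.center H →
      (p ∣ orderOf (x ^ i * z) ↔ ¬ p ∣ i) := by
    intro i z hz
    constructor
    · intro h1 h2
      have hxi : x ^ i = 1 := by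
        rw [← hx] at h2
        exact orderOf_dvd_iff_pow_eq_one.mp h2
      rw [hxi, one_mul] at h1
      exact hZp z hz h1
    · intro hpi
      have hcomm : Commute (x ^ i) z := Subgroup.mem_center_iff.mp hz (x ^ i)
      have h1 : (x ^ i * z) ^ orderOf (x ^ i * z) = 1 := pow_orderOf_eq_one _
      rw [hcomm.mul_pow, ← pow_mul] at h1
      have h2 : x ^ (i * orderOf (x ^ i * z)) ∈ Subgroup.center H := by
        have h3 : x ^ (i * orderOf (x ^ i * z)) = (z ^ orderOf (x ^ i * z))⁻¹ :=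
          eq_inv_of_mul_eq_one_left h1
        rw [h3]
        exact Subgroup.inv_mem _ (Subgroup.pow_mem _ hz _)
      rcases (Nat.Prime.dvd_mul hp).mp (hxZ _ h2) with h4 | h4
      · exact absurd h4 hpi
      · exact h4
  -- the fibres
  have hfib : ∀ g : H, p ∣ orderOf g →
      ((Finset.univ.filter (fun a : H => g * (a * x * a⁻¹) = a * x * a⁻¹ * g)).card : ℝ)
        = (Nat.card (Subgroup.normalizer ((Subgroup.zpowers x : Subgroup H) : Set H)) : ℝ) := by
    intro g hpg
    obtain ⟨w, hw⟩ : ∃ w : H, w = g ^ (orderOf g / p) := ⟨_, rfl⟩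
    have hwo : orderOf w = p := by
      rw [hw]
      exact orderOf_pow_orderOf_div (orderOf_pos g).ne' hpg
    have hgw : ∀ v ∈ Subgroup.zpowers w, g * v = v * g := by
      intro v hv
      obtain ⟨k, rfl⟩ := Subgroup.mem_zpowers_iff.mp hv
      rw [hw]
      exact (((Commute.refl g).pow_right _).zpow_right k).eq
    have hPx : IsPGroup p (Subgroup.zpowers x) :=
      IsPGroup.iff_card.mpr ⟨1, by rw [Nat.card_zpowers, hx, pow_one]⟩
    have hPw : IsPGroup p (Subgroup.zpowers w) :=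
      IsPGroup.iff_card.mpr ⟨1, by rw [Nat.card_zpowers, hwo, pow_one]⟩
    obtain ⟨P', hP'⟩ := hPx.exists_le_sylow
    obtain ⟨Q, hQ⟩ := hPw.exists_le_sylow
    obtain ⟨h₀, hh₀⟩ := MulAction.exists_smul_eq H P' Q
    have hQeq : (Q : Subgroup H) = Subgroup.zpowers w :=
      s4504s_pgroup_eq p hsq _ Q.2 hwo (hQ (Subgroup.mem_zpowers w))
    have hy₀ : h₀ * x * h₀⁻¹ ∈ Subgroup.zpowers w := by
      rw [← hQeq, ← hh₀, Sylow.smul_def, Sylow.pointwise_smul_def]
      exact Subgroup.smul_mem_pointwise_smul x (MulAut.conj h₀) _ (hP' (Subgroup.mem_zpowers x))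
    have hiff : ∀ a : H, g * (a * x * a⁻¹) = a * x * a⁻¹ * g ↔
        h₀⁻¹ * a ∈ Subgroup.normalizer ((Subgroup.zpowers x : Subgroup H) : Set H) := by
      intro a
      constructor
      · intro hc
        have hao : orderOf (a * x * a⁻¹) = p := by rw [s4504s_orderOf_conj, hx]
        have hy₀o : orderOf (h₀ * x * h₀⁻¹) = p := by rw [s4504s_orderOf_conj, hx]
        have hweq : Subgroup.zpowers w = Subgroup.zpowers (h₀ * x * h₀⁻¹) :=
          s4504s_pgroup_eq p hsq _ hPw hy₀o hy₀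
        have hcw : w * (a * x * a⁻¹) = a * x * a⁻¹ * w := by
          rw [hw]
          exact (Commute.pow_left (show Commute g (a * x * a⁻¹) from hc) (orderOf g / p)).eq
        have hin := s4504s_mem_zpowers p hsq hwo hao hcw
        rw [hweq] at hin
        obtain ⟨k, hk⟩ := Subgroup.mem_zpowers_iff.mp hin
        rw [conj_zpow] at hk
        have hn : (h₀⁻¹ * a) * x * (h₀⁻¹ * a)⁻¹ = x ^ k := by
          calc (h₀⁻¹ * a) * x * (h₀⁻¹ * a)⁻¹ = h₀⁻¹ * (a * x * a⁻¹) * h₀ := by group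
            _ = h₀⁻¹ * (h₀ * x ^ k * h₀⁻¹) * h₀ := by rw [hk]
            _ = x ^ k := by group
        apply s4504s_mem_normalizer hx
        rw [hn]
        exact Subgroup.zpow_mem_zpowers x k
      · intro hn
        have h1 : (h₀⁻¹ * a) * x * (h₀⁻¹ * a)⁻¹ ∈ Subgroup.zpowers x :=
          (Subgroup.mem_normalizer_iff.mp hn x).mp (Subgroup.mem_zpowers x)
        obtain ⟨k, hk⟩ := Subgroup.mem_zpowers_iff.mp h1
        have h2 : a * x * a⁻¹ = (h₀ * x * h₀⁻¹) ^ k := by
          rw [conj_zpow, hk]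
          group
        have h3 : a * x * a⁻¹ ∈ Subgroup.zpowers w := by
          rw [h2]
          exact Subgroup.zpow_mem _ hy₀ k
        exact hgw _ h3
    have hcard : (Finset.univ.filter (fun a : H => g * (a * x * a⁻¹) = a * x * a⁻¹ * g)).card
        = Nat.card (Subgroup.normalizer ((Subgroup.zpowers x : Subgroup H) : Set H)) := by
      have e : {a : H // g * (a * x * a⁻¹) = a * x * a⁻¹ * g} ≃
          ↥(Subgroup.normalizer ((Subgroup.zpowers x : Subgroup H) : Set H)) :=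
        { toFun := fun a => ⟨h₀⁻¹ * a.1, (hiff a.1).mp a.2⟩
          invFun := fun n => ⟨h₀ * n.1, (hiff _).mpr (by rw [inv_mul_cancel_left]; exact n.2)⟩
          left_inv := fun a => Subtype.ext (mul_inv_cancel_left h₀ a.1)
          right_inv := fun n => Subtype.ext (inv_mul_cancel_left h₀ n.1) }
      rw [← Nat.card_congr e, Nat.card_eq_fintype_card, Fintype.card_subtype]
    rw [hcard]
  -- double counting
  obtain ⟨Ncard, hNcard⟩ : ∃ Ncard : ℝ, Ncard =
      (Nat.card (Subgroup.normalizer ((Subgroup.zpowers x : Subgroup H) : Set H)) : ℝ) :=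
    ⟨_, rfl⟩
  have hW2 : ∀ g : H, ∑ a : H,
      (if (g * (a * x * a⁻¹) = a * x * a⁻¹ * g ∧ p ∣ orderOf g) then F g else 0)
      = if p ∣ orderOf g then Ncard * F g else 0 := by
    intro g
    by_cases hpg : p ∣ orderOf g
    · rw [if_pos hpg]
      have h1 : ∀ a : H,
          (if (g * (a * x * a⁻¹) = a * x * a⁻¹ * g ∧ p ∣ orderOf g) then F g else 0)
          = (if g * (a * x * a⁻¹) = a * x * a⁻¹ * g then F g else 0) := by
        intro a
        simp [hpg]
      rw [Finset.sum_congr rfl (fun a _ => h1 a), ← Finset.sum_filter, Finset.sum_const,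
        nsmul_eq_mul, hfib g hpg, hNcard]
    · rw [if_neg hpg]
      apply Finset.sum_eq_zero
      intro a _
      rw [if_neg (fun hc => hpg hc.2)]
  have hW1 : ∀ a : H, ∑ g : H,
      (if (g * (a * x * a⁻¹) = a * x * a⁻¹ * g ∧ p ∣ orderOf g) then F g else 0)
      = ∑ s : H, (if (s * x = x * s ∧ p ∣ orderOf s) then F s else 0) := by
    intro a
    symm
    refine Fintype.sum_equiv (MulAut.conj a).toEquiv _ _ ?_
    intro s
    have hiff : (a * s * a⁻¹ * (a * x * a⁻¹) = a * x * a⁻¹ * (a * s * a⁻¹)) ↔ s * x = x * s := by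
      constructor
      · intro h1
        have h2 : a * (s * x) * a⁻¹ = a * (x * s) * a⁻¹ := by
          calc a * (s * x) * a⁻¹ = a * s * a⁻¹ * (a * x * a⁻¹) := by group
            _ = a * x * a⁻¹ * (a * s * a⁻¹) := h1
            _ = a * (x * s) * a⁻¹ := by group
        exact mul_left_cancel (mul_right_cancel h2)
      · intro h1
        calc a * s * a⁻¹ * (a * x * a⁻¹) = a * (s * x) * a⁻¹ := by group
          _ = a * (x * s) * a⁻¹ := by rw [h1]
          _ = a * x * a⁻¹ * (a * s * a⁻¹) := by group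
    show _ = if (a * s * a⁻¹ * (a * x * a⁻¹) = a * x * a⁻¹ * (a * s * a⁻¹) ∧
      p ∣ orderOf (a * s * a⁻¹)) then F (a * s * a⁻¹) else 0
    rw [hF1, s4504s_orderOf_conj]
    simp only [hiff]
  obtain ⟨W, hWdef⟩ : ∃ W : ℝ, W =
      ∑ s : H, (if (s * x = x * s ∧ p ∣ orderOf s) then F s else 0) := ⟨_, rfl⟩
  have hdc : (Nat.card H : ℝ) * W
      = Ncard * ∑ g ∈ Finset.univ.filter (fun g : H => p ∣ orderOf g), F g := by
    have h1 : ∑ a : H, ∑ g : H,
        (if (g * (a * x * a⁻¹) = a * x * a⁻¹ * g ∧ p ∣ orderOf g) then F g else 0)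
        = (Nat.card H : ℝ) * W := by
      rw [Finset.sum_congr rfl (fun a _ => hW1 a), Finset.sum_const, nsmul_eq_mul,
        Finset.card_univ, Nat.card_eq_fintype_card, hWdef]
    have h2 : ∑ a : H, ∑ g : H,
        (if (g * (a * x * a⁻¹) = a * x * a⁻¹ * g ∧ p ∣ orderOf g) then F g else 0)
        = Ncard * ∑ g ∈ Finset.univ.filter (fun g : H => p ∣ orderOf g), F g := by
      rw [Finset.sum_comm, Finset.sum_congr rfl (fun g _ => hW2 g), ← Finset.sum_filter,
        Finset.mul_sum]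
    rw [← h1, h2]
  -- the sum over `C(x)`
  have hBnd : ∀ b ∈ (Finset.range p).filter (· ≠ 0), ¬ p ∣ b := by
    intro b hb hdvd
    rw [Finset.mem_filter, Finset.mem_range] at hb
    exact hb.2 (Nat.eq_zero_of_dvd_of_lt hdvd hb.1)
  have hW : W = (Nat.card (Subgroup.center H) : ℝ) * ((d : ℝ) * A + (d : ℝ) * A₂) := by
    rw [hWdef, ← Finset.sum_filter]
    have hS₀ : Finset.univ.filter (fun s : H => s * x = x * s ∧ p ∣ orderOf s)
        = (((Finset.range p).filter (· ≠ 0)) ×ˢ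
            (Finset.univ.filter (· ∈ Subgroup.center H))).image
          (fun bz : ℕ × H => x ^ bz.1 * bz.2) := by
      ext s
      simp only [Finset.mem_filter, Finset.mem_univ, true_and, Finset.mem_image,
        Finset.mem_product, Finset.mem_range, Prod.exists]
      constructor
      · rintro ⟨hsx, hps⟩
        obtain ⟨i, z, hz, rfl⟩ := hcent s hsx
        have hpi := (hsing i z hz).mp hps
        refine ⟨i % p, z, ⟨⟨Nat.mod_lt _ hp.pos, ?_⟩, hz⟩, ?_⟩
        · intro h0
          exact hpi (Nat.dvd_of_mod_eq_zero h0)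
        · rw [← hx, pow_mod_orderOf]
      · rintro ⟨b, z, ⟨⟨hbp, hb0⟩, hz⟩, rfl⟩
        have hpb : ¬ p ∣ b := fun hdvd => hb0 (Nat.eq_zero_of_dvd_of_lt hdvd hbp)
        refine ⟨?_, (hsing b z hz).mpr hpb⟩
        have hzx : z * x = x * z := (Subgroup.mem_center_iff.mp hz x).symm
        calc x ^ b * z * x = x ^ b * (z * x) := by rw [mul_assoc]
          _ = x ^ b * (x * z) := by rw [hzx]
          _ = x ^ b * x * z := by rw [mul_assoc]
          _ = x * x ^ b * z := by rw [pow_mul_comm' x b]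
          _ = x * (x ^ b * z) := by rw [mul_assoc]
    rw [hS₀, Finset.sum_image, Finset.sum_product]
    · have hZcard : ((Finset.univ.filter (· ∈ Subgroup.center H)).card : ℝ)
          = (Nat.card (Subgroup.center H) : ℝ) := by
        rw [Nat.card_eq_fintype_card, Fintype.card_subtype]
      have h1 : ∀ b ∈ (Finset.range p).filter (· ≠ 0),
          ∑ z ∈ Finset.univ.filter (· ∈ Subgroup.center H), F (x ^ b * z)
            = (Nat.card (Subgroup.center H) : ℝ) * F (x ^ b) := by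
        intro b _
        rw [Finset.sum_congr rfl (fun z hz => hF2 (x ^ b) z (Finset.mem_filter.mp hz).2),
          Finset.sum_const, nsmul_eq_mul, hZcard]
      rw [Finset.sum_congr rfl h1, ← Finset.mul_sum]
      congr 1
      rw [← Finset.sum_filter_add_sum_filter_not ((Finset.range p).filter (· ≠ 0)) P]
      have hB1 : ((Finset.range p).filter (· ≠ 0)).filter P = B₁ := by
        ext b
        rw [Finset.mem_filter, Finset.mem_filter, Finset.mem_range, hB₁, and_assoc]
      have hBcard : ((Finset.range p).filter (· ≠ 0)).card = p - 1 := by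
        rw [Finset.filter_ne' (Finset.range p) 0,
          Finset.card_erase_of_mem (Finset.mem_range.mpr hp.pos), Finset.card_range]
      have hB2card : (((Finset.range p).filter (· ≠ 0)).filter (fun b => ¬ P b)).card = d := by
        have h3 := Finset.card_filter_add_card_filter_not
          (s := (Finset.range p).filter (· ≠ 0)) P
        rw [hB1, hhalf, hBcard] at h3
        omega
      have hs1 : ∑ b ∈ ((Finset.range p).filter (· ≠ 0)).filter P, F (x ^ b) = (d : ℝ) * A := by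
        rw [Finset.sum_congr rfl (fun b hb => hA b (hBnd b (Finset.mem_filter.mp hb).1)
          (Finset.mem_filter.mp hb).2), Finset.sum_const, nsmul_eq_mul, hB1, hhalf]
      have hs2 : ∑ b ∈ ((Finset.range p).filter (· ≠ 0)).filter (fun b => ¬ P b), F (x ^ b)
          = (d : ℝ) * A₂ := by
        rw [Finset.sum_congr rfl (fun b hb => hA₂ b (hBnd b (Finset.mem_filter.mp hb).1)
          (Finset.mem_filter.mp hb).2), Finset.sum_const, nsmul_eq_mul, hB2card]
      rw [hs1, hs2]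
    · rintro ⟨b, z⟩ hbz ⟨b', z'⟩ hbz' heq
      simp only [Finset.coe_product, Set.mem_prod, Finset.mem_coe, Finset.mem_filter,
        Finset.mem_range, Finset.mem_univ, true_and] at hbz hbz'
      have key : ∀ (b b' : ℕ) (z z' : H), b < p → b' < p → z ∈ Subgroup.center H →
          z' ∈ Subgroup.center H → b ≤ b' → x ^ b * z = x ^ b' * z' → b = b' ∧ z = z' := by
        intro b b' z z' hb hb' hz hz' hle heq
        have h1 : x ^ b' = x ^ b * x ^ (b' - b) := by
          rw [← pow_add]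
          congr 1
          omega
        rw [h1, mul_assoc] at heq
        have h2 : z = x ^ (b' - b) * z' := mul_left_cancel heq
        have h3 : x ^ (b' - b) = z * z'⁻¹ := by rw [h2, mul_inv_cancel_right]
        have h4 : x ^ (b' - b) ∈ Subgroup.center H := by
          rw [h3]
          exact Subgroup.mul_mem _ hz (Subgroup.inv_mem _ hz')
        have h5 : b' - b = 0 := Nat.eq_zero_of_dvd_of_lt (hxZ _ h4) (by omega)
        refine ⟨by omega, ?_⟩
        rw [h5, pow_zero, one_mul] at h2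
        exact h2
      rcases le_total b b' with hle | hle
      · obtain ⟨e1, e2⟩ := key b b' z z' hbz.1.1 hbz'.1.1 hbz.2 hbz'.2 hle heq
        rw [e1, e2]
      · obtain ⟨e1, e2⟩ := key b' b z' z hbz'.1.1 hbz.1.1 hbz'.2 hbz.2 hle heq.symm
        rw [e1, e2]
  have hNc : Ncard = (p : ℝ) * (d : ℝ) * (Nat.card (Subgroup.center H) : ℝ) := by
    rw [hNcard, hnormcard]
    push_cast
    ring
  rw [hW, hNc] at hdc
  have hZpos : (0 : ℝ) < (Nat.card (Subgroup.center H) : ℝ) := by exact_mod_cast Nat.card_pos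
  have hdpos : (0 : ℝ) < (d : ℝ) := by exact_mod_cast hd1
  have hne : (d : ℝ) * (Nat.card (Subgroup.center H) : ℝ) ≠ 0 := (mul_pos hdpos hZpos).ne'
  apply mul_left_cancel₀ hne
  linear_combination -hdc

/-- SING -/
theorem s4504_sing {H : Type u} [Group H] [Fintype H] (p : ℕ) [Fact p.Prime] (x : H)
    (χ : H → ℂ) (h : S4504Hyp p x χ) (d : ℕ) (hd : Cfsg.charDegree χ = d)
    (T : S4504Tab p d x χ) :
    (p : ℝ) * ∑ g ∈ Finset.univ.filter (fun g : H => p ∣ orderOf g),
        (‖χ g‖ ^ 4 - ‖χ g‖ ^ 2)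
      = (Nat.card H : ℝ) * (‖χ x‖ ^ 4 - ‖χ x‖ ^ 2
          + (‖(T.χ₂ : H → ℂ) x‖ ^ 4 - ‖(T.χ₂ : H → ℂ) x‖ ^ 2)) := by
  have hcl : Cfsg.IsClassFunction H χ := by
    obtain ⟨n, ρ, -, hρ⟩ := h.hχ
    exact Cfsg.Agent.Helper15.isClassFunction_of_isChar ⟨n, ρ, hρ⟩
  have hpd : p = 2 * d + 1 := by rw [← hd]; exact h.hdeg.symm
  refine s4504s_core p x h.grp d hpd T.hcent T.hnormcard (fun g => ‖χ g‖ ^ 4 - ‖χ g‖ ^ 2)
    (fun a g => ?_) (fun g z hz => ?_) (fun b => χ (x ^ b) = χ x) _ _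
    ((Finset.range p).filter (fun b => b ≠ 0 ∧ χ (x ^ b) = χ x)) (fun b => ?_) T.hhalf
    (fun b hb hP => ?_) (fun b hb hP => ?_)
  · show ‖χ (a * g * a⁻¹)‖ ^ 4 - ‖χ (a * g * a⁻¹)‖ ^ 2 = ‖χ g‖ ^ 4 - ‖χ g‖ ^ 2
    rw [hcl g a]
  · show ‖χ (g * z)‖ ^ 4 - ‖χ (g * z)‖ ^ 2 = ‖χ g‖ ^ 4 - ‖χ g‖ ^ 2
    rw [s4504s_norm_mul_center χ h.hχ g z hz]
  · rw [Finset.mem_filter, Finset.mem_range]
  · show ‖χ (x ^ b)‖ ^ 4 - ‖χ (x ^ b)‖ ^ 2 = ‖χ x‖ ^ 4 - ‖χ x‖ ^ 2
    rw [hP]
  · show ‖χ (x ^ b)‖ ^ 4 - ‖χ (x ^ b)‖ ^ 2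
      = ‖(T.χ₂ : H → ℂ) x‖ ^ 4 - ‖(T.χ₂ : H → ℂ) x‖ ^ 2
    rw [(T.hswap b hb hP).1]

end Cfsg.Agent.Helper4
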