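import Mathlib
import Cfsg.Agent.Helper71.T4Defs

/-!
# Helper4: core of piece CR (`conj_root`) of CALL S5637, with `zero_block` as a hypothesis
-/

set_option autoImplicit false

namespace Cfsg.Agent.Helper4.T4CRCore

open Matrix Cfsg.Agent.Helper71.T4
open scoped Kronecker

variable {F : Type*} [Field F] {a b : ℕ}

theorem blk_sub_mat (z₁ z₂ : Matrix (Fin a × Fin b) (Fin a × Fin b) F) (β w : Fin b → F) :
    blk (z₁ - z₂) β w = blk z₁ β w - blk z₂ β w := by
  ext i j
  simp only [blk_apply, Matrix.sub_apply, mul_sub, sub_mul, Finset.sum_sub_distrib]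

/-- a non-scalar matrix moves some vector off its line -/
theorem exists_of_not_scalar (ha : 1 ≤ a) (A : Matrix (Fin a) (Fin a) F)
    (hA : ¬ ∃ c : F, A = c • (1 : Matrix (Fin a) (Fin a) F)) :
    ∃ u α : Fin a → F, α ⬝ᵥ u = 0 ∧ α ⬝ᵥ (A *ᵥ u) = 1 := by
  classical
  by_cases hoff : ∃ i j, i ≠ j ∧ A i j ≠ 0
  · obtain ⟨i, j, hij, hAij⟩ := hoff
    refine ⟨Pi.single j 1, Pi.single i (A i j)⁻¹, ?_, ?_⟩
    · simp [hij]
    · simp [hAij]
  · push Not at hoff
    by_cases hd : ∃ i j, A i i ≠ A j j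
    · obtain ⟨i, j, hij⟩ := hd
      have hne : i ≠ j := by rintro rfl; exact hij rfl
      have hsub : A i i - A j j ≠ 0 := sub_ne_zero.mpr hij
      refine ⟨Pi.single i 1 + Pi.single j 1,
        (A i i - A j j)⁻¹ • (Pi.single i 1 - Pi.single j 1), ?_, ?_⟩
      · simp [hne, hne.symm, dotProduct_add]
      · simp only [smul_dotProduct, sub_dotProduct, Matrix.mulVec_add, dotProduct_add,
          single_dotProduct, one_mul, Matrix.mulVec_single_one, smul_eq_mul]
        simp only [Matrix.col_apply]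
        rw [hoff i j hne, hoff j i hne.symm]
        field_simp
        ring
    · push Not at hd
      exfalso
      apply hA
      refine ⟨A ⟨0, ha⟩ ⟨0, ha⟩, ?_⟩
      ext i j
      by_cases hij : i = j
      · subst hij
        simp [hd i ⟨0, ha⟩]
      · simp [hij, hoff i j hij]

/-- a matrix with fewer rows than columns kills a non-zero vector -/
theorem exists_ker (hab : a < b) (Gm : Matrix (Fin a) (Fin b) F) :
    ∃ v : Fin b → F, v ≠ 0 ∧ Gm *ᵥ v = 0 := by
  have hk : LinearMap.ker (Matrix.mulVecLin Gm) ≠ ⊥ := by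
    apply LinearMap.ker_ne_bot_of_finrank_lt
    simp only [Module.finrank_pi, Fintype.card_fin]
    exact hab
  obtain ⟨v, hv, hv0⟩ := (Submodule.ne_bot_iff _).1 hk
  exact ⟨v, hv0, by simpa using LinearMap.mem_ker.1 hv⟩

theorem conj_root_core (ha : 1 ≤ a) (hab : a < b) (M : Subgroup (GL (Fin a × Fin b) F))
    (g : GL (Fin a × Fin b) F) (hg : g ∈ M) (w β : Fin b → F)
    (hw : w ≠ 0) (hβ : β ≠ 0) (h : β ⬝ᵥ w = 0)
    (hk : IsKron ((g : Matrix (Fin a × Fin b) (Fin a × Fin b) F) *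
      (1 + (1 : Matrix (Fin a) (Fin a) F) ⊗ₖ vecMulVec w β) *
      ((g⁻¹ : GL (Fin a × Fin b) F) : Matrix (Fin a × Fin b) (Fin a × Fin b) F)))
    (hZB : ∀ x : GL (Fin a × Fin b) F, x ∈ M → ∀ β w' : Fin b → F, β ≠ 0 → w' ≠ 0 →
      blk ((x⁻¹ : GL (Fin a × Fin b) F) : Matrix (Fin a × Fin b) (Fin a × Fin b) F) β w' = 0 →
      IsKron (x : Matrix (Fin a × Fin b) (Fin a × Fin b) F)) :
    IsKron (g : Matrix (Fin a × Fin b) (Fin a × Fin b) F) := by
  classical
  haveI : Nonempty (Fin a) := ⟨⟨0, ha⟩⟩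
  haveI : Nonempty (Fin b) := ⟨⟨0, by omega⟩⟩
  obtain ⟨A, B, hAB⟩ := hk
  have hGGi : (g : Matrix (Fin a × Fin b) (Fin a × Fin b) F) *
      ((g⁻¹ : GL (Fin a × Fin b) F) : Matrix (Fin a × Fin b) (Fin a × Fin b) F) = 1 := by
    rw [← Units.val_mul, mul_inv_cancel, Units.val_one]
  have hGiG : ((g⁻¹ : GL (Fin a × Fin b) F) : Matrix (Fin a × Fin b) (Fin a × Fin b) F) *
      (g : Matrix (Fin a × Fin b) (Fin a × Fin b) F) = 1 := by
    rw [← Units.val_mul, inv_mul_cancel, Units.val_one]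
  generalize hG : (g : Matrix (Fin a × Fin b) (Fin a × Fin b) F) = G at hAB hGGi hGiG
  generalize hGi : ((g⁻¹ : GL (Fin a × Fin b) F) : Matrix (Fin a × Fin b) (Fin a × Fin b) F) = Gi
    at hAB hGGi hGiG
  have hNN : ((1 : Matrix (Fin a) (Fin a) F) ⊗ₖ vecMulVec w β) *
      ((1 : Matrix (Fin a) (Fin a) F) ⊗ₖ vecMulVec w β) = 0 := by
    rw [← Matrix.mul_kronecker_mul, vecMulVec_sq w β h, Matrix.kronecker_zero]
  generalize hN : (1 : Matrix (Fin a) (Fin a) F) ⊗ₖ vecMulVec w β = N at hAB hNN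
  have hconj : G * N * Gi = A ⊗ₖ B - 1 := by
    have h1 : G * (1 + N) * Gi = G * N * Gi + 1 := by
      rw [mul_add, mul_one, add_mul, hGGi, add_comm]
    rw [h1] at hAB
    exact eq_sub_of_add_eq hAB
  have hE : ∀ β' w'' : Fin b → F, blk G β' w * blk Gi β w'' =
      (β' ⬝ᵥ B *ᵥ w'') • A - (β' ⬝ᵥ w'') • (1 : Matrix (Fin a) (Fin a) F) := by
    intro β' w''
    rw [← blk_mul_vmv_mul, hN, hconj, blk_sub_mat, blk_kron, blk_one]
  by_cases hsc : ∃ c : F, A = c • (1 : Matrix (Fin a) (Fin a) F)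
  · obtain ⟨c, rfl⟩ := hsc
    have hconj' : G * N * Gi = (1 : Matrix (Fin a) (Fin a) F) ⊗ₖ (c • B - 1) := by
      have h1 : (1 : Matrix (Fin a) (Fin a) F) ⊗ₖ (c • B - 1) +
          (1 : Matrix (Fin a) (Fin a) F) ⊗ₖ (1 : Matrix (Fin b) (Fin b) F) =
          (c • (1 : Matrix (Fin a) (Fin a) F)) ⊗ₖ B := by
        rw [← Matrix.kronecker_add, sub_add_cancel, Matrix.smul_kronecker, Matrix.kronecker_smul]
      rw [Matrix.one_kronecker_one] at h1
      rw [hconj, ← h1, add_sub_cancel_right]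
    generalize hT : c • B - 1 = T at hconj'
    have hsq : ((1 : Matrix (Fin a) (Fin a) F) ⊗ₖ T) * ((1 : Matrix (Fin a) (Fin a) F) ⊗ₖ T) = 0 := by
      rw [← hconj']
      calc G * N * Gi * (G * N * Gi) = G * N * (Gi * G) * N * Gi := by simp only [mul_assoc]
        _ = G * (N * N) * Gi := by rw [hGiG, mul_one, mul_assoc G N N]
        _ = 0 := by rw [hNN, mul_zero, zero_mul]
    have hTT : T * T = 0 := by
      rw [← Matrix.mul_kronecker_mul, one_mul] at hsq
      ext k l
      have := congrFun (congrFun hsq (⟨0, ha⟩, k)) (⟨0, ha⟩, l)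
      simpa [Matrix.kronecker_apply] using this
    have hdetT : T.det = 0 := by
      have := congrArg Matrix.det hTT
      rw [Matrix.det_mul, Matrix.det_zero] at this
      exact mul_self_eq_zero.mp this
    obtain ⟨β'', hβ''0, hβ''⟩ := Matrix.exists_vecMul_eq_zero_iff.mpr hdetT
    have hz : ∀ w₁ : Fin b → F, blk G β'' w * blk Gi β w₁ = 0 := by
      intro w₁
      rw [← blk_mul_vmv_mul, hN, hconj', blk_kron, Matrix.dotProduct_mulVec, hβ'',
        zero_dotProduct, zero_smul]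
    obtain ⟨wβ, hwβ⟩ := exists_dot_eq_one β hβ
    have hzero : blk G β'' w = 0 := by
      have h1 : blk G β'' w = blk G β'' w * blk (Gi * G) β wβ := by
        rw [hGiG, blk_one, hwβ, one_smul, mul_one]
      rw [h1, blk_mul, Finset.mul_sum]
      apply Finset.sum_eq_zero
      intro l _
      rw [← mul_assoc, hz, zero_mul]
    have := hZB g⁻¹ (M.inv_mem hg) β'' w hβ''0 hw (by rw [inv_inv, hG]; exact hzero)
    exact hG ▸ isKron_inv g this
  · exfalso
    obtain ⟨u, α, hαu, hαAu⟩ := exists_of_not_scalar ha A hsc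
    have hB : ∀ k l : Fin b, B k l =
        α ⬝ᵥ ((blk G (Pi.single k 1) w * blk Gi β (Pi.single l 1)) *ᵥ u) := by
      intro k l
      rw [hE, Matrix.sub_mulVec, Matrix.smul_mulVec, Matrix.smul_mulVec, Matrix.one_mulVec,
        dotProduct_sub, dotProduct_smul, dotProduct_smul, hαu, hαAu]
      simp
    obtain ⟨v, hv0, hv⟩ := exists_ker hab
      (Matrix.of fun (i : Fin a) (l : Fin b) => (blk Gi β (Pi.single l 1) *ᵥ u) i)
    have hBv : B *ᵥ v = 0 := by
      ext k
      have h1 : (B *ᵥ v) k = α ⬝ᵥ (blk G (Pi.single k 1) w *ᵥ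
          ((Matrix.of fun (i : Fin a) (l : Fin b) => (blk Gi β (Pi.single l 1) *ᵥ u) i) *ᵥ v)) := by
        have hGmv : (Matrix.of fun (i : Fin a) (l : Fin b) =>
            (blk Gi β (Pi.single l 1) *ᵥ u) i) *ᵥ v =
            ∑ l, v l • (blk Gi β (Pi.single l 1) *ᵥ u) := by
          ext i
          simp only [Matrix.mulVec, dotProduct, Matrix.of_apply, Finset.sum_apply, Pi.smul_apply,
            smul_eq_mul]
          exact Finset.sum_congr rfl fun l _ => mul_comm _ _
        rw [hGmv, Matrix.mulVec_sum, dotProduct_sum]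
        simp only [Matrix.mulVec_smul, dotProduct_smul, Matrix.mulVec_mulVec, smul_eq_mul]
        show ∑ l, B k l * v l = _
        refine Finset.sum_congr rfl fun l _ => ?_
        rw [hB k l, mul_comm]
      rw [h1, hv, Matrix.mulVec_zero, dotProduct_zero, Pi.zero_apply]
    have hdetB : B.det = 0 := Matrix.exists_mulVec_eq_zero_iff.mp ⟨v, hv0, hBv⟩
    have hdet : (A ⊗ₖ B).det = 0 := by
      rw [Matrix.det_kronecker, hdetB]
      simp only [Fintype.card_fin]
      rw [zero_pow (by omega), mul_zero]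
    have hunit : (A ⊗ₖ B).det ≠ 0 := by
      rw [← hAB, Matrix.det_mul, Matrix.det_mul]
      have h1 : G.det * Gi.det = 1 := by rw [← Matrix.det_mul, hGGi, Matrix.det_one]
      have h2 : (1 + N).det * (1 - N).det = 1 := by
        rw [← Matrix.det_mul]
        have : (1 + N) * (1 - N) = 1 := by
          rw [add_mul, mul_sub, mul_sub, hNN]
          simp
        rw [this, Matrix.det_one]
      intro h0
      have h3 : G.det ≠ 0 := left_ne_zero_of_mul_eq_one h1
      have h4 : Gi.det ≠ 0 := right_ne_zero_of_mul_eq_one h1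
      have h5 : (1 + N).det ≠ 0 := left_ne_zero_of_mul_eq_one h2
      exact mul_ne_zero (mul_ne_zero h3 h5) h4 h0
    exact hunit hdet

end Cfsg.Agent.Helper4.T4CRCore
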