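import Mathlib
import Cfsg.Agent.Helper71.T4Defs

/-!
# Helper4: piece ZC2 (`zc_core`) of CALL S5637
-/

set_option autoImplicit false

namespace Cfsg.Agent.Helper4.T4ZC2

open Matrix Cfsg.Agent.Helper71.T4
open scoped Kronecker

variable {F : Type*} [Field F] {a b : ℕ}

/-! ## Piece ZC2 -/
theorem zc_core (ha : 1 ≤ a) (hb : 3 ≤ b) (x y : Matrix (Fin a × Fin b) (Fin a × Fin b) F)
    (hxy : x * y = 1) (hyx : y * x = 1) (β w' : Fin b → F) (hβ : β ≠ 0)
    (hnz : (∀ w β' : Fin b → F, β ⬝ᵥ w = 0 → β' ⬝ᵥ w' = 0 → blk x β' w = 0) → False)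
    (hsp : ∀ w β' w'' : Fin b → F, β ⬝ᵥ w = 0 → β' ⬝ᵥ w' = 0 →
      ∃ c : F, blk x β' w * blk y β w'' = c • (1 : Matrix (Fin a) (Fin a) F)) :
    ∃ (B : Matrix (Fin a) (Fin a) F) (bt : Fin b → F), B.det ≠ 0 ∧ bt ≠ 0 ∧
      ∀ w'' : Fin b → F, blk y β w'' = (bt ⬝ᵥ w'') • B := by
  classical
  haveI : Nonempty (Fin a) := ⟨⟨0, ha⟩⟩
  -- a nonzero block of `x`
  obtain ⟨w₀, β₀, hw₀, hβ₀, hP⟩ : ∃ w₀ β₀ : Fin b → F, β ⬝ᵥ w₀ = 0 ∧ β₀ ⬝ᵥ w' = 0 ∧
      blk x β₀ w₀ ≠ 0 := by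
    by_contra hcon
    apply hnz
    intro w β' h1 h2
    by_contra h3
    exact hcon ⟨w, β', h1, h2, h3⟩
  set P := blk x β₀ w₀ with hPdef
  have hc : ∀ w'' : Fin b → F, ∃ c : F, P * blk y β w'' = c • (1 : Matrix (Fin a) (Fin a) F) :=
    fun w'' => hsp w₀ β₀ w'' hw₀ hβ₀
  choose c hc using hc
  -- some `c w''` is nonzero
  obtain ⟨w₁, hw₁⟩ : ∃ w₁ : Fin b → F, c w₁ ≠ 0 := by
    by_contra hcon
    push Not at hcon
    obtain ⟨wβ, hwβ⟩ := exists_dot_eq_one β hβ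
    have h1 : P = P * blk (y * x) β wβ := by
      rw [hyx, blk_one, hwβ, one_smul, mul_one]
    rw [blk_mul, Finset.mul_sum] at h1
    apply hP
    rw [h1]
    apply Finset.sum_eq_zero
    intro l _
    rw [← mul_assoc, hc, hcon, zero_smul, zero_mul]
  set B := blk y β w₁ with hBdef
  have hPB : P * (c w₁)⁻¹ • B = 1 := by
    rw [Matrix.mul_smul, hc, smul_smul, inv_mul_cancel₀ hw₁, one_smul]
  have hBP : (c w₁)⁻¹ • B * P = 1 := mul_eq_one_comm.mp hPB
  have hdetB : B.det ≠ 0 := by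
    intro h0
    have h1 := congrArg Matrix.det hPB
    rw [Matrix.det_mul, Matrix.det_smul, h0, mul_zero, mul_zero, Matrix.det_one] at h1
    exact zero_ne_one h1
  have hall : ∀ w'' : Fin b → F, blk y β w'' = ((c w₁)⁻¹ * c w'') • B := by
    intro w''
    have h1 : blk y β w'' = ((c w₁)⁻¹ • B * P) * blk y β w'' := by rw [hBP, one_mul]
    rw [h1, mul_assoc, hc, Matrix.mul_smul, mul_one, smul_smul, mul_comm]
  refine ⟨B, fun l => (c w₁)⁻¹ * c (Pi.single l 1), hdetB, ?_, ?_⟩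
  · intro hbt
    have h1 : ∀ l : Fin b, blk y β (Pi.single l 1) = 0 := by
      intro l
      rw [hall]
      have := congrFun hbt l
      simp only [Pi.zero_apply] at this
      rw [this, zero_smul]
    have h2 : B = 0 := by
      rw [hBdef, blk_sum_right]
      apply Finset.sum_eq_zero
      intro l _
      rw [h1, smul_zero]
    apply hdetB
    rw [h2]; exact Matrix.det_zero
  · intro w''
    rw [blk_sum_right]
    simp only [hall, smul_smul]
    rw [← Finset.sum_smul]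
    congr 1
    simp only [dotProduct]
    refine Finset.sum_congr rfl fun l _ => ?_
    ring

end Cfsg.Agent.Helper4.T4ZC2
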