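import Mathlib
import Cfsg.Agent.Helper71.T4Defs
import Cfsg.Agent.Helper71.T4ZB
import Cfsg.Agent.Helper4.T4CRCore

/-!
# Helper4: piece CR (`conj_root`) of CALL S5637
-/

set_option autoImplicit false

namespace Cfsg.Agent.Helper4.T4CR

open Matrix Cfsg.Agent.Helper71.T4
open scoped Kronecker

variable {F : Type*} [Field F] {a b : ℕ}

/-! ## Piece CR -/
theorem conj_root (ha : 1 ≤ a) (hab : a < b) (hb : 3 ≤ b) (M : Subgroup (GL (Fin a × Fin b) F))
    (hS : HasS M) (hNS : NS M) (g : GL (Fin a × Fin b) F) (hg : g ∈ M) (w β : Fin b → F)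
    (hw : w ≠ 0) (hβ : β ≠ 0) (h : β ⬝ᵥ w = 0)
    (hk : IsKron ((g : Matrix (Fin a × Fin b) (Fin a × Fin b) F) *
      (1 + (1 : Matrix (Fin a) (Fin a) F) ⊗ₖ vecMulVec w β) *
      ((g⁻¹ : GL (Fin a × Fin b) F) : Matrix (Fin a × Fin b) (Fin a × Fin b) F))) :
    IsKron (g : Matrix (Fin a × Fin b) (Fin a × Fin b) F) := by
  exact Cfsg.Agent.Helper4.T4CRCore.conj_root_core ha hab M g hg w β hw hβ h hk
    (fun x hx β' w' hβ' hw' h0 =>
      Cfsg.Agent.Helper71.T4ZB.zero_block ha hb M hS hNS x hx β' w' hβ' hw' h0)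

end Cfsg.Agent.Helper4.T4CR
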