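import Mathlib
import Cfsg.Agent.Helper71.SQDefs

/-!
helper4: piece FX (`fix_vec`) of CALL S5867 (helper71).
-/

set_option autoImplicit false

namespace Cfsg.Agent.Helper4.SQFX

open Matrix Cfsg.Agent.Helper71.T4 Cfsg.Agent.Helper71.SO Cfsg.Agent.Helper71.SQ
open scoped Kronecker

variable {F : Type*} [Field F] {m n : ℕ}

/-- `bl J x a = - bl J a x` for an antisymmetric `J`. -/
theorem bl_antisymm (J : Matrix (Fin m) (Fin m) F) (hJ : Jᵀ = -J) (x a : Fin m → F) :
    bl J x a = - bl J a x := by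
  unfold bl
  rw [Matrix.dotProduct_mulVec, ← Matrix.mulVec_transpose, hJ, Matrix.neg_mulVec,
    neg_dotProduct, dotProduct_comm]

/-- Entries of `(A ⊗ 1) v`. -/
theorem kron_one_mulVec_apply (A : Matrix (Fin m) (Fin m) F) (v : Fin m × Fin n → F)
    (i : Fin m) (k : Fin n) :
    ((A ⊗ₖ (1 : Matrix (Fin n) (Fin n) F)) *ᵥ v) (i, k) = (A *ᵥ fun j => v (j, k)) i := by
  simp only [Matrix.mulVec, dotProduct, Fintype.sum_prod_type, kroneckerMap_apply,
    Matrix.one_apply]
  refine Finset.sum_congr rfl fun j _ => ?_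
  rw [Finset.sum_eq_single k]
  · simp
  · intro l _ hl
    simp [Ne.symm hl]
  · intro h
    exact absurd (Finset.mem_univ k) h

theorem fix_vec (hnm : n < m) (J : Matrix (Fin m) (Fin m) F) (hJ : Jᵀ = -J)
    (v : Fin m × Fin n → F) :
    ∃ a : Fin m → F, a ≠ 0 ∧
      ∀ c : F, (Tac J a c ⊗ₖ (1 : Matrix (Fin n) (Fin n) F)) *ᵥ v = v := by
  let L : (Fin m → F) →ₗ[F] (Fin n → F) :=
    { toFun := fun a k => bl J a (fun i => v (i, k))
      map_add' := by
        intro a b
        funext k
        simp [bl, add_dotProduct]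
      map_smul' := by
        intro c a
        funext k
        simp [bl, smul_dotProduct] }
  have hker : ∃ a : Fin m → F, a ≠ 0 ∧ L a = 0 := by
    by_contra hcon
    push Not at hcon
    have hinj : Function.Injective L := by
      rw [injective_iff_map_eq_zero]
      intro a ha
      by_contra h
      exact hcon a h ha
    have hle := LinearMap.finrank_le_finrank_of_injective hinj
    simp only [Module.finrank_fintype_fun_eq_card, Fintype.card_fin] at hle
    omega
  obtain ⟨a, ha0, hLa⟩ := hker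
  refine ⟨a, ha0, fun c => ?_⟩
  funext ⟨i, k⟩
  have hk : bl J a (fun i => v (i, k)) = 0 := congrFun hLa k
  have hk' : bl J (fun i => v (i, k)) a = 0 := by
    rw [bl_antisymm J hJ, hk, neg_zero]
  rw [kron_one_mulVec_apply]
  unfold Tac
  rw [Matrix.add_mulVec, Matrix.one_mulVec, Matrix.smul_mulVec, Matrix.vecMulVec_mulVec]
  have h0 : (J *ᵥ a) ⬝ᵥ (fun j => v (j, k)) = 0 := by
    rw [dotProduct_comm]
    exact hk'
  simp [h0]

end Cfsg.Agent.Helper4.SQFX
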