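import Mathlib
import Cfsg.Agent.Helper4.TwoDegChar
import Cfsg.Agent.Helper15.RamGen
import Cfsg.Agent.Helper79.Codegree
import Cfsg.Agent.S4456

/-!
# Groups with two character degrees: the Hall subgroup and the nilpotent case (Isaacs 12.5)

* `twoDeg_exists_hall`: if `cd(G) ⊆ {1, m}` then `G` has an abelian normal Hall subgroup `N` with
  `G / N` nilpotent (intersection of the normal `p`-complements of Thompson's theorem).
* `twoDeg_nilpotent`: if moreover `G` is nilpotent then `m` is a prime power and `G = P × A` with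
  `P` a `p`-group and `A` abelian.
-/

set_option autoImplicit false

namespace Cfsg.Agent.Helper4

open Cfsg

universe u

/-- Every irreducible character of a normal subgroup lies under an irreducible character of the
group, whose degree is a multiple. -/
theorem twoDeg_exists_irr_over {G : Type u} [Group G] [Finite G] (N : Subgroup G) [N.Normal]
    (ψ : IrrCharacter ↥N) :
    ∃ (χ : IrrCharacter G) (k : ℕ),
      charDegree (χ : G → ℂ) = k * charDegree (ψ : ↥N → ℂ) := by
  classical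
  let _ : Fintype G := Fintype.ofFinite G
  let _ : Fintype N := Fintype.ofFinite N
  have hψc : IsCharacter ↥N (ψ : ↥N → ℂ) := Helper80.isCharacter_of_irr ψ.2
  have hΦ : IsCharacter G (indFun N (ψ : ↥N → ℂ)) := Helper3.isCharacter_indFun N _ hψc
  have hΦ1 : indFun N (ψ : ↥N → ℂ) 1 ≠ 0 := by
    rw [Helper79.indFun_apply_one]
    apply mul_ne_zero
    · exact_mod_cast (Subgroup.index_ne_zero_of_finite : N.index ≠ 0)
    · exact Helper80.irr_one_ne_zero ψ
  obtain ⟨χ, hχ, hχΦ⟩ := Helper75.exists_irr_constituent hΦ hΦ1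
  have hχcl : IsClassFunction G χ :=
    Helper75.isCharacter_isClassFunction' (Helper80.isCharacter_of_irr hχ)
  rw [Helper3.frobenius_reciprocity N _ _ hχcl] at hχΦ
  have hc : classInner (fun n : N => χ n) (ψ : ↥N → ℂ) ≠ 0 := by
    rw [Helper79.classInner_conj_symm]
    intro h0
    apply hχΦ
    have := congrArg (starRingEnd ℂ) h0
    rwa [Complex.conj_conj, map_zero] at this
  obtain ⟨k, hk, -⟩ := Helper15.degree_eq_mul_of_constituent N χ hχ (ψ : ↥N → ℂ) ψ.2 hc
  refine ⟨⟨χ, hχ⟩, k, ?_⟩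
  have h1 := Helper80.irr_one_eq (⟨χ, hχ⟩ : IrrCharacter G)
  have h2 := Helper80.irr_one_eq ψ
  have h3 : ((charDegree χ : ℕ) : ℂ) = ((k * charDegree (ψ : ↥N → ℂ) : ℕ) : ℂ) := by
    push_cast
    rw [← h2, ← hk]
    exact h1.symm
  exact_mod_cast h3

/-- A group with `cd(G) ⊆ {1, m}` has an abelian normal Hall subgroup with nilpotent quotient. -/
theorem twoDeg_exists_hall {G : Type u} [Group G] [Finite G] (m : ℕ) (hm0 : m ≠ 0)
    (hcd : ∀ χ : IrrCharacter G, charDegree (χ : G → ℂ) = 1 ∨ charDegree (χ : G → ℂ) = m) :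
    ∃ N : Subgroup G, ∃ _hN : N.Normal, (∀ a ∈ N, ∀ b ∈ N, a * b = b * a) ∧
      Nat.Coprime (Nat.card N) N.index ∧ Group.IsNilpotent (G ⧸ N) := by
  classical
  have hK : ∀ p : ↥m.primeFactors, ∃ K : Subgroup G, K.Normal ∧ (Nat.card K).Coprime p.1 ∧
      ∃ k : ℕ, K.index = p.1 ^ k := by
    intro p
    apply Cfsg.Agent.S4456.result p.1 (Nat.prime_of_mem_primeFactors p.2)
    intro χ hχ
    rcases hcd χ with h | h
    · exact absurd h hχ
    · rw [h]
      exact Nat.dvd_of_mem_primeFactors p.2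
  choose K hKn hKcop hKidx using hK
  choose e hKe using hKidx
  haveI : ∀ p, (K p).Normal := hKn
  let φ : G →* ∀ p : ↥m.primeFactors, G ⧸ K p :=
    MonoidHom.pi (fun p => QuotientGroup.mk' (K p))
  have hmem : ∀ g : G, g ∈ φ.ker ↔ ∀ p, g ∈ K p := by
    intro g
    rw [MonoidHom.mem_ker]
    constructor
    · intro h p
      have := congrFun h p
      exact (QuotientGroup.eq_one_iff g).mp this
    · intro h
      funext p
      exact (QuotientGroup.eq_one_iff g).mpr (h p)
  have hle : ∀ p, φ.ker ≤ K p := fun p g hg => (hmem g).mp hg p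
  have hcopp : ∀ p : ↥m.primeFactors, (Nat.card φ.ker).Coprime p.1 := fun p =>
    Nat.Coprime.coprime_dvd_left (Subgroup.card_dvd_of_le (hle p)) (hKcop p)
  have hcard : ∀ p, Nat.card (G ⧸ K p) = p.1 ^ e p := fun p => by
    rw [← Subgroup.index_eq_card, hKe p]
  have hidx : φ.ker.index ∣ ∏ p : ↥m.primeFactors, p.1 ^ e p := by
    rw [Subgroup.index_eq_card]
    have h1 := Subgroup.card_dvd_of_injective (QuotientGroup.kerLift φ)
      (QuotientGroup.kerLift_injective φ)
    rw [Nat.card_pi] at h1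
    rw [Finset.prod_congr rfl (fun p _ => hcard p)] at h1
    exact h1
  have hcop : Nat.Coprime (Nat.card φ.ker) φ.ker.index :=
    Nat.Coprime.coprime_dvd_right hidx
      (Nat.Coprime.prod_right (fun p _ => (hcopp p).pow_right _))
  have hnil : Group.IsNilpotent (G ⧸ φ.ker) := by
    haveI : ∀ p : ↥m.primeFactors, Group.IsNilpotent (G ⧸ K p) := by
      intro p
      haveI : Fact p.1.Prime := ⟨Nat.prime_of_mem_primeFactors p.2⟩
      exact (IsPGroup.of_card (hcard p)).isNilpotent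
    exact Group.nilpotent_of_mulEquiv (QuotientGroup.quotientKerEquivRange φ).symm
  have hlin : ∀ ψ : IrrCharacter ↥φ.ker, charDegree (ψ : ↥φ.ker → ℂ) = 1 := by
    intro ψ
    obtain ⟨χ, k, hk⟩ := twoDeg_exists_irr_over φ.ker ψ
    have hdvd : charDegree (ψ : ↥φ.ker → ℂ) ∣ Nat.card φ.ker :=
      Helper79.irr_charDegree_dvd_card ψ
    rcases hcd χ with h | h
    · rw [hk] at h
      exact Nat.eq_one_of_mul_eq_one_left h
    · by_contra hne
      obtain ⟨r, hr, hrd⟩ := Nat.exists_prime_and_dvd hne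
      have hrm : r ∣ m := by
        rw [← h, hk]
        exact Dvd.dvd.mul_left hrd k
      have hrmem : r ∈ m.primeFactors := Nat.mem_primeFactors.mpr ⟨hr, hrm, hm0⟩
      have h1 := hcopp ⟨r, hrmem⟩
      have h2 : r ∣ Nat.card φ.ker := hrd.trans hdvd
      exact hr.one_lt.ne' (Nat.Coprime.eq_one_of_dvd h1.symm h2)
  have hab : ∀ a ∈ φ.ker, ∀ b ∈ φ.ker, a * b = b * a := by
    intro a ha b hb
    have h1 := twoDeg_commutator_le (H := ↥φ.ker) ⊥ (fun β _ => hlin β) ⟨a, ha⟩ ⟨b, hb⟩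
    rw [Subgroup.mem_bot] at h1
    have h2 := congrArg Subtype.val h1
    have h3 : a * b * a⁻¹ * b⁻¹ = 1 := h2
    calc a * b = (a * b * a⁻¹ * b⁻¹) * (b * a) := by group
      _ = b * a := by rw [h3, one_mul]
  exact ⟨φ.ker, inferInstance, hab, hcop, hnil⟩

/-- Isaacs 12.5, the nilpotent case. -/
theorem twoDeg_nilpotent {G : Type u} [Group G] [Finite G] [hnil : Group.IsNilpotent G] (m : ℕ)
    (hcd : ∀ χ : IrrCharacter G, charDegree (χ : G → ℂ) = 1 ∨ charDegree (χ : G → ℂ) = m)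
    (hm : ∃ χ : IrrCharacter G, charDegree (χ : G → ℂ) = m) (hm1 : m ≠ 1) :
    ∃ p e : ℕ, p.Prime ∧ m = p ^ e ∧ ∃ P A : Subgroup G, P.Normal ∧ A.Normal ∧ IsPGroup p P ∧
      (∀ a ∈ A, ∀ b ∈ A, a * b = b * a) ∧ P ⊓ A = ⊥ ∧ P ⊔ A = ⊤ := by
  classical
  obtain ⟨χm, hχm⟩ := hm
  have hp : m.minFac.Prime := Nat.minFac_prime hm1
  obtain ⟨p, hpdef⟩ : ∃ p : ℕ, p = m.minFac := ⟨_, rfl⟩
  rw [← hpdef] at hp
  haveI : Fact p.Prime := ⟨hp⟩
  have hpm : p ∣ m := by
    rw [hpdef]
    exact Nat.minFac_dvd m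
  obtain ⟨K, hKn, hKcop, k, hKidx⟩ := Cfsg.Agent.S4456.result p hp (by
    intro χ hχ
    rcases hcd χ with h | h
    · exact absurd h hχ
    · rw [h]
      exact hpm)
  let P : Sylow p G := default
  haveI hPn : (P : Subgroup G).Normal := inferInstance
  have hPidx : ¬ p ∣ (P : Subgroup G).index := P.not_dvd_index
  have hGP : ∀ x y : G, x * y * x⁻¹ * y⁻¹ ∈ (P : Subgroup G) := by
    apply twoDeg_commutator_le (P : Subgroup G)
    intro β hβ
    obtain ⟨ψ, hψ, hψβ⟩ := Helper79.exists_irr_deflation (P : Subgroup G) β.2 hβ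
    have hdeg : charDegree ψ = charDegree (β : G → ℂ) := by
      unfold charDegree
      rw [← hψβ 1]
      rfl
    have hdvd : charDegree ψ ∣ Nat.card (G ⧸ (P : Subgroup G)) :=
      Helper79.irr_charDegree_dvd_card ⟨ψ, hψ⟩
    rw [hdeg, ← Subgroup.index_eq_card] at hdvd
    rcases hcd β with h | h
    · exact h
    · rw [h] at hdvd
      exact absurd (hpm.trans hdvd) hPidx
  have hinf : (P : Subgroup G) ⊓ K = ⊥ := by
    obtain ⟨j, hj⟩ := IsPGroup.iff_card.mp P.2
    have hc : Nat.Coprime (Nat.card (P : Subgroup G)) (Nat.card K) := by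
      rw [hj]
      exact (hKcop.symm).pow_left j
    exact disjoint_iff.mp (Subgroup.disjoint_of_coprime_natCard hc)
  have hsup : (P : Subgroup G) ⊔ K = ⊤ := by
    rw [← Subgroup.index_eq_one]
    have h1 : ((P : Subgroup G) ⊔ K).index ∣ (P : Subgroup G).index :=
      Subgroup.index_dvd_of_le le_sup_left
    have h2 : ((P : Subgroup G) ⊔ K).index ∣ p ^ k := by
      rw [← hKidx]
      exact Subgroup.index_dvd_of_le le_sup_right
    have h3 : Nat.Coprime (P : Subgroup G).index (p ^ k) :=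
      ((hp.coprime_iff_not_dvd).mpr hPidx).symm.pow_right k
    exact Nat.eq_one_of_dvd_coprimes h3 h1 h2
  have hKab : ∀ a ∈ K, ∀ b ∈ K, a * b = b * a := by
    intro a ha b hb
    have h1 : a * b * a⁻¹ * b⁻¹ ∈ (P : Subgroup G) ⊓ K :=
      ⟨hGP a b, K.mul_mem (K.mul_mem (K.mul_mem ha hb) (K.inv_mem ha)) (K.inv_mem hb)⟩
    rw [hinf, Subgroup.mem_bot] at h1
    calc a * b = (a * b * a⁻¹ * b⁻¹) * (b * a) := by group
      _ = b * a := by rw [h1, one_mul]
  have hmk : m ∣ p ^ k := by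
    rw [← hχm, ← hKidx]
    haveI := hKn
    exact Helper75.ito_character χm.2 K hKab
  obtain ⟨e, -, he⟩ := (Nat.dvd_prime_pow hp).mp hmk
  exact ⟨p, e, hp, he, P, K, hPn, hKn, P.2, hKab, hinf, hsup⟩

end Cfsg.Agent.Helper4
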