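import Mathlib
import Cfsg.Agent.S0175
import Cfsg.Agent.Helper79.Linear

/-!
# M-groups with two character degrees are metabelian (Taketa's argument, Isaacs 12.6)

`twoDeg_taketa`: if every irreducible character of `G` is monomial and `cd(G) ⊆ {1, m}`, then the
commutator subgroup of `G` is abelian.
-/

set_option autoImplicit false

namespace Cfsg.Agent.Helper4

open Cfsg

open scoped commutatorElement

universe u

/-- An M-group with at most two character degrees has abelian commutator subgroup. -/
theorem twoDeg_taketa {G : Type u} [Group G] [Fintype G]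
    (hM : ∀ χ : G → ℂ, IsIrrCharacter G χ → ∃ (H : Subgroup G) (lam : H →* ℂˣ),
      χ = indFun H (fun h => (lam h : ℂ)))
    (m : ℕ)
    (hcd : ∀ χ : IrrCharacter G, charDegree (χ : G → ℂ) = 1 ∨ charDegree (χ : G → ℂ) = m) :
    ∀ a ∈ commutator G, ∀ b ∈ commutator G, a * b = b * a := by
  classical
  let _ : Fintype (IrrCharacter G) := Fintype.ofFinite _
  have hlin : ∀ ψ : IrrCharacter G, charDegree (ψ : G → ℂ) = 1 →
      ∀ g ∈ commutator G, (ψ : G → ℂ) g = (ψ : G → ℂ) 1 :=
    fun ψ h => Helper79.irr_commutator_le_ker_of_linear ψ h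
  have htriv1 : charDegree ((Helper80.trivIrr G : IrrCharacter G) : G → ℂ) = 1 :=
    Helper75.charDegree_of_one_eq_nat (by simp)
  have hker : ∀ χ : IrrCharacter G, ∀ g ∈ ⁅commutator G, commutator G⁆,
      (χ : G → ℂ) g = (χ : G → ℂ) 1 := by
    intro χ g hg
    by_cases h1 : charDegree (χ : G → ℂ) = 1
    · exact hlin χ h1 g (Subgroup.commutator_le_right _ _ hg)
    · have hdm : charDegree (χ : G → ℂ) = m := (hcd χ).resolve_left h1
      obtain ⟨H, lam, hχeq⟩ := hM χ χ.2
      let _ : Fintype H := Fintype.ofFinite H
      have hlamc : IsCharacter H (fun h : H => ((lam h : ℂˣ) : ℂ)) :=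
        Helper80.isCharacter_of_irr (Helper79.isIrrCharacter_of_hom lam)
      have hlam1 : charDegree (fun h : H => ((lam h : ℂˣ) : ℂ)) = 1 :=
        Helper75.charDegree_of_one_eq_nat (by simp)
      have hdidx : m = H.index := by
        rw [← hdm, hχeq, Helper79.charDegree_indFun H hlamc, hlam1, mul_one]
      -- Claim A: `G' ≤ core H`
      have hA : ∀ g ∈ commutator G, ∀ x : G, x⁻¹ * g * x ∈ H := by
        intro g hg
        apply Cfsg.Agent.S0175.mem_of_ind_one_eq
        have h1c : IsCharacter H (fun _ : H => (1 : ℂ)) :=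
          Helper80.isCharacter_of_irr Helper80.trivial_isIrrCharacter
        have hΦ : IsCharacter G (indFun H (fun _ => (1 : ℂ))) :=
          Helper3.isCharacter_indFun H _ h1c
        have h1deg : charDegree (fun _ : H => (1 : ℂ)) = 1 :=
          Helper75.charDegree_of_one_eq_nat (by simp)
        obtain ⟨mult, hmult⟩ := Helper75.exists_nat_mult hΦ
        have hsum := Helper75.character_eq_sum_irr hΦ
        have hdeg : m = ∑ ψ : IrrCharacter G, mult ψ * charDegree (ψ : G → ℂ) := by
          have h1 := congrFun hsum 1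
          rw [Finset.sum_apply, Helper79.indFun_apply_one, mul_one] at h1
          have h2 : ((m : ℕ) : ℂ) =
              ((∑ ψ : IrrCharacter G, mult ψ * charDegree (ψ : G → ℂ) : ℕ) : ℂ) := by
            rw [hdidx, h1]
            push_cast
            apply Finset.sum_congr rfl
            intro ψ _
            rw [Pi.smul_apply, smul_eq_mul, hmult ψ, Helper80.irr_one_eq ψ]
          exact_mod_cast h2
        have hm1 : mult (Helper80.trivIrr G) = 1 := by
          have h1 := hmult (Helper80.trivIrr G)
          rw [Helper3.frobenius_reciprocity H _ _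
            (Helper75.isCharacter_isClassFunction' (Helper80.isCharacter_of_irr
              (Helper80.trivIrr G).2))] at h1
          have h2 : classInner (fun _ : H => (1 : ℂ))
              (fun h : H => ((Helper80.trivIrr G : IrrCharacter G) : G → ℂ) h) = 1 :=
            Helper75.classInner_irr_self Helper80.trivial_isIrrCharacter
          rw [h2] at h1
          exact_mod_cast h1.symm
        have hone : ∀ ψ : IrrCharacter G, mult ψ ≠ 0 → charDegree (ψ : G → ℂ) = 1 := by
          intro ψ hψ
          by_contra hne
          have hψm : charDegree (ψ : G → ℂ) = m := (hcd ψ).resolve_left hne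
          have hψ1 : ψ ≠ Helper80.trivIrr G := by
            rintro rfl
            exact hne htriv1
          have hpair : ∑ φ ∈ ({Helper80.trivIrr G, ψ} : Finset (IrrCharacter G)),
              mult φ * charDegree (φ : G → ℂ) ≤
              ∑ φ : IrrCharacter G, mult φ * charDegree (φ : G → ℂ) :=
            Finset.sum_le_sum_of_subset (Finset.subset_univ _)
          rw [Finset.sum_pair (fun h => hψ1 h.symm), hm1, ← hdeg, hψm, htriv1] at hpair
          have h3 : m ≤ mult ψ * m := Nat.le_mul_of_pos_left _ (Nat.pos_of_ne_zero hψ)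
          omega
        rw [hsum, Finset.sum_apply, Finset.sum_apply]
        apply Finset.sum_congr rfl
        intro ψ _
        rw [Pi.smul_apply, Pi.smul_apply]
        by_cases hψ : mult ψ = 0
        · rw [hmult ψ, hψ]
          simp
        · congr 1
          exact hlin ψ (hone ψ hψ) g hg
      -- `G'' ≤ ker χ`
      rw [hχeq]
      apply Cfsg.Agent.S0175.ind_lin_eq_one
      intro x
      have hn : (⁅commutator G, commutator G⁆ : Subgroup G).Normal := inferInstance
      have hg' : x⁻¹ * g * x ∈ ⁅commutator G, commutator G⁆ := by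
        have := hn.conj_mem g hg x⁻¹
        simpa using this
      have hle : ⁅commutator G, commutator G⁆ ≤ (lam.ker).map H.subtype := by
        rw [Subgroup.commutator_le]
        intro a ha b hb
        have haH : a ∈ H := by have := hA a ha 1; simpa using this
        have hbH : b ∈ H := by have := hA b hb 1; simpa using this
        refine ⟨(⟨a, haH⟩ : H) * ⟨b, hbH⟩ * (⟨a, haH⟩ : H)⁻¹ * (⟨b, hbH⟩ : H)⁻¹, ?_, rfl⟩
        rw [SetLike.mem_coe, MonoidHom.mem_ker, map_mul, map_mul, map_mul, map_inv, map_inv]
        rw [mul_comm (lam ⟨a, haH⟩), mul_assoc, mul_assoc]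
        simp
      obtain ⟨y, hy, hyx⟩ := hle hg'
      have hxH : x⁻¹ * g * x ∈ H := by rw [← hyx]; exact y.2
      refine ⟨hxH, ?_⟩
      have : (⟨x⁻¹ * g * x, hxH⟩ : H) = y := Subtype.ext hyx.symm
      rw [this]
      exact hy
  -- `G'' = 1`
  have hbot : ∀ g ∈ ⁅commutator G, commutator G⁆, g = 1 := by
    intro g hg
    by_contra hg1
    have h1 := Helper80.irr_sum_degree_mul_of_ne_one hg1
    have h2 := Helper80.irr_sum_degree_sq (G := G)
    have h3 : ∑ χ : IrrCharacter G, (χ : G → ℂ) 1 * (χ : G → ℂ) g =
        ∑ χ : IrrCharacter G, (χ : G → ℂ) 1 * (χ : G → ℂ) 1 := by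
      apply Finset.sum_congr rfl
      intro χ _
      rw [hker χ g hg]
    rw [h1, h2] at h3
    have : (Fintype.card G : ℂ) ≠ 0 := by exact_mod_cast Fintype.card_ne_zero
    exact this h3.symm
  intro a ha b hb
  have h1 := hbot _ (Subgroup.commutator_mem_commutator ha hb)
  rw [commutatorElement_def] at h1
  calc a * b = (a * b * a⁻¹ * b⁻¹) * (b * a) := by group
    _ = b * a := by rw [h1, one_mul]

end Cfsg.Agent.Helper4
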