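import Cfsg.Agent.Helper18.D4Tor2
import Cfsg.Agent.Helper18.G2Tor3
import Cfsg.Agent.Helper17.ChevUniMem

/-! helper4: CALL S4278 piece REFL: conjugating `h n_i n_w n_i` by `n_i`. -/

set_option autoImplicit false

namespace Cfsg.Agent.Helper4.G2O

open Cfsg Cfsg.Lie Cfsg.Agent.Helper36 Cfsg.Agent.Helper17 Cfsg.Agent.Helper18

section

variable {D : ChevalleyDatum} {F : Type*} [Field F] {η : ℕ → ℕ → ℤ}

/-- PIECE REFL: conjugating `h n_i n_w n_i` by `n_i`. -/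
theorem g2o_refl_reduce (R : BRel D F η) {i : ℕ} (hi : i < D.rank) {L : List ℕ}
    (hL : ValidW D L) {h : GL D.Idx F} (hh : h ∈ D.diagonalSubgroup F) :
    ∃ h' ∈ D.diagonalSubgroup F,
      (R.n i)⁻¹ * (h * R.nW (i :: (L ++ [i]))) * R.n i = h' * R.nW L := by
  refine ⟨((R.n i)⁻¹ * h * R.n i) * (R.nW L * (R.n i * R.n i) * (R.nW L)⁻¹),
    mul_mem (R.n_conj_H' hi h hh) (R.nW_conj_H hL _ (R.n_sq_mem hi)), ?_⟩
  rw [R.nW_cons, R.nW_append, R.nW_cons, R.nW_nil]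
  group

end

end Cfsg.Agent.Helper4.G2O
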