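import Mathlib

/-! CALL SL2L (helper2), piece G2 (double by helper4): an element of prime order `t ∤ p (p - 1)`
acting freely on `L ∖ Z` cannot normalize the line `L`. -/

set_option autoImplicit false

namespace Cfsg.Agent.Helper4

open Subgroup

universe u

variable {Γ : Type u} [Group Γ] [Finite Γ]

/-- A subgroup acting freely by conjugation on an invariant set has order dividing its size. -/
theorem sl2l_g2_free_dvd (K : Subgroup Γ) (S : Set Γ)
    (hS : ∀ k ∈ K, ∀ a ∈ S, k * a * k⁻¹ ∈ S)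
    (hfree : ∀ k ∈ K, k ≠ 1 → ∀ a ∈ S, k * a = a * k → False) :
    Nat.card K ∣ S.ncard := by
  classical
  letI : MulAction ↥K ↥S :=
    { smul := fun k a => ⟨(k : Γ) * a.1 * (k : Γ)⁻¹, hS k k.2 a.1 a.2⟩
      one_smul := fun a => Subtype.ext (by
        show ((1 : ↥K) : Γ) * a.1 * ((1 : ↥K) : Γ)⁻¹ = a.1
        simp)
      mul_smul := fun k k' a => Subtype.ext (by
        show ((k * k' : ↥K) : Γ) * a.1 * ((k * k' : ↥K) : Γ)⁻¹ =
          (k : Γ) * ((k' : Γ) * a.1 * (k' : Γ)⁻¹) * (k : Γ)⁻¹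
        rw [Subgroup.coe_mul]
        group) }
  have hstab : ∀ b : ↥S, MulAction.stabilizer ↥K b = ⊥ := by
    intro b
    rw [eq_bot_iff]
    intro k hk
    rw [MulAction.mem_stabilizer_iff] at hk
    rw [Subgroup.mem_bot]
    by_contra hk1
    have h1 : (k : Γ) * b.1 * (k : Γ)⁻¹ = b.1 := congrArg Subtype.val hk
    have h2 : (k : Γ) * b.1 = b.1 * (k : Γ) := mul_inv_eq_iff_eq_mul.mp h1
    exact hfree k k.2 (fun h => hk1 (Subtype.ext h)) b.1 b.2 h2
  have e := MulAction.selfEquivOrbitsQuotientProd hstab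
  have hcard : Nat.card ↥S = Nat.card (Quotient (MulAction.orbitRel ↥K ↥S)) * Nat.card ↥K := by
    rw [Nat.card_congr e, Nat.card_prod]
  rw [← Nat.card_coe_set_eq, hcard]
  exact dvd_mul_left _ _

theorem sl2l_moves {p t : ℕ} (hp : p.Prime) (ht : t.Prime) (htp : ¬ t ∣ p - 1) (htp' : t ≠ p)
    {Z L : Subgroup Γ} (hZL : Z ≤ L) (hZc : Nat.card Z = p) (hLc : Nat.card L = p ^ 2)
    {k₂ : Γ} (hk₂ : orderOf k₂ = t) (hk₂Z : ∀ z ∈ Z, k₂ * z = z * k₂)
    (hfix : ∀ a ∈ L, k₂ * a = a * k₂ → a ∈ Z) : ¬ ∀ a ∈ L, k₂ * a * k₂⁻¹ ∈ L := by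
  intro hnorm
  have hpow : ∀ n : ℕ, ∀ a ∈ L, k₂ ^ n * a * (k₂ ^ n)⁻¹ ∈ L := by
    intro n
    induction n with
    | zero => intro a ha; simpa using ha
    | succ n ih =>
      intro a ha
      have h1 := hnorm _ (ih a ha)
      have e : k₂ ^ (n + 1) * a * (k₂ ^ (n + 1))⁻¹ = k₂ * (k₂ ^ n * a * (k₂ ^ n)⁻¹) * k₂⁻¹ := by
        rw [pow_succ']
        group
      rw [e]
      exact h1
  have hmem : ∀ k ∈ zpowers k₂, ∃ n : ℕ, k₂ ^ n = k := by
    intro k hk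
    exact (Submonoid.mem_powers_iff k k₂).mp (mem_powers_iff_mem_zpowers.mpr hk)
  have hS : ∀ k ∈ zpowers k₂, ∀ a ∈ ((L : Set Γ) \ (Z : Set Γ)),
      k * a * k⁻¹ ∈ ((L : Set Γ) \ (Z : Set Γ)) := by
    intro k hk a ha
    obtain ⟨n, rfl⟩ := hmem k hk
    refine ⟨hpow n a ha.1, fun hz => ha.2 ?_⟩
    have hc : Commute (k₂ ^ n) (k₂ ^ n * a * (k₂ ^ n)⁻¹) := Commute.pow_left (hk₂Z _ hz) n
    have h1 : k₂ ^ n * (k₂ ^ n * a * (k₂ ^ n)⁻¹) = (k₂ ^ n * a * (k₂ ^ n)⁻¹) * k₂ ^ n := hc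
    have h3 : (k₂ ^ n)⁻¹ * (k₂ ^ n * (k₂ ^ n * a * (k₂ ^ n)⁻¹)) = k₂ ^ n * a * (k₂ ^ n)⁻¹ := by group
    have h4 : (k₂ ^ n)⁻¹ * ((k₂ ^ n * a * (k₂ ^ n)⁻¹) * k₂ ^ n) = a := by group
    have h5 : k₂ ^ n * a * (k₂ ^ n)⁻¹ = a := by rw [← h3, h1, h4]
    have hz' : (k₂ ^ n * a * (k₂ ^ n)⁻¹) ∈ Z := hz
    rw [h5] at hz'
    exact hz'
  have hcardK : Nat.card (zpowers k₂) = t := by rw [Nat.card_zpowers, hk₂]
  have hfree : ∀ k ∈ zpowers k₂, k ≠ 1 → ∀ a ∈ ((L : Set Γ) \ (Z : Set Γ)), k * a = a * k → False := by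
    intro k hk hk1 a ha hcomm
    apply ha.2
    apply hfix a ha.1
    -- the centralizer of `a` meets `⟨k₂⟩` (of prime order) nontrivially, so contains it
    haveI : Fact (Nat.card ↥(zpowers k₂)).Prime := ⟨by rw [hcardK]; exact ht⟩
    have hkC : k ∈ centralizer ({a} : Set Γ) := by
      rw [Subgroup.mem_centralizer_iff]
      intro x hx
      rw [Set.mem_singleton_iff] at hx
      rw [hx]
      exact hcomm.symm
    rcases Subgroup.eq_bot_or_eq_top_of_prime_card ((centralizer ({a} : Set Γ)).subgroupOf (zpowers k₂))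
      with h | h
    · exfalso
      have : (⟨k, hk⟩ : ↥(zpowers k₂)) ∈ (centralizer ({a} : Set Γ)).subgroupOf (zpowers k₂) := by
        rw [Subgroup.mem_subgroupOf]
        exact hkC
      rw [h, Subgroup.mem_bot] at this
      exact hk1 (congrArg Subtype.val this)
    · have : (⟨k₂, mem_zpowers k₂⟩ : ↥(zpowers k₂)) ∈
          (centralizer ({a} : Set Γ)).subgroupOf (zpowers k₂) := by
        rw [h]
        trivial
      rw [Subgroup.mem_subgroupOf, Subgroup.mem_centralizer_iff] at this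
      exact (this a rfl).symm
  have hdvd := sl2l_g2_free_dvd (zpowers k₂) ((L : Set Γ) \ (Z : Set Γ)) hS hfree
  have hcard : ((L : Set Γ) \ (Z : Set Γ)).ncard = p * (p - 1) := by
    rw [Set.ncard_diff (fun z hz => hZL hz) (Set.toFinite _)]
    have h1 : (L : Set Γ).ncard = p ^ 2 := by rw [← hLc]; rfl
    have h2 : (Z : Set Γ).ncard = p := by rw [← hZc]; rfl
    rw [h1, h2, Nat.mul_sub, mul_one, pow_two]
  rw [hcard, hcardK] at hdvd
  rcases (Nat.Prime.dvd_mul ht).mp hdvd with h | h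
  · exact htp' ((Nat.prime_dvd_prime_iff_eq ht hp).mp h)
  · exact htp h

end Cfsg.Agent.Helper4
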