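import Cfsg.Agent.Helper35.Coprime

/-!
# CALL BG15 (helper25), piece JJ (helper4): `L` centralizes `z` modulo `X₀`.
-/

set_option autoImplicit false

namespace Cfsg.Agent.Helper4

open Cfsg Subgroup

universe u

/-- commutators centralize a generator of a normal cyclic subgroup -/
theorem bg15jj_cyc {Δ : Type u} [Group Δ] (w : Δ) (hn : (zpowers w).Normal)
    (g h : Δ) : (g * h * g⁻¹ * h⁻¹) * w = w * (g * h * g⁻¹ * h⁻¹) := by
  obtain ⟨a, ha⟩ := Subgroup.mem_zpowers_iff.mp (hn.conj_mem w (mem_zpowers w) g⁻¹)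
  obtain ⟨b, hb⟩ := Subgroup.mem_zpowers_iff.mp (hn.conj_mem w (mem_zpowers w) h⁻¹)
  have h1 : g⁻¹ * h⁻¹ * w * h⁻¹⁻¹ * g⁻¹⁻¹ = w ^ (a * b) := by
    calc g⁻¹ * h⁻¹ * w * h⁻¹⁻¹ * g⁻¹⁻¹ = g⁻¹ * (h⁻¹ * w * h⁻¹⁻¹) * g⁻¹⁻¹ := by group
      _ = g⁻¹ * w ^ b * g⁻¹⁻¹ := by rw [hb]
      _ = (g⁻¹ * w * g⁻¹⁻¹) ^ b := by rw [conj_zpow]
      _ = w ^ (a * b) := by rw [← ha, ← zpow_mul]
  have h2 : h⁻¹ * g⁻¹ * w * g⁻¹⁻¹ * h⁻¹⁻¹ = w ^ (a * b) := by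
    calc h⁻¹ * g⁻¹ * w * g⁻¹⁻¹ * h⁻¹⁻¹ = h⁻¹ * (g⁻¹ * w * g⁻¹⁻¹) * h⁻¹⁻¹ := by group
      _ = h⁻¹ * w ^ a * h⁻¹⁻¹ := by rw [ha]
      _ = (h⁻¹ * w * h⁻¹⁻¹) ^ a := by rw [conj_zpow]
      _ = w ^ (a * b) := by rw [← hb, ← zpow_mul, mul_comm]
  calc (g * h * g⁻¹ * h⁻¹) * w
      = g * h * (g⁻¹ * h⁻¹ * w * h⁻¹⁻¹ * g⁻¹⁻¹) * g⁻¹ * h⁻¹ := by group
    _ = g * h * (h⁻¹ * g⁻¹ * w * g⁻¹⁻¹ * h⁻¹⁻¹) * g⁻¹ * h⁻¹ := by rw [h1, h2]
    _ = w * (g * h * g⁻¹ * h⁻¹) := by group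

section Pure

variable {Γ : Type u} [Group Γ] [Finite Γ]

open scoped commutatorElement in
/-- JJ. If `X = X₀ <z>` with `X`, `X₀` normal in `Γ`, then `L` centralizes `z` modulo `X₀`. -/
theorem bg15_J (L X X₀ : Subgroup Γ) [L.Normal] [X.Normal] [X₀.Normal] {p : ℕ} (hp : p.Prime)
    {k z : Γ} (hkp : k ^ p = 1) (hpL : ¬ p ∣ Nat.card L) (hzX : z ∈ X)
    (hfix : ∀ a ∈ L, k * a = a * k → a ∈ zpowers z)
    (hXgen : ∀ x ∈ X, ∃ x₀ ∈ X₀, ∃ w ∈ zpowers z, x = x₀ * w) :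
    ∀ g ∈ L, g * z * g⁻¹ * z⁻¹ ∈ X₀ := by
  have hzn : (zpowers (QuotientGroup.mk' X₀ z)).Normal := by
    have h1 : zpowers (QuotientGroup.mk' X₀ z) = X.map (QuotientGroup.mk' X₀) := by
      apply le_antisymm
      · rw [Subgroup.zpowers_le]
        exact Subgroup.mem_map_of_mem _ hzX
      · rintro _ ⟨x, hx, rfl⟩
        obtain ⟨x₀, hx₀, w, hw, rfl⟩ := hXgen x hx
        obtain ⟨j, rfl⟩ := Subgroup.mem_zpowers_iff.mp hw
        rw [map_mul, map_zpow]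
        have h2 : QuotientGroup.mk' X₀ x₀ = 1 := (QuotientGroup.eq_one_iff x₀).mpr hx₀
        rw [h2, one_mul]
        exact Subgroup.zpow_mem_zpowers _ _
    rw [h1]
    exact Subgroup.Normal.map inferInstance _ (QuotientGroup.mk'_surjective X₀)
  have hA : zpowers k ≤ normalizer (L : Set Γ) := by
    rw [Subgroup.normalizer_eq_top]
    exact le_top
  have hcop : (Nat.card (zpowers k)).Coprime (Nat.card L) := by
    rw [Nat.card_zpowers]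
    have h1 : orderOf k ∣ p := orderOf_dvd_of_pow_eq_one hkp
    rcases (Nat.dvd_prime hp).mp h1 with h | h
    · rw [h]; exact Nat.coprime_one_left _
    · rw [h]; exact (Nat.Prime.coprime_iff_not_dvd hp).mpr hpL
  have hsolv : Group.IsSolvable (zpowers k) := by
    apply isSolvable_of_comm
    intro a b
    obtain ⟨i, hi⟩ := Subgroup.mem_zpowers_iff.mp a.2
    obtain ⟨j, hj⟩ := Subgroup.mem_zpowers_iff.mp b.2
    apply Subtype.ext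
    show (a : Γ) * (b : Γ) = (b : Γ) * (a : Γ)
    rw [← hi, ← hj, ← zpow_add, ← zpow_add, add_comm]
  have hcomm : ∀ n ∈ (⁅L, zpowers k⁆ : Subgroup Γ),
      QuotientGroup.mk' X₀ n * QuotientGroup.mk' X₀ z
        = QuotientGroup.mk' X₀ z * QuotientGroup.mk' X₀ n := by
    have hle : (⁅L, zpowers k⁆ : Subgroup Γ)
        ≤ (centralizer {QuotientGroup.mk' X₀ z}).comap (QuotientGroup.mk' X₀) := by
      rw [Subgroup.commutator_le]
      intro g₁ _ g₂ _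
      rw [Subgroup.mem_comap, Subgroup.mem_centralizer_iff]
      intro h hh
      rw [Set.mem_singleton_iff] at hh
      subst hh
      rw [commutatorElement_def, map_mul, map_mul, map_mul, map_inv, map_inv]
      exact (bg15jj_cyc _ hzn _ _).symm
    intro n hn
    have h1 := hle hn
    rw [Subgroup.mem_comap, Subgroup.mem_centralizer_iff] at h1
    exact (h1 _ (Set.mem_singleton _)).symm
  intro g hg
  obtain ⟨n, hn, c, hc, rfl⟩ :=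
    Cfsg.Agent.Helper35.exists_commutator_mul_fixed hA hcop (Or.inl hsolv) hg
  have hck : k * c = c * k := Subgroup.mem_centralizer_iff.mp hc.2 k (mem_zpowers k)
  obtain ⟨j, hj⟩ := Subgroup.mem_zpowers_iff.mp (hfix c hc.1 hck)
  have hcz : c * z = z * c := by
    rw [← hj, ← zpow_add_one, ← zpow_one_add, add_comm]
  have e : n * c * z * (n * c)⁻¹ * z⁻¹ = n * z * n⁻¹ * z⁻¹ := by
    calc n * c * z * (n * c)⁻¹ * z⁻¹ = n * (c * z) * c⁻¹ * n⁻¹ * z⁻¹ := by group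
      _ = n * (z * c) * c⁻¹ * n⁻¹ * z⁻¹ := by rw [hcz]
      _ = n * z * n⁻¹ * z⁻¹ := by group
  rw [e, ← QuotientGroup.eq_one_iff]
  have h3 := hcomm n hn
  have h4 : ((n * z * n⁻¹ * z⁻¹ : Γ) : Γ ⧸ X₀)
      = QuotientGroup.mk' X₀ n * QuotientGroup.mk' X₀ z * (QuotientGroup.mk' X₀ n)⁻¹
        * (QuotientGroup.mk' X₀ z)⁻¹ := rfl
  rw [h4, h3]
  group

end Pure

end Cfsg.Agent.Helper4
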