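import Mathlib
import Cfsg.Agent.Helper3.FHDefs

/-!
Trigonometric sums for the Feit–Higman multiplicity formula (pieces P12, P13 of S1142-LA):
common lemmas.
-/

set_option autoImplicit false

namespace Cfsg.Agent.Helper4

open Cfsg.Agent.Helper3.FH Real

theorem fh_cos_tele (θ : ℝ) (N : ℕ) :
    2 * sin θ * ∑ j ∈ Finset.range N, cos (2 * (j * θ)) = sin ((2 * N - 1) * θ) + sin θ := by
  induction N with
  | zero =>
    have : ((2 : ℝ) * ((0 : ℕ) : ℝ) - 1) * θ = -θ := by push_cast; ring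
    rw [this]; simp
  | succ N ih =>
    rw [Finset.sum_range_succ, mul_add, ih]
    have h1 : (2 * ((N + 1 : ℕ) : ℝ) - 1) * θ = 2 * (N * θ) + θ := by push_cast; ring
    have h2 : (2 * (N : ℝ) - 1) * θ = 2 * (N * θ) - θ := by ring
    rw [h1, h2, sin_add, sin_sub]; ring

theorem fh_sin_tele (θ : ℝ) (N : ℕ) :
    2 * sin θ * ∑ j ∈ Finset.range N, sin (2 * (j * θ)) = cos θ - cos ((2 * N - 1) * θ) := by
  induction N with
  | zero =>
    have : ((2 : ℝ) * ((0 : ℕ) : ℝ) - 1) * θ = -θ := by push_cast; ring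
    rw [this]; simp
  | succ N ih =>
    rw [Finset.sum_range_succ, mul_add, ih]
    have h1 : (2 * ((N + 1 : ℕ) : ℝ) - 1) * θ = 2 * (N * θ) + θ := by push_cast; ring
    have h2 : (2 * (N : ℝ) - 1) * θ = 2 * (N * θ) - θ := by ring
    rw [h1, h2, cos_add, cos_sub]; ring

theorem fh_cos_sum_zero (θ : ℝ) (N K : ℕ) (hθ : 2 * (N : ℝ) * θ = K * (2 * π))
    (hs : sin θ ≠ 0) : ∑ j ∈ Finset.range N, cos (2 * (j * θ)) = 0 := by
  have h := fh_cos_tele θ N
  have h1 : (2 * (N : ℝ) - 1) * θ = K * (2 * π) - θ := by rw [← hθ]; ring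
  rw [h1, Real.sin_nat_mul_two_pi_sub, neg_add_cancel] at h
  have h2 : (2 * sin θ) ≠ 0 := mul_ne_zero two_ne_zero hs
  exact (mul_eq_zero.mp h).resolve_left h2

theorem fh_sin_sum_zero (θ : ℝ) (N K : ℕ) (hθ : 2 * (N : ℝ) * θ = K * (2 * π))
    (hs : sin θ ≠ 0) : ∑ j ∈ Finset.range N, sin (2 * (j * θ)) = 0 := by
  have h := fh_sin_tele θ N
  have h1 : (2 * (N : ℝ) - 1) * θ = K * (2 * π) - θ := by rw [← hθ]; ring
  rw [h1, Real.cos_nat_mul_two_pi_sub, sub_self] at h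
  have h2 : (2 * sin θ) ≠ 0 := mul_ne_zero two_ne_zero hs
  exact (mul_eq_zero.mp h).resolve_left h2

theorem fh_sq_expand (θ A B : ℝ) (j : ℕ) :
    (A * cos (j * θ) + B * sin (j * θ)) ^ 2
      = (A ^ 2 + B ^ 2) / 2 + (A ^ 2 - B ^ 2) / 2 * cos (2 * (j * θ))
        + A * B * sin (2 * (j * θ)) := by
  rw [cos_two_mul, sin_two_mul]
  linear_combination (B ^ 2) * sin_sq_add_cos_sq ((j : ℝ) * θ)

/-- the sum of `(A cos jθ + B sin jθ)²` over a full period -/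
theorem fh_sq_sum (θ A B : ℝ) (N K : ℕ) (hθ : 2 * (N : ℝ) * θ = K * (2 * π))
    (hs : sin θ ≠ 0) :
    ∑ j ∈ Finset.range N, (A * cos (j * θ) + B * sin (j * θ)) ^ 2
      = N * (A ^ 2 + B ^ 2) / 2 := by
  simp only [fh_sq_expand]
  rw [Finset.sum_add_distrib, Finset.sum_add_distrib, ← Finset.mul_sum, ← Finset.mul_sum,
    fh_cos_sum_zero θ N K hθ hs, fh_sin_sum_zero θ N K hθ hs]
  simp only [Finset.sum_const, Finset.card_range, nsmul_eq_mul, mul_zero, add_zero]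
  ring

/-- closed form of a two-term recurrence with characteristic roots `u e^{±iθ}` -/
theorem fh_closed (E : ℕ → ℝ) (u θ P Q x : ℝ) (hx : x = u * cos θ)
    (h0 : E 0 = P) (h1 : E 1 = u * (P * cos θ + Q * sin θ))
    (hE : ∀ j, E (j + 2) = 2 * x * E (j + 1) - u ^ 2 * E j) :
    ∀ j : ℕ, E j = u ^ j * (P * cos (j * θ) + Q * sin (j * θ)) := by
  intro j
  induction j using Nat.twoStepInduction with
  | zero => simp [h0]
  | one => simp [h1]
  | more j ih1 ih2 =>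
    rw [hE, ih1, ih2, hx]
    have e1 : ((j + 2 : ℕ) : ℝ) * θ = ((j + 1 : ℕ) : ℝ) * θ + θ := by push_cast; ring
    have e2 : (j : ℝ) * θ = ((j + 1 : ℕ) : ℝ) * θ - θ := by push_cast; ring
    rw [e1, e2, cos_add, cos_sub, sin_add, sin_sub]
    ring

theorem fh_sum_even_odd (f : ℕ → ℝ) (N : ℕ) :
    ∑ j ∈ Finset.range (2 * N), f j
      = ∑ i ∈ Finset.range N, f (2 * i) + ∑ i ∈ Finset.range N, f (2 * i + 1) := by
  induction N with
  | zero => simp
  | succ N ih =>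
    have : 2 * (N + 1) = 2 * N + 1 + 1 := by ring
    rw [this, Finset.sum_range_succ, Finset.sum_range_succ, ih, Finset.sum_range_succ,
      Finset.sum_range_succ]
    ring

theorem fh_altProd_even (a b : ℝ) (i : ℕ) : altProd a b (2 * i) = (a * b) ^ i := by
  induction i with
  | zero => simp
  | succ i ih =>
    have : 2 * (i + 1) = 2 * i + 2 := by ring
    rw [this, altProd_add_two, ih, pow_succ]; ring

theorem fh_altProd_odd (a b : ℝ) (i : ℕ) : altProd a b (2 * i + 1) = a * (a * b) ^ i := by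
  rw [altProd_succ, fh_altProd_even, mul_comm b a]

/-- closed form of the even-indexed terms -/
theorem fh_T_even (T : ℕ → ℝ) (u θ μ x : ℝ) (hx : x = u * cos θ)
    (hT0 : T 0 = μ) (hT2 : T 2 = μ * x)
    (hT : ∀ j, T (j + 4) = 2 * x * T (j + 2) - u ^ 2 * T j) (j : ℕ) :
    T (2 * j) = u ^ j * (μ * cos (j * θ)) := by
  have h := fh_closed (fun j => T (2 * j)) u θ μ 0 x hx hT0
    (by show T 2 = _; rw [hT2, hx]; ring) (fun j => hT (2 * j)) j
  simpa using h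

/-- closed form of the odd-indexed terms -/
theorem fh_T_odd (T : ℕ → ℝ) (u θ P Q x : ℝ) (hx : x = u * cos θ)
    (hT1 : T 1 = P) (hT3 : T 3 = u * (P * cos θ + Q * sin θ))
    (hT : ∀ j, T (j + 4) = 2 * x * T (j + 2) - u ^ 2 * T j) (j : ℕ) :
    T (2 * j + 1) = u ^ j * (P * cos (j * θ) + Q * sin (j * θ)) :=
  fh_closed (fun j => T (2 * j + 1)) u θ P Q x hx hT1 hT3 (fun j => hT (2 * j + 1)) j

theorem fh_term_even (T : ℕ → ℝ) (a b u θ μ x : ℝ) (hu : u ^ 2 = a * b) (hu0 : u ≠ 0)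
    (hx : x = u * cos θ) (hT0 : T 0 = μ) (hT2 : T 2 = μ * x)
    (hT : ∀ j, T (j + 4) = 2 * x * T (j + 2) - u ^ 2 * T j) (i : ℕ) :
    T (2 * i) ^ 2 / altProd a b (2 * i) = (μ * cos (i * θ) + 0 * sin (i * θ)) ^ 2 := by
  rw [fh_T_even T u θ μ x hx hT0 hT2 hT i, fh_altProd_even, ← hu, ← pow_mul, mul_pow, ← pow_mul,
    mul_comm i 2, zero_mul, add_zero]
  have : u ^ (2 * i) ≠ 0 := pow_ne_zero _ hu0
  field_simp

theorem fh_term_odd (T : ℕ → ℝ) (a b u θ P Q x : ℝ) (hu : u ^ 2 = a * b) (hu0 : u ≠ 0)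
    (ha : a ≠ 0) (hx : x = u * cos θ)
    (hT1 : T 1 = P) (hT3 : T 3 = u * (P * cos θ + Q * sin θ))
    (hT : ∀ j, T (j + 4) = 2 * x * T (j + 2) - u ^ 2 * T j) (i : ℕ) :
    T (2 * i + 1) ^ 2 / altProd a b (2 * i + 1)
      = (P * cos (i * θ) + Q * sin (i * θ)) ^ 2 / a := by
  rw [fh_T_odd T u θ P Q x hx hT1 hT3 hT i, fh_altProd_odd, ← hu, ← pow_mul, mul_pow, ← pow_mul,
    mul_comm i 2]
  have : u ^ (2 * i) ≠ 0 := pow_ne_zero _ hu0
  field_simp

end Cfsg.Agent.Helper4
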