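import Mathlib
import Cfsg.Agent.Helper3.FHDefs
import Cfsg.Agent.Helper4.FHTrig

/-!
Piece P13 of S1142-LA: the Feit–Higman trigonometric sum, odd case.
-/

set_option autoImplicit false

namespace Cfsg.Agent.Helper4

open Cfsg.Agent.Helper3.FH Real

/-- splitting a sum over `range (2n+1)` with the upper half reflected -/
theorem fh_reflect (f f' : ℕ → ℝ) (n : ℕ) (hsym : ∀ j < n, f (n + 1 + (n - 1 - j)) = f' j) :
    ∑ i ∈ Finset.range (2 * n + 1), f i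
      = ∑ i ∈ Finset.range (n + 1), f i + ∑ j ∈ Finset.range n, f' j := by
  have e : 2 * n + 1 = (n + 1) + n := by ring
  rw [e, Finset.sum_range_add]
  congr 1
  rw [← Finset.sum_range_reflect (fun x => f (n + 1 + x)) n]
  exact Finset.sum_congr rfl (fun j hj => hsym j (Finset.mem_range.mp hj))

theorem fh_angle (n k j : ℕ) (hj : j < n) (θ : ℝ)
    (hMθ : (2 * (n : ℝ) + 1) * θ = k * (2 * π)) :
    ((n + 1 + (n - 1 - j) : ℕ) : ℝ) * θ = k * (2 * π) - (j * θ + θ) := by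
  have e : n + 1 + (n - 1 - j) = 2 * n - j := by omega
  rw [e, Nat.cast_sub (by omega)]
  push_cast
  linear_combination hMθ

theorem fh_sym_g (θ P Q : ℝ) (hσ : sin θ ≠ 0) (hQ : Q * sin θ = P * (1 + cos θ)) (a : ℝ) :
    (P * cos (a + θ) - Q * sin (a + θ)) ^ 2 = (P * cos a + Q * sin a) ^ 2 := by
  have h1 : P * cos θ - Q * sin θ = -P := by linarith
  have h2 : P * sin θ + Q * cos θ = Q := by
    apply mul_right_cancel₀ hσ
    linear_combination (cos θ - 1) * hQ + P * sin_sq_add_cos_sq θ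
  have h3 : P * cos (a + θ) - Q * sin (a + θ) = -(P * cos a + Q * sin a) := by
    rw [cos_add, sin_add]
    linear_combination (cos a) * h1 - (sin a) * h2
  rw [h3, neg_sq]

theorem fh_sum_odd (n k : ℕ) (hk : 0 < k) (hkn : k ≤ n) (q μ x : ℝ) (hq : 0 < q)
    (hx : x = q * cos (2 * k * π / (2 * n + 1))) (T : ℕ → ℝ)
    (hT0 : T 0 = μ) (hT1 : T 1 = (q - 1) * μ / 2) (hT2 : T 2 = μ * x)
    (hT3 : T 3 = q * (q - 1) * μ / 2 + (q - 1) * μ * x)
    (hT : ∀ j, T (j + 4) = 2 * x * T (j + 2) - q * q * T j) :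
    ∑ j ∈ Finset.range (2 * n + 2), T j ^ 2 / altProd q q j
        + ∑ j ∈ Finset.Ico 1 (2 * n + 1), T j ^ 2 / altProd q q j
      = μ ^ 2 * (2 * n + 1) * (q + q + 2 * x) * (q * q + 1 - 2 * x) / (8 * (q * q - x ^ 2)) := by
  have hu : q ^ 2 = q * q := sq q
  have hq0 := hq.ne'
  have hn1 : (0 : ℝ) < 2 * (n : ℝ) + 1 := by positivity
  have hk' : (0 : ℝ) < k := by exact_mod_cast hk
  have hMθ : (2 * (n : ℝ) + 1) * (2 * k * π / (2 * n + 1)) = k * (2 * π) := by field_simp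
  have hθ0 : 0 < 2 * (k : ℝ) * π / (2 * n + 1) := by positivity
  have hθπ : 2 * (k : ℝ) * π / (2 * n + 1) < π := by
    rw [div_lt_iff₀ hn1]
    have : (k : ℝ) ≤ n := by exact_mod_cast hkn
    nlinarith [Real.pi_pos]
  generalize 2 * (k : ℝ) * π / (2 * n + 1) = θ at hx hMθ hθ0 hθπ
  have hθ : 2 * ((2 * n + 1 : ℕ) : ℝ) * θ = ((2 * k : ℕ) : ℝ) * (2 * π) := by
    push_cast; linear_combination 2 * hMθ
  have hsin : 0 < sin θ := Real.sin_pos_of_pos_of_lt_pi hθ0 hθπ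
  have hsin0 : sin θ ≠ 0 := hsin.ne'
  have hTu : ∀ j, T (j + 4) = 2 * x * T (j + 2) - q ^ 2 * T j := by intro j; rw [hT, hu]
  obtain ⟨P, hP⟩ : ∃ P : ℝ, P = (q - 1) * μ / 2 := ⟨_, rfl⟩
  obtain ⟨Q, hQ⟩ : ∃ Q : ℝ, Q = P * (1 + cos θ) / sin θ := ⟨_, rfl⟩
  have hQs : Q * sin θ = P * (1 + cos θ) := by rw [hQ]; field_simp
  have hT1' : T 1 = P := by rw [hT1, hP]
  have hT3' : T 3 = q * (P * cos θ + Q * sin θ) := by
    rw [hT3, hQs, hP, hx]; ring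
  obtain ⟨c2, hc2⟩ : ∃ c2 : ℕ → ℝ, c2 = fun i : ℕ => (μ * cos (i * θ) + 0 * sin (i * θ)) ^ 2 :=
    ⟨_, rfl⟩
  obtain ⟨g, hg⟩ : ∃ g : ℕ → ℝ, g = fun i : ℕ => (P * cos (i * θ) + Q * sin (i * θ)) ^ 2 :=
    ⟨_, rfl⟩
  have he : ∀ i, T (2 * i) ^ 2 / altProd q q (2 * i) = c2 i := by
    intro i; rw [hc2]; exact fh_term_even T q q q θ μ x hu hq0 hx hT0 hT2 hTu i
  have ho : ∀ i, T (2 * i + 1) ^ 2 / altProd q q (2 * i + 1) = g i / q := by
    intro i; rw [hg]; exact fh_term_odd T q q q θ P Q x hu hq0 hq0 hx hT1' hT3' hTu i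
  have h4 : T 0 ^ 2 / altProd q q 0 = μ ^ 2 := by rw [hT0]; simp
  -- full-period sums
  have hFA : ∑ i ∈ Finset.range (2 * n + 1), c2 i = ((2 * n + 1 : ℕ) : ℝ) * (μ ^ 2 + 0 ^ 2) / 2 := by
    rw [hc2]; exact fh_sq_sum θ μ 0 (2 * n + 1) (2 * k) hθ hsin0
  have hFB : ∑ i ∈ Finset.range (2 * n + 1), g i = ((2 * n + 1 : ℕ) : ℝ) * (P ^ 2 + Q ^ 2) / 2 := by
    rw [hg]; exact fh_sq_sum θ P Q (2 * n + 1) (2 * k) hθ hsin0
  have hA : ∑ i ∈ Finset.range (2 * n + 1), c2 i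
      = ∑ i ∈ Finset.range (n + 1), c2 i + ∑ j ∈ Finset.range n, c2 (j + 1) := by
    apply fh_reflect c2 (fun j => c2 (j + 1)) n
    intro j hj
    rw [hc2]
    show (μ * cos (((n + 1 + (n - 1 - j) : ℕ) : ℝ) * θ)
        + 0 * sin (((n + 1 + (n - 1 - j) : ℕ) : ℝ) * θ)) ^ 2
      = (μ * cos (((j + 1 : ℕ) : ℝ) * θ) + 0 * sin (((j + 1 : ℕ) : ℝ) * θ)) ^ 2
    rw [fh_angle n k j hj θ hMθ, Real.cos_nat_mul_two_pi_sub]
    have : ((j + 1 : ℕ) : ℝ) * θ = j * θ + θ := by push_cast; ring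
    rw [this, zero_mul, zero_mul]
  have hB : ∑ i ∈ Finset.range (2 * n + 1), g i
      = ∑ i ∈ Finset.range (n + 1), g i + ∑ j ∈ Finset.range n, g j := by
    apply fh_reflect g g n
    intro j hj
    rw [hg]
    show (P * cos (((n + 1 + (n - 1 - j) : ℕ) : ℝ) * θ)
        + Q * sin (((n + 1 + (n - 1 - j) : ℕ) : ℝ) * θ)) ^ 2
      = (P * cos ((j : ℝ) * θ) + Q * sin ((j : ℝ) * θ)) ^ 2
    rw [fh_angle n k j hj θ hMθ, Real.cos_nat_mul_two_pi_sub, Real.sin_nat_mul_two_pi_sub,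
      mul_neg, ← sub_eq_add_neg]
    exact fh_sym_g θ P Q hsin0 hQs _
  have hS' : ∑ i ∈ Finset.range (n + 1), c2 i = ∑ j ∈ Finset.range n, c2 (j + 1) + c2 0 :=
    Finset.sum_range_succ' c2 n
  have hc20 : c2 0 = μ ^ 2 := by rw [hc2]; simp
  have hS : ∑ i ∈ Finset.range (n + 1), c2 i = ∑ i ∈ Finset.range n, c2 i + c2 n :=
    Finset.sum_range_succ c2 n
  -- the two sums
  have h5 := Finset.sum_range_eq_add_Ico (fun j => T j ^ 2 / altProd q q j)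
    (show 0 < 2 * n + 1 by omega)
  rw [Finset.sum_range_succ, fh_sum_even_odd] at h5
  simp only [he, ho, h4] at h5
  rw [← Finset.sum_div] at h5
  have e1 : 2 * n + 2 = 2 * (n + 1) := by ring
  rw [e1, fh_sum_even_odd]
  simp only [he, ho]
  rw [← Finset.sum_div]
  have key : ∑ i ∈ Finset.range (n + 1), c2 i + (∑ i ∈ Finset.range (n + 1), g i) / q
        + ∑ j ∈ Finset.Ico 1 (2 * n + 1), T j ^ 2 / altProd q q j
      = ((2 * n + 1 : ℕ) : ℝ) * μ ^ 2 / 2 + ((2 * n + 1 : ℕ) : ℝ) * (P ^ 2 + Q ^ 2) / 2 / q := by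
    linear_combination hFA - hA + hS' + hc20 - hS + (1 / q) * hFB - (1 / q) * hB - h5
  rw [key]
  -- the value of `Q ^ 2`
  have hcc : (1 - cos θ) * (1 + cos θ) = sin θ ^ 2 := by rw [sin_sq]; ring
  have hcc0 : (1 - cos θ) * (1 + cos θ) ≠ 0 := by rw [hcc]; exact pow_ne_zero _ hsin0
  have hc1 : 1 - cos θ ≠ 0 := left_ne_zero_of_mul hcc0
  have hc1' : 1 + cos θ ≠ 0 := right_ne_zero_of_mul hcc0
  have hqx : q - x ≠ 0 := by
    have : q - x = q * (1 - cos θ) := by rw [hx]; ring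
    rw [this]; exact mul_ne_zero hq0 hc1
  have hqx' : q + x ≠ 0 := by
    have : q + x = q * (1 + cos θ) := by rw [hx]; ring
    rw [this]; exact mul_ne_zero hq0 hc1'
  have hD : q * q - x ^ 2 ≠ 0 := by
    have : q * q - x ^ 2 = (q - x) * (q + x) := by ring
    rw [this]; exact mul_ne_zero hqx hqx'
  have h1 : Q ^ 2 * ((1 - cos θ) * (1 + cos θ)) = P ^ 2 * (1 + cos θ) ^ 2 := by
    rw [hcc, ← mul_pow, hQs, mul_pow]
  have h2 : Q ^ 2 * (1 - cos θ) = P ^ 2 * (1 + cos θ) := by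
    apply mul_right_cancel₀ hc1'
    linear_combination h1
  have hQ2 : Q ^ 2 = P ^ 2 * (q + x) / (q - x) := by
    rw [eq_div_iff hqx, hx]
    linear_combination q * h2
  have hD' : q ^ 2 - x ^ 2 ≠ 0 := by rw [hu]; exact hD
  rw [hQ2, hP]
  push_cast
  field_simp
  ring

end Cfsg.Agent.Helper4
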