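import Cfsg.Agent.Helper2.Transfer
import Cfsg.Agent.Helper23.FittingHall

/-!
# CALL BG15 (helper25), piece NCY (helper4): `M_F` is not cyclic if it contains an element
`z ≠ 1` of `M''`.
-/

set_option autoImplicit false

namespace Cfsg.Agent.Helper4

open Cfsg Subgroup

universe u

/-- commutators of elements normalizing `zpowers w` centralize `w` -/
theorem bg15ncy_cyc {Δ : Type u} [Group Δ] (w g h : Δ) (hg : g⁻¹ * w * g⁻¹⁻¹ ∈ zpowers w)
    (hh : h⁻¹ * w * h⁻¹⁻¹ ∈ zpowers w) :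
    (g * h * g⁻¹ * h⁻¹) * w = w * (g * h * g⁻¹ * h⁻¹) := by
  obtain ⟨a, ha⟩ := Subgroup.mem_zpowers_iff.mp hg
  obtain ⟨b, hb⟩ := Subgroup.mem_zpowers_iff.mp hh
  have h1 : g⁻¹ * h⁻¹ * w * h⁻¹⁻¹ * g⁻¹⁻¹ = w ^ (a * b) := by
    calc g⁻¹ * h⁻¹ * w * h⁻¹⁻¹ * g⁻¹⁻¹ = g⁻¹ * (h⁻¹ * w * h⁻¹⁻¹) * g⁻¹⁻¹ := by group
      _ = g⁻¹ * w ^ b * g⁻¹⁻¹ := by rw [hb]
      _ = (g⁻¹ * w * g⁻¹⁻¹) ^ b := by rw [conj_zpow]
      _ = w ^ (a * b) := by rw [← ha, ← zpow_mul]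
  have h2 : h⁻¹ * g⁻¹ * w * g⁻¹⁻¹ * h⁻¹⁻¹ = w ^ (a * b) := by
    calc h⁻¹ * g⁻¹ * w * g⁻¹⁻¹ * h⁻¹⁻¹ = h⁻¹ * (g⁻¹ * w * g⁻¹⁻¹) * h⁻¹⁻¹ := by group
      _ = h⁻¹ * w ^ a * h⁻¹⁻¹ := by rw [ha]
      _ = (h⁻¹ * w * h⁻¹⁻¹) ^ a := by rw [conj_zpow]
      _ = w ^ (a * b) := by rw [← hb, ← zpow_mul, mul_comm]
  calc (g * h * g⁻¹ * h⁻¹) * w
      = g * h * (g⁻¹ * h⁻¹ * w * h⁻¹⁻¹ * g⁻¹⁻¹) * g⁻¹ * h⁻¹ := by group
    _ = g * h * (h⁻¹ * g⁻¹ * w * g⁻¹⁻¹ * h⁻¹⁻¹) * g⁻¹ * h⁻¹ := by rw [h1, h2]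
    _ = w * (g * h * g⁻¹ * h⁻¹) := by group

/-- transfer, subgroup form: an element of `L' ∩ Z(L)` lying in an abelian Hall subgroup `A` of
`L` is trivial -/
theorem bg15ncy_transfer {Δ : Type u} [Group Δ] [Finite Δ] (L A : Subgroup Δ) (hAL : A ≤ L)
    (hab : ∀ a ∈ A, ∀ a' ∈ A, a * a' = a' * a)
    (hHall : (Nat.card A).Coprime (A.relIndex L)) (w : Δ) (hwA : w ∈ A)
    (hcent : ∀ g ∈ L, g * w = w * g) (hcomm : w ∈ ⁅L, L⁆) : w = 1 := by
  have hwL : w ∈ L := hAL hwA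
  haveI : IsMulCommutative (A.subgroupOf L) :=
    ⟨⟨fun a b => Subtype.ext (Subtype.ext
      (hab _ (Subgroup.mem_subgroupOf.mp a.2) _ (Subgroup.mem_subgroupOf.mp b.2)))⟩⟩
  have hcard : Nat.card (A.subgroupOf L) = Nat.card A :=
    Nat.card_congr (Subgroup.subgroupOfEquivOfLe hAL).toEquiv
  have hc : (⟨w, hwL⟩ : ↥L) ∈ Subgroup.center ↥L := by
    rw [Subgroup.mem_center_iff]
    intro g
    exact Subtype.ext (hcent g.1 g.2)
  have hc' : (⟨w, hwL⟩ : ↥L) ∈ commutator ↥L := by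
    rw [← Subgroup.map_subtype_commutator] at hcomm
    obtain ⟨y, hy, hyw⟩ := hcomm
    have : y = ⟨w, hwL⟩ := Subtype.ext hyw
    rwa [← this]
  have h := Cfsg.Agent.Helper2.eq_one_of_mem_hall_of_mem_center_of_mem_commutator
    (A.subgroupOf L) (by rw [hcard]; exact hHall) ⟨w, hwL⟩
    (Subgroup.mem_subgroupOf.mpr hwA) hc hc'
  exact congrArg Subtype.val h

section App

variable {G : Type u} [Group G] [Finite G]

open scoped commutatorElement in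
/-- NCY (pure). `M_F` is not cyclic if it contains an element `z ≠ 1` of `M''`. -/
theorem bg15_fittingHall_not_cyclic (M : Subgroup G) {z : G} (hz1 : z ≠ 1)
    (hzF : z ∈ fittingHallOf M) (hz2 : z ∈ ⁅⁅M, M⁆, ⁅M, M⁆⁆) :
    ¬ IsCyclic ↥(fittingHallOf M) := by
  intro hcyc
  apply hz1
  have hFdef : fittingHallOf M = (fittingHall ↥M).map M.subtype := rfl
  have hFM : fittingHallOf M ≤ M := by
    rw [hFdef]
    exact Subgroup.map_subtype_le _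
  have hFsub : (fittingHallOf M).subgroupOf M = fittingHall ↥M := by
    ext x
    rw [Subgroup.mem_subgroupOf, hFdef, Subgroup.mem_map]
    constructor
    · rintro ⟨y, hy, hyx⟩
      have : y = x := Subtype.ext hyx
      rwa [← this]
    · intro hx
      exact ⟨x, hx, rfl⟩
  -- a generator
  haveI := hcyc
  obtain ⟨w', hw'⟩ := IsCyclic.exists_generator (α := ↥(fittingHallOf M))
  have hwF : (w' : G) ∈ fittingHallOf M := w'.2
  have hgen : ∀ f ∈ fittingHallOf M, f ∈ zpowers (w' : G) := by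
    intro f hf
    obtain ⟨n, hn⟩ := Subgroup.mem_zpowers_iff.mp (hw' ⟨f, hf⟩)
    refine Subgroup.mem_zpowers_iff.mpr ⟨n, ?_⟩
    have := congrArg Subtype.val hn
    rwa [Subgroup.coe_zpow] at this
  -- `M_F` is normalized by `M`
  have hFn : ∀ g ∈ M, ∀ f ∈ fittingHallOf M, g * f * g⁻¹ ∈ fittingHallOf M := by
    intro g hg f hf
    have hn : (fittingHall ↥M).Normal := inferInstance
    have h1 : (⟨f, hFM hf⟩ : M) ∈ fittingHall ↥M := by
      rw [← hFsub]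
      exact Subgroup.mem_subgroupOf.mpr hf
    have h2 := hn.conj_mem _ h1 ⟨g, hg⟩
    rw [← hFsub, Subgroup.mem_subgroupOf] at h2
    exact h2
  -- `M'` centralizes the generator
  have hD : ∀ d ∈ ⁅M, M⁆, d * (w' : G) = (w' : G) * d := by
    have hle : ⁅M, M⁆ ≤ centralizer {(w' : G)} := by
      rw [Subgroup.commutator_le]
      intro g hg h hh
      rw [Subgroup.mem_centralizer_iff]
      intro x hx
      rw [Set.mem_singleton_iff] at hx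
      rw [hx, commutatorElement_def]
      exact (bg15ncy_cyc (w' : G) g h
        (hgen _ (hFn g⁻¹ (M.inv_mem hg) _ hwF)) (hgen _ (hFn h⁻¹ (M.inv_mem hh) _ hwF))).symm
    intro d hd
    exact ((Subgroup.mem_centralizer_iff.mp (hle hd)) _ rfl).symm
  have hDM : ⁅M, M⁆ ≤ M := by
    rw [Subgroup.commutator_le]
    intro g hg h hh
    rw [commutatorElement_def]
    exact M.mul_mem (M.mul_mem (M.mul_mem hg hh) (M.inv_mem hg)) (M.inv_mem hh)
  have hDD : ⁅⁅M, M⁆, ⁅M, M⁆⁆ ≤ ⁅M, M⁆ := Subgroup.commutator_mono hDM hDM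
  have hzD : z ∈ ⁅M, M⁆ := hDD hz2
  have hcent : ∀ g ∈ ⁅M, M⁆, g * z = z * g := by
    intro g hg
    obtain ⟨n, hn⟩ := Subgroup.mem_zpowers_iff.mp (hgen z hzF)
    rw [← hn]
    exact (Commute.zpow_right (hD g hg) n).eq
  apply bg15ncy_transfer ⁅M, M⁆ (fittingHallOf M ⊓ ⁅M, M⁆) inf_le_right ?_ ?_ z ⟨hzF, hzD⟩
    hcent hz2
  · intro a ha a' ha'
    obtain ⟨n, hn⟩ := Subgroup.mem_zpowers_iff.mp (hgen a ha.1)
    obtain ⟨n', hn'⟩ := Subgroup.mem_zpowers_iff.mp (hgen a' ha'.1)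
    rw [← hn, ← hn', ← zpow_add, ← zpow_add, add_comm]
  · have h1 : Nat.card (fittingHallOf M ⊓ ⁅M, M⁆ : Subgroup G) ∣ Nat.card (fittingHallOf M) :=
      Subgroup.card_dvd_of_le inf_le_left
    have h3 : Nat.card (fittingHallOf M) = Nat.card (fittingHall ↥M) := by
      rw [← hFsub]
      exact (Nat.card_congr (Subgroup.subgroupOfEquivOfLe hFM).toEquiv).symm
    have h2 : (fittingHallOf M ⊓ ⁅M, M⁆).relIndex ⁅M, M⁆ ∣ (fittingHall ↥M).index := by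
      rw [Subgroup.inf_relIndex_right, ← Subgroup.relIndex_subgroupOf hDM, hFsub,
        ← Subgroup.relIndex_sup_right]
      exact Dvd.intro _ (Subgroup.relIndex_mul_index le_sup_right)
    have h4 := Cfsg.Agent.Helper23.fittingHall_coprime ↥M
    rw [← h3] at h4
    exact Nat.Coprime.coprime_dvd_left h1 (Nat.Coprime.coprime_dvd_right h2 h4)

end App

end Cfsg.Agent.Helper4
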