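import Mathlib
import Cfsg.Prelude.Def_OddOrderLocal

set_option autoImplicit false

namespace Cfsg.Agent.Helper4

open Cfsg Subgroup

universe u

variable {G : Type u} [Group G] [Finite G]

/-- `fittingHall` is invariant under automorphisms. -/
theorem bg17_fittingHall_map_le {N : Type u} [Group N] [Finite N] (φ : N ≃* N) :
    (fittingHall N).map (φ : N →* N) ≤ fittingHall N := by
  rw [Subgroup.map_le_iff_le_comap]
  unfold fittingHall
  apply sSup_le
  rintro L ⟨hLn, hLnil, hLcop⟩
  rw [← Subgroup.map_le_iff_le_comap]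
  apply le_sSup
  refine ⟨hLn.map (φ : N →* N) φ.surjective, ?_, ?_⟩
  · exact Group.nilpotent_of_mulEquiv (L.equivMapOfInjective (φ : N →* N) φ.injective)
  · rw [Subgroup.card_map_of_injective φ.injective, Subgroup.index_map_equiv]
    exact hLcop

/-- FH2a (pure). `N_F` is normalized by every subgroup `M` normalizing `N`
(`fittingHall ↥N` is characteristic: automorphisms permute the normal nilpotent Hall
subgroups; conjugation by `m ∈ M` is an automorphism of `↥N`). -/
theorem bg17_fittingHall_char (N M : Subgroup G) (hn : M ≤ normalizer (N : Set G)) :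
    M ≤ normalizer (fittingHallOf N : Set G) := by
  rw [Subgroup.le_normalizer_iff]
  intro m hm y hy
  obtain ⟨y', hy', rfl⟩ := hy
  have hmN : ∀ n : G, n ∈ N → m * n * m⁻¹ ∈ N := fun n hn' =>
    (mem_normalizer_iff.mp (hn hm) n).mp hn'
  have hmN' : ∀ n : G, n ∈ N → m⁻¹ * n * m ∈ N := fun n hn' => by
    have := (mem_normalizer_iff.mp (hn hm) (m⁻¹ * n * m)).mpr
    apply this
    have e : m * (m⁻¹ * n * m) * m⁻¹ = n := by group
    rw [e]; exact hn'
  let φ : ↥N ≃* ↥N :=
    { toFun := fun n => ⟨m * (n : G) * m⁻¹, hmN n n.2⟩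
      invFun := fun n => ⟨m⁻¹ * (n : G) * m, hmN' n n.2⟩
      left_inv := fun n => Subtype.ext (by simp [mul_assoc])
      right_inv := fun n => Subtype.ext (by simp [mul_assoc])
      map_mul' := fun a b => Subtype.ext (by simp [mul_assoc]) }
  have h1 : φ y' ∈ (fittingHall ↥N).map (φ : ↥N →* ↥N) := ⟨y', hy', rfl⟩
  have h2 : φ y' ∈ fittingHall ↥N := bg17_fittingHall_map_le φ h1
  exact ⟨φ y', h2, rfl⟩

end Cfsg.Agent.Helper4
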