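import Mathlib
import Cfsg.Prelude.Def_OddOrderLocal

set_option autoImplicit false

namespace Cfsg.Agent.Helper4

open Cfsg Subgroup

universe u

variable {G : Type u} [Group G] [Finite G]

/-- TF2 (pure). Complements in the sense of `IsComplIn` are complements inside `↥L`. -/
theorem bg17_isComplement' {S U L : Subgroup G} (h : IsComplIn S U L) :
    Subgroup.IsComplement' (S.subgroupOf L) (U.subgroupOf L) := by
  obtain ⟨hSL, hUL, hSU, hmul⟩ := h
  apply Subgroup.isComplement'_of_disjoint_and_mul_eq_univ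
  · rw [disjoint_iff, eq_bot_iff]
    rintro x ⟨hx1, hx2⟩
    rw [Subgroup.mem_bot]
    have hx : (x : G) ∈ S ⊓ U := ⟨Subgroup.mem_subgroupOf.mp hx1, Subgroup.mem_subgroupOf.mp hx2⟩
    rw [hSU, Subgroup.mem_bot] at hx
    exact Subtype.ext hx
  · rw [Set.eq_univ_iff_forall]
    intro m
    obtain ⟨a, ha, b, hb, hab⟩ := hmul (m : G) m.2
    refine ⟨⟨a, hSL ha⟩, ?_, ⟨b, hUL hb⟩, ?_, ?_⟩
    · exact Subgroup.mem_subgroupOf.mpr ha
    · exact Subgroup.mem_subgroupOf.mpr hb
    · exact Subtype.ext hab.symm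

end Cfsg.Agent.Helper4
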