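import Cfsg.Prelude.Def_OddOrderLocal

/-! helper4: CALL S1372 piece P6. -/

set_option autoImplicit false
open Cfsg Subgroup

namespace Cfsg.Agent.Helper4

universe u

variable {G : Type u} [Group G] [Finite G]

/-- P6: if `Ω₁(P)` has order at most `p²` for a Sylow `p`-subgroup `P` of `M`, then `M` has
`p`-rank at most 2. -/
theorem bg72_prank_le_two {M : Subgroup G} {p : ℕ} [Fact p.Prime] (P : Sylow p M)
    (hA : Nat.card ↥(closure {x : G | x ∈ (P : Subgroup M).map M.subtype ∧ x ^ p = 1}) ≤ p ^ 2) :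
    Cfsg.PRankLE p 2 M := by
  intro B hBc hBp
  have hBpg : IsPGroup p B := by
    intro b
    refine ⟨1, ?_⟩
    rw [pow_one]
    exact Subtype.ext (by simpa using hBp b.1 b.2)
  obtain ⟨Q, hBQ⟩ := hBpg.exists_le_sylow
  obtain ⟨g, hg⟩ := MulAction.exists_smul_eq ↥M Q P
  have hmem : ∀ b : ↥M, b ∈ B → g * b * g⁻¹ ∈ (P : Subgroup M) := by
    intro b hb
    rw [← hg, Sylow.smul_def, Sylow.pointwise_smul_def]
    exact Subgroup.smul_mem_pointwise_smul b (MulAut.conj g) _ (hBQ hb)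
  have hf : ∀ b : B, (((g * (b : ↥M) * g⁻¹ : ↥M) : G)) ∈
      closure {x : G | x ∈ (P : Subgroup M).map M.subtype ∧ x ^ p = 1} := by
    intro b
    apply Subgroup.subset_closure
    refine ⟨⟨_, hmem b.1 b.2, rfl⟩, ?_⟩
    have h1 : (g * (b : ↥M) * g⁻¹) ^ p = 1 := by
      rw [conj_pow, hBp b.1 b.2, mul_one, mul_inv_cancel]
    have h2 := congrArg (Subtype.val : ↥M → G) h1
    simpa using h2
  have hinj : Function.Injective (fun b : B =>
      (⟨((g * (b : ↥M) * g⁻¹ : ↥M) : G), hf b⟩ :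
        closure {x : G | x ∈ (P : Subgroup M).map M.subtype ∧ x ^ p = 1})) := by
    intro b b' hbb
    simp only [Subtype.mk.injEq] at hbb
    have h2 : g * (b : ↥M) * g⁻¹ = g * (b' : ↥M) * g⁻¹ := Subtype.ext hbb
    exact Subtype.ext (mul_left_cancel (mul_right_cancel h2))
  exact le_trans (Nat.card_le_card_of_injective _ hinj) hA

end Cfsg.Agent.Helper4
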