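import Cfsg.Prelude.Def_OddOrderLocal

/-! helper4: CALL S1372 piece P7. -/

set_option autoImplicit false
open Cfsg Subgroup

namespace Cfsg.Agent.Helper4

universe u

variable {G : Type u} [Group G] [Finite G]

/-- P7: if `Ω₁(P)` has order at most `p²` and is not contained in `⟨y⟩` for some `y ∈ P` of
order `p`, then `M` has `p`-rank at least 2. -/
theorem bg72_not_prank_le_one {M : Subgroup G} {p : ℕ} [Fact p.Prime] (P : Sylow p M)
    (hA : Nat.card ↥(closure {x : G | x ∈ (P : Subgroup M).map M.subtype ∧ x ^ p = 1}) ≤ p ^ 2)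
    {y : G} (hy : y ∈ (P : Subgroup M).map M.subtype) (hyp : y ^ p = 1) (hy1 : y ≠ 1)
    (hne : ¬ closure {x : G | x ∈ (P : Subgroup M).map M.subtype ∧ x ^ p = 1} ≤ zpowers y) :
    ¬ Cfsg.PRankLE p 1 M := by
  intro hrank
  have hp : p.Prime := Fact.out
  obtain ⟨A, hAdef⟩ : ∃ A : Subgroup G,
      A = closure {x : G | x ∈ (P : Subgroup M).map M.subtype ∧ x ^ p = 1} := ⟨_, rfl⟩
  rw [← hAdef] at hA hne
  have hAP : A ≤ (P : Subgroup M).map M.subtype := by
    rw [hAdef, closure_le]
    intro x hx
    exact hx.1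
  have hAM : A ≤ M := fun x hx => by
    obtain ⟨m, -, rfl⟩ := hAP hx
    exact m.2
  have hPpg : IsPGroup p ((P : Subgroup M).map M.subtype) := P.isPGroup'.map _
  have hApg : IsPGroup p A := hPpg.to_le hAP
  obtain ⟨k, hk⟩ := (IsPGroup.iff_card (p := p) (G := A)).1 hApg
  have hyA : y ∈ A := by
    rw [hAdef]
    exact Subgroup.subset_closure ⟨hy, hyp⟩
  have hzA : zpowers y ≤ A := by
    rw [zpowers_le]
    exact hyA
  have hcy : Nat.card (zpowers y) = p := by
    rw [Nat.card_zpowers]
    exact orderOf_eq_prime hyp hy1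
  have hlt : p < Nat.card A := by
    by_contra hle
    push Not at hle
    have := Subgroup.eq_of_le_of_card_ge hzA (by rw [hcy]; exact hle)
    exact hne (by rw [this])
  have hk2 : k = 2 := by
    rw [hk] at hlt hA
    have h1 : k ≤ 2 := (Nat.pow_le_pow_iff_right hp.one_lt).1 hA
    have h2 : 1 < k := by
      by_contra h
      push Not at h
      have : p ^ k ≤ p ^ 1 := Nat.pow_le_pow_right hp.pos h
      rw [pow_one] at this
      omega
    omega
  rw [hk2] at hk
  have hcomm : ∀ a b : A, a * b = b * a :=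
    isMulCommutative_iff.1 (IsPGroup.isMulCommutative_of_card_eq_prime_sq hk)
  have hexp : ∀ a ∈ A, a ^ p = 1 := by
    intro a ha
    have key : ∀ x (hx : x ∈ closure {x : G | x ∈ (P : Subgroup M).map M.subtype ∧ x ^ p = 1}),
        x ^ p = 1 := by
      intro x hx
      induction hx using closure_induction with
      | mem x hx => exact hx.2
      | one => exact one_pow p
      | mul a b ha' hb' iha ihb =>
        have hc : Commute a b := by
          have := hcomm ⟨a, hAdef ▸ ha'⟩ ⟨b, hAdef ▸ hb'⟩
          exact congrArg Subtype.val this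
        rw [hc.mul_pow, iha, ihb, one_mul]
      | inv a ha' iha => rw [inv_pow, iha, inv_one]
    exact key a (hAdef ▸ ha)
  have hcard : Nat.card (A.subgroupOf M) = p ^ 2 := by
    rw [Nat.card_congr (subgroupOfEquivOfLe hAM).toEquiv, hk]
  have hle := hrank (A.subgroupOf M)
    (IsMulCommutative.of_comm (fun a b => by
      have h3 := hcomm ⟨((a : ↥M) : G), a.2⟩ ⟨((b : ↥M) : G), b.2⟩
      have h4 : ((a : ↥M) : G) * ((b : ↥M) : G) = ((b : ↥M) : G) * ((a : ↥M) : G) :=
        congrArg Subtype.val h3
      exact Subtype.ext (Subtype.ext h4)))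
    (fun a ha => by
      apply Subtype.ext
      have := hexp (a : G) ha
      simpa using this)
  rw [hcard, pow_one] at hle
  have : p < p ^ 2 := by
    rw [pow_two]
    exact lt_mul_of_one_lt_left hp.pos hp.one_lt
  omega

end Cfsg.Agent.Helper4
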