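import Mathlib
import Cfsg.Prelude.Def_Transfer

set_option autoImplicit false

namespace Cfsg.Agent.Helper4

open Cfsg Subgroup

universe u

variable {G : Type u} [Group G] [Finite G]

/-- NPC (PURE). In a group `K` with a normal `s`-complement, an element of order prime to `s`
normalizing an `s`-subgroup `A` centralizes it. -/
theorem bgz_npc_centralizes {K A : Subgroup G} {s : ℕ} (hs : s.Prime)
    (hK : HasNormalPComplement s ↥K) (hAK : A ≤ K) (hA : IsPGroup s A) {y : G} (hyK : y ∈ K)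
    (hy : (orderOf y).Coprime s) (hyA : y ∈ normalizer (A : Set G)) :
    ∀ a ∈ A, y * a = a * y := by
  haveI : Fact s.Prime := ⟨hs⟩
  obtain ⟨P, N, hN, hc⟩ := hK
  have hyN : (⟨y, hyK⟩ : K) ∈ N := by
    obtain ⟨n, hn⟩ := (IsPGroup.iff_card (p := s) (G := (P : Subgroup K))).1 P.isPGroup'
    have hidx : N.index = s ^ n := by rw [hc.symm.index_eq_card]; exact hn
    rw [← QuotientGroup.eq_one_iff]
    have h1 : orderOf ((⟨y, hyK⟩ : K) : K ⧸ N) ∣ s ^ n := by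
      rw [← hidx, Subgroup.index]
      exact orderOf_dvd_natCard _
    have h2 : orderOf ((⟨y, hyK⟩ : K) : K ⧸ N) ∣ orderOf y := by
      have : orderOf (⟨y, hyK⟩ : K) = orderOf y := Subgroup.orderOf_mk y hyK
      rw [← this]
      exact orderOf_map_dvd (QuotientGroup.mk' N) _
    have h3 : orderOf ((⟨y, hyK⟩ : K) : K ⧸ N) = 1 :=
      Nat.Coprime.eq_one_of_dvd (Nat.Coprime.coprime_dvd_left h2 (Nat.Coprime.pow_right n hy)) h1
    exact orderOf_eq_one_iff.1 h3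
  intro a ha
  have hcA : a * y * a⁻¹ * y⁻¹ ∈ A := by
    have h1 : y * a⁻¹ * y⁻¹ ∈ A := (mem_normalizer_iff.1 hyA a⁻¹).1 (A.inv_mem ha)
    have h2 := A.mul_mem ha h1
    simpa [mul_assoc] using h2
  have hcK : a * y * a⁻¹ * y⁻¹ ∈ K := hAK hcA
  have hcN : (⟨a * y * a⁻¹ * y⁻¹, hcK⟩ : K) ∈ N := by
    have h1 : (⟨a, hAK ha⟩ : K) * ⟨y, hyK⟩ * (⟨a, hAK ha⟩ : K)⁻¹ ∈ N := hN.conj_mem _ hyN _
    have h2 := N.mul_mem h1 (N.inv_mem hyN)
    exact h2
  obtain ⟨k, hk⟩ := hA ⟨_, hcA⟩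
  have hk' : (a * y * a⁻¹ * y⁻¹) ^ s ^ k = 1 := by simpa [Subtype.ext_iff] using hk
  have hNcop : ¬ s ∣ Nat.card N := by
    rw [← hc.index_eq_card]; exact P.not_dvd_index
  have hord : orderOf (a * y * a⁻¹ * y⁻¹) ∣ Nat.card N := by
    have h := orderOf_dvd_natCard (⟨⟨_, hcK⟩, hcN⟩ : N)
    rwa [Subgroup.orderOf_mk, Subgroup.orderOf_mk] at h
  have hone : a * y * a⁻¹ * y⁻¹ = 1 := by
    obtain ⟨j, hj, hjeq⟩ := (Nat.dvd_prime_pow hs).1 (orderOf_dvd_of_pow_eq_one hk')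
    rcases Nat.eq_zero_or_pos j with h0 | hpos
    · rw [h0, pow_zero] at hjeq; exact orderOf_eq_one_iff.1 hjeq
    · exfalso; apply hNcop; exact dvd_trans (by rw [hjeq]; exact dvd_pow_self s hpos.ne') hord
  have h3 : a * y = y * a := by
    have h := hone
    rw [mul_inv_eq_one, mul_inv_eq_iff_eq_mul] at h
    exact h
  exact h3.symm

end Cfsg.Agent.Helper4
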