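import Mathlib
import Cfsg.Agent.Helper98.C2Defs

/-!
Piece BS of CALL S5634 (helper98): the group induced on the quotient by the first coordinate
line.
-/

set_option autoImplicit false

namespace Cfsg.Agent.Helper4.C2BS

open Matrix Cfsg.Agent.Helper98.C2
open scoped MatrixGroups

variable {K : Type*} [Field K]

/-- block-triangular product -/
theorem col0_mul {m : ℕ} (A B : Matrix (Fin (m + 1)) (Fin (m + 1)) K)
    (hA : ∀ i, i ≠ 0 → A i 0 = 0) (hB : ∀ i, i ≠ 0 → B i 0 = 0) :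
    (∀ i, i ≠ 0 → (A * B) i 0 = 0) ∧
      (A * B).submatrix Fin.succ Fin.succ
        = A.submatrix Fin.succ Fin.succ * B.submatrix Fin.succ Fin.succ := by
  constructor
  · intro i hi
    rw [Matrix.mul_apply, Fin.sum_univ_succ, hA i hi, zero_mul, zero_add]
    apply Finset.sum_eq_zero
    intro j _
    rw [hB j.succ (Fin.succ_ne_zero j), mul_zero]
  · ext a b
    simp only [Matrix.submatrix_apply, Matrix.mul_apply]
    rw [Fin.sum_univ_succ, hA a.succ (Fin.succ_ne_zero a), zero_mul, zero_add]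

/-- the inverse also fixes the first coordinate line -/
theorem col0_inv {m : ℕ} (k : GL (Fin (m + 1)) K) (hk : ∀ i, i ≠ 0 → k.1 i 0 = 0) :
    ∀ i, i ≠ 0 → (k⁻¹ : GL (Fin (m + 1)) K).1 i 0 = 0 := by
  have h1 : ∀ i, ((k⁻¹ : GL (Fin (m + 1)) K).1 * k.1) i 0
      = (k⁻¹ : GL (Fin (m + 1)) K).1 i 0 * k.1 0 0 := by
    intro i
    rw [Matrix.mul_apply, Fin.sum_univ_succ]
    have : ∑ j : Fin m, (k⁻¹ : GL (Fin (m + 1)) K).1 i j.succ * k.1 j.succ 0 = 0 :=
      Finset.sum_eq_zero (fun j _ => by rw [hk j.succ (Fin.succ_ne_zero j), mul_zero])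
    rw [this, add_zero]
  have h2 : (k⁻¹ : GL (Fin (m + 1)) K).1 * k.1 = 1 := by
    rw [← Units.val_mul, inv_mul_cancel, Units.val_one]
  have h3 : (k⁻¹ : GL (Fin (m + 1)) K).1 0 0 * k.1 0 0 = 1 := by
    rw [← h1 0, h2, Matrix.one_apply_eq]
  have hc : k.1 0 0 ≠ 0 := right_ne_zero_of_mul_eq_one h3
  intro i hi
  have h4 := h1 i
  rw [h2, Matrix.one_apply_ne hi] at h4
  exact (mul_eq_zero.mp h4.symm).resolve_right hc

/-- PIECE BS: the group induced on the quotient by the first coordinate line -/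
def blockSub (m : ℕ) (X : Subgroup (GL (Fin (m + 1)) K)) : Subgroup (GL (Fin m) K) where
  carrier := {r | ∃ k ∈ X, (∀ i, i ≠ 0 → k.1 i 0 = 0) ∧ k.1.submatrix Fin.succ Fin.succ = r.1}
  mul_mem' := by
    rintro r r' ⟨k, hk, hk0, hkr⟩ ⟨k', hk', hk'0, hk'r⟩
    refine ⟨k * k', X.mul_mem hk hk', (col0_mul k.1 k'.1 hk0 hk'0).1, ?_⟩
    rw [Units.val_mul, (col0_mul k.1 k'.1 hk0 hk'0).2, hkr, hk'r, Units.val_mul]
  one_mem' := ⟨1, X.one_mem, fun i hi => by rw [Units.val_one, Matrix.one_apply_ne hi], by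
    rw [Units.val_one, Units.val_one, Matrix.submatrix_one _ (Fin.succ_injective m)]⟩
  inv_mem' := by
    rintro r ⟨k, hk, hk0, hkr⟩
    refine ⟨k⁻¹, X.inv_mem hk, col0_inv k hk0, ?_⟩
    have h1 := (col0_mul k.1 (k⁻¹ : GL (Fin (m + 1)) K).1 hk0 (col0_inv k hk0)).2
    rw [← Units.val_mul, mul_inv_cancel, Units.val_one,
      Matrix.submatrix_one _ (Fin.succ_injective m), hkr] at h1
    calc (k⁻¹ : GL (Fin (m + 1)) K).1.submatrix Fin.succ Fin.succ
        = (r⁻¹ : GL (Fin m) K).1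
            * (r.1 * (k⁻¹ : GL (Fin (m + 1)) K).1.submatrix Fin.succ Fin.succ) := by
          rw [← Matrix.mul_assoc, ← Units.val_mul, inv_mul_cancel, Units.val_one, Matrix.one_mul]
      _ = (r⁻¹ : GL (Fin m) K).1 := by rw [← h1, Matrix.mul_one]

theorem mem_blockSub (m : ℕ) (X : Subgroup (GL (Fin (m + 1)) K)) (r : GL (Fin m) K) :
    r ∈ blockSub m X ↔ ∃ k ∈ X, (∀ i, i ≠ 0 → k.1 i 0 = 0) ∧
      k.1.submatrix Fin.succ Fin.succ = r.1 := Iff.rfl

theorem blockSub_of_fix (m : ℕ) (X : Subgroup (GL (Fin (m + 1)) K)) (k : GL (Fin (m + 1)) K)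
    (hk : k ∈ X) (hk0 : ∀ i, i ≠ 0 → k.1 i 0 = 0) :
    ∃ r ∈ blockSub m X, r.1 = k.1.submatrix Fin.succ Fin.succ := by
  have hinv := col0_inv k hk0
  have h1 := (col0_mul k.1 (k⁻¹ : GL (Fin (m + 1)) K).1 hk0 hinv).2
  rw [← Units.val_mul, mul_inv_cancel, Units.val_one,
    Matrix.submatrix_one _ (Fin.succ_injective m)] at h1
  have h2 := (col0_mul (k⁻¹ : GL (Fin (m + 1)) K).1 k.1 hinv hk0).2
  rw [← Units.val_mul, inv_mul_cancel, Units.val_one,
    Matrix.submatrix_one _ (Fin.succ_injective m)] at h2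
  exact ⟨⟨k.1.submatrix Fin.succ Fin.succ,
    (k⁻¹ : GL (Fin (m + 1)) K).1.submatrix Fin.succ Fin.succ, h1.symm, h2.symm⟩,
    ⟨k, hk, hk0, rfl⟩, rfl⟩

/-- the block matrix `c ⊕ A` -/
def ext1 {m : ℕ} (c : K) (A : Matrix (Fin m) (Fin m) K) :
    Matrix (Fin (m + 1)) (Fin (m + 1)) K :=
  Matrix.of fun i j =>
    Fin.cases (Fin.cases c (fun _ => 0) j) (fun a => Fin.cases 0 (fun b => A a b) j) i

@[simp] theorem ext1_zero_zero {m : ℕ} (c : K) (A : Matrix (Fin m) (Fin m) K) :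
    ext1 c A 0 0 = c := rfl

@[simp] theorem ext1_zero_succ {m : ℕ} (c : K) (A : Matrix (Fin m) (Fin m) K) (b : Fin m) :
    ext1 c A 0 b.succ = 0 := rfl

@[simp] theorem ext1_succ_zero {m : ℕ} (c : K) (A : Matrix (Fin m) (Fin m) K) (a : Fin m) :
    ext1 c A a.succ 0 = 0 := rfl

@[simp] theorem ext1_succ_succ {m : ℕ} (c : K) (A : Matrix (Fin m) (Fin m) K) (a b : Fin m) :
    ext1 c A a.succ b.succ = A a b := rfl

theorem ext1_mul {m : ℕ} (c c' : K) (A A' : Matrix (Fin m) (Fin m) K) :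
    ext1 c A * ext1 c' A' = ext1 (c * c') (A * A') := by
  ext i j
  refine Fin.cases ?_ (fun a => ?_) i <;> refine Fin.cases ?_ (fun b => ?_) j <;>
    simp [Matrix.mul_apply, Fin.sum_univ_succ]

theorem ext1_one {m : ℕ} : ext1 (1 : K) (1 : Matrix (Fin m) (Fin m) K) = 1 := by
  ext i j
  refine Fin.cases ?_ (fun a => ?_) i <;> refine Fin.cases ?_ (fun b => ?_) j
  · simp
  · rw [Matrix.one_apply_ne (Fin.succ_ne_zero b).symm]; rfl
  · rw [Matrix.one_apply_ne (Fin.succ_ne_zero a)]; rfl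
  · simp [Matrix.one_apply]

theorem ext1_det {m : ℕ} (c : K) (A : Matrix (Fin m) (Fin m) K) :
    (ext1 c A).det = c * A.det := by
  rw [Matrix.det_succ_column_zero, Fin.sum_univ_succ]
  have h0 : (ext1 c A).submatrix (Fin.succAbove 0) Fin.succ = A := by
    ext a b
    simp
  rw [h0]
  simp

theorem ext1_isMono {m : ℕ} (c : K) (A : Matrix (Fin m) (Fin m) K) (hA : IsMono A) :
    IsMono (ext1 c A) := by
  obtain ⟨σ, hσ⟩ := hA
  refine ⟨Equiv.Perm.decomposeFin.symm (0, σ), fun i j => ?_⟩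
  refine Fin.cases ?_ (fun a => ?_) i <;> refine Fin.cases ?_ (fun b => ?_) j
  · intro hij; exact absurd (by simp) hij
  · intro _; rfl
  · intro _; rfl
  · intro hij
    have h1 : a ≠ σ b := by
      intro h; apply hij; simp [h]
    exact hσ a b h1

/-- `c ⊕ r` as an element of `GL` -/
def ext1GL {m : ℕ} (c : K) (hc : c ≠ 0) (r : GL (Fin m) K) : GL (Fin (m + 1)) K :=
  ⟨ext1 c r.1, ext1 c⁻¹ (r⁻¹ : GL (Fin m) K).1, by
    rw [ext1_mul, mul_inv_cancel₀ hc, ← Units.val_mul, mul_inv_cancel, Units.val_one, ext1_one],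
    by
    rw [ext1_mul, inv_mul_cancel₀ hc, ← Units.val_mul, inv_mul_cancel, Units.val_one, ext1_one]⟩

theorem ext1GL_col {m : ℕ} (c : K) (hc : c ≠ 0) (r : GL (Fin m) K) :
    ∀ i, i ≠ 0 → (ext1GL c hc r).1 i 0 = 0 := by
  intro i
  refine Fin.cases ?_ (fun a => ?_) i
  · intro h; exact absurd rfl h
  · intro _; rfl

theorem monLE_blockSub (m : ℕ) (X : Subgroup (GL (Fin (m + 1)) K)) (hX : MonLE X) :
    MonLE (blockSub m X) := by
  intro r hr
  exact ⟨ext1GL 1 one_ne_zero r, hX _ (ext1_isMono 1 r.1 hr), ext1GL_col 1 one_ne_zero r, by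
    ext a b; rfl⟩

theorem monLE_blockSub_sl (m : ℕ) (M : Subgroup (GL (Fin (m + 1)) K)) (hH : MonSLLE M) :
    MonLE (blockSub m M) := by
  intro r hr
  have hdet : r.1.det ≠ 0 := ((Matrix.isUnit_iff_isUnit_det r.1).mp r.isUnit).ne_zero
  have hc : (r.1.det)⁻¹ ≠ 0 := inv_ne_zero hdet
  refine ⟨ext1GL _ hc r, hH _ (ext1_isMono _ r.1 hr) ?_, ext1GL_col _ hc r, by ext a b; rfl⟩
  show (ext1 (r.1.det)⁻¹ r.1).det = 1
  rw [ext1_det, inv_mul_cancel₀ hdet]

end Cfsg.Agent.Helper4.C2BS
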