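import Mathlib
import Cfsg.Agent.Helper98.C2Defs

/-!
Piece FZ of CALL S5634 (helper98): move a fixed coordinate line to the index `0` by conjugating
with a permutation matrix.
-/

set_option autoImplicit false

namespace Cfsg.Agent.Helper4.C2FZ

open Matrix Cfsg.Agent.Helper98.C2
open scoped MatrixGroups

variable {K : Type*} [Field K]

/-- the permutation matrix of `π` as an element of `GL` -/
def permGL {ι : Type*} [Fintype ι] [DecidableEq ι] (π : Equiv.Perm ι) : GL ι K :=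
  ⟨(1 : Matrix ι ι K).submatrix id π, (1 : Matrix ι ι K).submatrix π id, by
    rw [Matrix.submatrix_mul_equiv, Matrix.mul_one, Matrix.submatrix_id_id], by
    show (1 : Matrix ι ι K).submatrix π (Equiv.refl ι) * (1 : Matrix ι ι K).submatrix (Equiv.refl ι) π
      = 1
    rw [Matrix.submatrix_mul_equiv, Matrix.mul_one, Matrix.submatrix_one_equiv]⟩

theorem permGL_val {ι : Type*} [Fintype ι] [DecidableEq ι] (π : Equiv.Perm ι) :
    (permGL π : GL ι K).1 = (1 : Matrix ι ι K).submatrix id π := rfl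

theorem permGL_isMono {ι : Type*} [Fintype ι] [DecidableEq ι] (π : Equiv.Perm ι) :
    IsMono (permGL π : GL ι K).1 := by
  refine ⟨π, fun i j hij => ?_⟩
  rw [permGL_val, Matrix.submatrix_apply, id, Matrix.one_apply_ne hij]

theorem permGL_det {ι : Type*} [Fintype ι] [DecidableEq ι] (π : Equiv.Perm ι) :
    (permGL π : GL ι K).1.det = ((Equiv.Perm.sign π : ℤˣ) : ℤ) := by
  rw [permGL_val, Matrix.det_permute', Matrix.det_one, mul_one]

theorem permGL_conj {ι : Type*} [Fintype ι] [DecidableEq ι] (π : Equiv.Perm ι) (h : GL ι K)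
    (a b : ι) : ((permGL π)⁻¹ * h * permGL π : GL ι K).1 a b = h.1 (π a) (π b) := by
  have e1 : ((permGL π)⁻¹ * h * permGL π : GL ι K).1
      = (1 : Matrix ι ι K).submatrix π (Equiv.refl ι) * h.1
        * (1 : Matrix ι ι K).submatrix (Equiv.refl ι) π := rfl
  rw [e1, Matrix.one_submatrix_mul, Matrix.mul_submatrix_one]
  rfl

theorem fix_zero_aux {ι : Type*} [Fintype ι] [DecidableEq ι] (o : ι) (X : Subgroup (GL ι K))
    (h : GL ι K) (hh : h ∈ X) (hm : ¬ IsMono h.1) (i₀ : ι) (hi₀ : ∀ j, j ≠ i₀ → h.1 j i₀ = 0)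
    (π : Equiv.Perm ι) (hπ : π o = i₀) (hw : permGL π ∈ X) :
    ∃ h' ∈ X, ¬ IsMono h'.1 ∧ ∀ i, i ≠ o → h'.1 i o = 0 := by
  refine ⟨(permGL π)⁻¹ * h * permGL π, X.mul_mem (X.mul_mem (X.inv_mem hw) hh) hw, ?_, ?_⟩
  · rintro ⟨σ, hσ⟩
    apply hm
    refine ⟨π * σ * π⁻¹, fun a b hab => ?_⟩
    have h1 := hσ (π⁻¹ a) (π⁻¹ b) (by
      intro h2
      apply hab
      rw [Equiv.Perm.mul_apply, Equiv.Perm.mul_apply, ← h2]
      simp)
    rw [permGL_conj] at h1
    simpa using h1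
  · intro i hi
    rw [permGL_conj, hπ]
    apply hi₀
    intro h2
    apply hi
    rw [← hπ] at h2
    exact π.injective h2

/-- PIECE FZ -/
theorem fix_zero_gl (m : ℕ) (X : Subgroup (GL (Fin (m + 1)) K)) (hX : MonLE X)
    (h : GL (Fin (m + 1)) K) (hh : h ∈ X) (hm : ¬ IsMono h.1) (hf : FixesLine h.1) :
    ∃ h' ∈ X, ¬ IsMono h'.1 ∧ ∀ i, i ≠ 0 → h'.1 i 0 = 0 := by
  obtain ⟨i₀, hi₀⟩ := hf
  exact fix_zero_aux 0 X h hh hm i₀ hi₀ (Equiv.swap 0 i₀) (Equiv.swap_apply_left 0 i₀)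
    (hX _ (permGL_isMono _))

theorem fix_zero_sl (m : ℕ) (hm2 : 2 ≤ m) (M : Subgroup (GL (Fin (m + 1)) K)) (hH : MonSLLE M)
    (h : GL (Fin (m + 1)) K) (hh : h ∈ M) (hm : ¬ IsMono h.1) (hf : FixesLine h.1) :
    ∃ h' ∈ M, ¬ IsMono h'.1 ∧ ∀ i, i ≠ 0 → h'.1 i 0 = 0 := by
  obtain ⟨i₀, hi₀⟩ := hf
  by_cases hi0 : i₀ = 0
  · rw [hi0] at hi₀
    exact ⟨h, hh, hm, hi₀⟩
  · obtain ⟨x, hx0, hxi⟩ : ∃ x : Fin (m + 1), x ≠ 0 ∧ x ≠ i₀ := by
      by_contra hcon
      push_neg at hcon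
      have h2 : Fintype.card (Fin (m + 1)) ≤ 2 := by
        calc Fintype.card (Fin (m + 1)) = (Finset.univ : Finset (Fin (m + 1))).card := rfl
          _ ≤ ({0, i₀} : Finset (Fin (m + 1))).card := Finset.card_le_card (fun x _ => by
              by_cases hx : x = 0
              · simp [hx]
              · simp [hcon x hx])
          _ ≤ 2 := Finset.card_le_two
      simp at h2
      omega
    have hπ0 : (Equiv.swap 0 i₀ * Equiv.swap i₀ x) 0 = i₀ := by
      rw [Equiv.Perm.mul_apply, Equiv.swap_apply_of_ne_of_ne (Ne.symm hi0) (Ne.symm hx0),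
        Equiv.swap_apply_left]
    refine fix_zero_aux 0 M h hh hm i₀ hi₀ _ hπ0 (hH _ (permGL_isMono _) ?_)
    rw [permGL_det, Equiv.Perm.sign_mul, Equiv.Perm.sign_swap (Ne.symm hi0),
      Equiv.Perm.sign_swap (Ne.symm hxi)]
    simp

end Cfsg.Agent.Helper4.C2FZ
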