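import Mathlib

/-!
# CALL C3O (helper43, S5977 + S5978), piece FD (helper4): order arithmetic in `ZMod r`.
-/

set_option autoImplicit false

namespace Cfsg.Agent.Helper4

open Matrix Module Polynomial

universe u

/-- in a field, an element whose square is `1` is `1` or `-1` -/
theorem c3o_fd_sq {K : Type*} [Field K] (a : K) (h : a ^ 2 = 1) : a = 1 ∨ a = -1 := by
  have h1 : (a - 1) * (a + 1) = 0 := by ring_nf; rw [h]; ring
  rcases mul_eq_zero.mp h1 with h2 | h2
  · left; exact sub_eq_zero.mp h2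
  · right; exact eq_neg_of_add_eq_zero_left h2

/-- PIECE FD (two statements, pure arithmetic) -/
theorem c3o_fd (q r : ℕ) (hr : r.Prime) (hr2 : r ≠ 2) (hi2 : Even (orderOf (q : ZMod r)))
    (hi4 : ¬ 4 ∣ orderOf (q : ZMod r)) :
    ∃ m, Odd m ∧ orderOf (q : ZMod r) = 2 * m ∧ r ∣ q ^ m + 1 := by
  haveI : Fact r.Prime := ⟨hr⟩
  obtain ⟨m, hm⟩ := hi2
  have hm2 : orderOf (q : ZMod r) = 2 * m := by omega
  have hodd : Odd m := by
    rcases Nat.even_or_odd m with he | ho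
    · exfalso
      apply hi4
      obtain ⟨k, hk⟩ := he
      exact ⟨k, by omega⟩
    · exact ho
  refine ⟨m, hodd, hm2, ?_⟩
  have hpow : ((q : ZMod r) ^ m) ^ 2 = 1 := by
    rw [← pow_mul, mul_comm, ← hm2]
    exact pow_orderOf_eq_one _
  rcases c3o_fd_sq _ hpow with h1 | h1
  · exfalso
    have hdvd : orderOf (q : ZMod r) ∣ m := orderOf_dvd_of_pow_eq_one h1
    rw [hm2] at hdvd
    have hmpos : 0 < m := hodd.pos
    have := Nat.le_of_dvd hmpos hdvd
    omega
  · have h2 : ((q ^ m + 1 : ℕ) : ZMod r) = 0 := by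
      push_cast
      rw [h1]
      ring
    exact (ZMod.natCast_eq_zero_iff _ _).mp h2

theorem c3o_fd4 (q r : ℕ) (hr : r.Prime) (hr2 : r ≠ 2) (hrq : ¬ r ∣ q)
    (h4 : 4 ∣ orderOf (q : ZMod r)) :
    ∃ m, orderOf (q : ZMod r) = 4 * m ∧ r ∣ q ^ (2 * m) + 1 := by
  haveI : Fact r.Prime := ⟨hr⟩
  obtain ⟨m, hm⟩ := h4
  refine ⟨m, hm, ?_⟩
  have hq0 : (q : ZMod r) ≠ 0 := by
    intro h
    exact hrq ((ZMod.natCast_eq_zero_iff _ _).mp h)
  have hopos : 0 < orderOf (q : ZMod r) := by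
    have h1 : (q : ZMod r) ^ (r - 1) = 1 := ZMod.pow_card_sub_one_eq_one hq0
    have h2 : orderOf (q : ZMod r) ∣ r - 1 := orderOf_dvd_of_pow_eq_one h1
    have h3 : 0 < r - 1 := by have := hr.two_le; omega
    exact Nat.pos_of_dvd_of_pos h2 h3
  have hpow : ((q : ZMod r) ^ (2 * m)) ^ 2 = 1 := by
    rw [← pow_mul]
    have : 2 * m * 2 = orderOf (q : ZMod r) := by omega
    rw [this]
    exact pow_orderOf_eq_one _
  rcases c3o_fd_sq _ hpow with h1 | h1
  · exfalso
    have hdvd : orderOf (q : ZMod r) ∣ 2 * m := orderOf_dvd_of_pow_eq_one h1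
    have hmpos : 0 < 2 * m := by omega
    have := Nat.le_of_dvd hmpos hdvd
    omega
  · have h2 : ((q ^ (2 * m) + 1 : ℕ) : ZMod r) = 0 := by
      push_cast
      rw [h1]
      ring
    exact (ZMod.natCast_eq_zero_iff _ _).mp h2

end Cfsg.Agent.Helper4
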