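import Mathlib
import Cfsg.Prelude.Def_GeometricClasses

/-!
# CALL C3O (helper43, S5977 + S5978), piece ODDC (helper4): an odd-order element normalizing
`K = F[J]` (`J² = n` a nonsquare) commutes with `J`.
-/

set_option autoImplicit false

namespace Cfsg.Agent.Helper4

open Matrix Module Polynomial

universe u

/-- `1` and `J` are linearly independent when `J² = n` is a nonsquare scalar -/
theorem c3o_oddc_indep {F : Type*} [Field F] {ι : Type} [Fintype ι] [DecidableEq ι] [Nonempty ι]
    (J : Matrix ι ι F) (n : F) (hn : ¬ IsSquare n) (hJ2 : J * J = n • (1 : Matrix ι ι F))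
    (α β : F) (h : α • (1 : Matrix ι ι F) + β • J = 0) : α = 0 ∧ β = 0 := by
  obtain ⟨i⟩ := ‹Nonempty ι›
  have hβ : β = 0 := by
    by_contra hβ
    apply hn
    have hJ : J = (-α / β) • (1 : Matrix ι ι F) := by
      have h1 : β • J = (-α) • (1 : Matrix ι ι F) := by
        rw [neg_smul]
        exact eq_neg_of_add_eq_zero_right h
      have h2 : J = β⁻¹ • (β • J) := by rw [smul_smul, inv_mul_cancel₀ hβ, one_smul]
      rw [h2, h1, smul_smul]
      congr 1
      field_simp
    have h3 : ((-α / β) • (1 : Matrix ι ι F)) * ((-α / β) • (1 : Matrix ι ι F))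
        = n • (1 : Matrix ι ι F) := by rw [← hJ]; exact hJ2
    have h4 := congrFun (congrFun h3 i) i
    simp at h4
    exact ⟨-α / β, by rw [← h4]⟩
  refine ⟨?_, hβ⟩
  rw [hβ, zero_smul, add_zero] at h
  have h4 := congrFun (congrFun h i) i
  simpa using h4

/-- PIECE ODDC -/
theorem c3o_oddc {F : Type*} [Field F] {ι : Type} [Fintype ι] [DecidableEq ι] (h2 : (2 : F) ≠ 0)
    (K : Subalgebra F (Matrix ι ι F)) (J : Matrix ι ι F) (n : F) (hn : ¬ IsSquare n)
    (hJ2 : J * J = n • (1 : Matrix ι ι F))
    (hJ : ∀ y, y ∈ K ↔ ∃ a b : F, y = a • (1 : Matrix ι ι F) + b • J) (G : GL ι F)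
    (hG : G ∈ Cfsg.Geo.subalgebraNormalizer K) (r : ℕ) (hr : Odd r) (hGr : G ^ r = 1) :
    (G : Matrix ι ι F) * J = J * (G : Matrix ι ι F) := by
  rcases isEmpty_or_nonempty ι with hι | hι
  · exact Subsingleton.elim _ _
  obtain ⟨i⟩ := id hι
  have hn0 : n ≠ 0 := by
    rintro rfl
    exact hn ⟨0, by ring⟩
  set g : Matrix ι ι F := (G : Matrix ι ι F) with hg
  set g' : Matrix ι ι F := ((G⁻¹ : GL ι F) : Matrix ι ι F) with hg'
  have hgg' : g * g' = 1 := by
    rw [hg, hg', ← Units.val_mul, mul_inv_cancel, Units.val_one]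
  have hg'g : g' * g = 1 := by
    rw [hg, hg', ← Units.val_mul, inv_mul_cancel, Units.val_one]
  have hJK : J ∈ K := (hJ J).mpr ⟨0, 1, by simp⟩
  have hconj : g * J * g' ∈ K := (hG J).mp hJK
  obtain ⟨a, b, hab⟩ := (hJ _).mp hconj
  -- squaring
  have hsq : (g * J * g') * (g * J * g') = n • (1 : Matrix ι ι F) := by
    calc (g * J * g') * (g * J * g') = g * J * (g' * g) * J * g' := by simp only [mul_assoc]
      _ = g * (J * J) * g' := by rw [hg'g, mul_one, mul_assoc g J J]
      _ = n • (1 : Matrix ι ι F) := by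
        rw [hJ2, Matrix.mul_smul, Matrix.smul_mul, mul_one, hgg']
  have hsq2 : (a • (1 : Matrix ι ι F) + b • J) * (a • (1 : Matrix ι ι F) + b • J)
      = (a * a + b * b * n) • (1 : Matrix ι ι F) + (2 * a * b) • J := by
    simp only [add_mul, mul_add, Matrix.smul_mul, Matrix.mul_smul, one_mul, mul_one, hJ2]
    module
  rw [hab, hsq2] at hsq
  have hlin : (a * a + b * b * n - n) • (1 : Matrix ι ι F) + (2 * a * b) • J = 0 := by
    rw [sub_smul, sub_add_eq_add_sub, hsq, sub_self]
  obtain ⟨h1, h3⟩ := c3o_oddc_indep J n hn hJ2 _ _ hlin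
  have hab0 : a * b = 0 := by
    rcases mul_eq_zero.mp h3 with h | h
    · rcases mul_eq_zero.mp h with h | h
      · exact absurd h h2
      · rw [h, zero_mul]
    · rw [h, mul_zero]
  have ha : a = 0 := by
    rcases mul_eq_zero.mp hab0 with h | h
    · exact h
    · exfalso
      apply hn
      rw [h] at h1
      exact ⟨a, by linear_combination -h1⟩
  have hb : b * b = 1 := by
    rw [ha] at h1
    have h4 : (b * b - 1) * n = 0 := by linear_combination h1
    rcases mul_eq_zero.mp h4 with h | h
    · exact sub_eq_zero.mp h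
    · exact absurd h hn0
  -- `g * J = b • (J * g)`
  have hgJ : g * J = b • (J * g) := by
    have h5 : g * J = (g * J * g') * g := by rw [mul_assoc, hg'g, mul_one]
    rw [h5, hab, ha, zero_smul, zero_add, Matrix.smul_mul]
  have hpow : ∀ k : ℕ, g ^ k * J = b ^ k • (J * g ^ k) := by
    intro k
    induction k with
    | zero => simp
    | succ k ih =>
      rw [pow_succ, mul_assoc, hgJ, Matrix.mul_smul, ← mul_assoc, ih, Matrix.smul_mul, smul_smul,
        mul_assoc, ← pow_succ, ← pow_succ', pow_succ b k]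
  have hgr : g ^ r = 1 := by
    rw [hg, ← Units.val_pow_eq_pow_val, hGr, Units.val_one]
  have hfin := hpow r
  rw [hgr, one_mul, mul_one] at hfin
  have hb1 : b = 1 := by
    have hb' : (b - 1) * (b + 1) = 0 := by linear_combination hb
    rcases mul_eq_zero.mp hb' with h | h
    · exact sub_eq_zero.mp h
    · exfalso
      have hbm : b = -1 := eq_neg_of_add_eq_zero_left h
      rw [hbm, Odd.neg_one_pow hr, neg_smul, one_smul] at hfin
      have hJJ : (2 : F) • J = 0 := by
        rw [two_smul]
        nth_rewrite 1 [hfin]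
        exact neg_add_cancel J
      have hJ0 : J = 0 := by
        rcases smul_eq_zero.mp hJJ with h | h
        · exact absurd h h2
        · exact h
      rw [hJ0, mul_zero] at hJ2
      have h6 := congrFun (congrFun hJ2 i) i
      simp at h6
      exact hn0 h6.symm
  rw [hgJ, hb1, one_smul]

end Cfsg.Agent.Helper4
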