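import Mathlib

/-!
# CALL C3O (helper43, S5977 + S5978), piece SYL (helper4): Sylow counting.
-/

set_option autoImplicit false

namespace Cfsg.Agent.Helper4

open Matrix Module Polynomial

universe u

/-- PIECE SYL -/
theorem c3o_syl {G : Type*} [Group G] [Finite G] (N Ω : Subgroup G) (r : ℕ) [Fact r.Prime]
    (S : Sylow r ↥Ω) (T : Subgroup G) (hT : T ≤ N ⊓ Ω) (hcard : Nat.card T = Nat.card S) :
    ¬ r ∣ N.relIndex Ω := by
  have hr : r.Prime := Fact.out
  intro hdvd
  have hS : Nat.card S = r ^ (Nat.card Ω).factorization r := Sylow.card_eq_multiplicity S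
  have hTΩ : T ≤ Ω := le_trans hT inf_le_right
  have hTN : T ≤ N := le_trans hT inf_le_left
  have h1 : Nat.card (T.subgroupOf Ω) = Nat.card T :=
    Nat.card_congr (Subgroup.subgroupOfEquivOfLe hTΩ).toEquiv
  have h2 : T.subgroupOf Ω ≤ N.subgroupOf Ω := by
    intro x hx
    rw [Subgroup.mem_subgroupOf] at hx ⊢
    exact hTN hx
  have h3 : Nat.card (T.subgroupOf Ω) ∣ Nat.card (N.subgroupOf Ω) := Subgroup.card_dvd_of_le h2
  have h4 : (N.subgroupOf Ω).index * Nat.card (N.subgroupOf Ω) = Nat.card Ω :=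
    Subgroup.index_mul_card _
  have h6 : r ^ (Nat.card Ω).factorization r ∣ Nat.card (N.subgroupOf Ω) := by
    rw [← hS, ← hcard, ← h1]
    exact h3
  have h7 : r * r ^ (Nat.card Ω).factorization r
      ∣ (N.subgroupOf Ω).index * Nat.card (N.subgroupOf Ω) := Nat.mul_dvd_mul hdvd h6
  have h5 : r ^ ((Nat.card Ω).factorization r + 1) ∣ Nat.card Ω := by
    rw [h4] at h7
    rw [pow_succ, mul_comm]
    exact h7
  exact Nat.pow_succ_factorization_not_dvd Nat.card_pos.ne' hr h5

end Cfsg.Agent.Helper4
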