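import Mathlib

/-!
# CALL C3O (helper43, S5977 + S5978), piece ZDEC (helper4): `V = ker (z - 1) ⊕ range (z - 1)`,
orthogonal, for an isometry `z` with `z ^ r = 1`, `r ≠ 0` in `F`.
-/

set_option autoImplicit false

namespace Cfsg.Agent.Helper4

open Matrix Module Polynomial

universe u

/-- PIECE ZDEC -/
theorem c3o_zdec {F : Type*} [Field F] {V : Type*} [AddCommGroup V] [Module F V]
    [FiniteDimensional F V] (B : LinearMap.BilinForm F V) (r : ℕ) (hrF : (r : F) ≠ 0)
    (z : V →ₗ[F] V) (hz : z ^ r = 1) (hiso : ∀ u v, B (z u) (z v) = B u v) :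
    IsCompl (LinearMap.ker (z - 1)) (LinearMap.range (z - 1)) ∧
      ∀ u ∈ LinearMap.ker (z - 1), ∀ v ∈ LinearMap.range (z - 1), B u v = 0 := by
  have hker : ∀ u, u ∈ LinearMap.ker (z - 1) → z u = u := by
    intro u hu
    rw [LinearMap.mem_ker, LinearMap.sub_apply, Module.End.one_apply] at hu
    exact sub_eq_zero.mp hu
  refine ⟨?_, ?_⟩
  · rw [Submodule.isCompl_iff_disjoint _ _
      (by rw [add_comm, LinearMap.finrank_range_add_finrank_ker])]
    rw [Submodule.disjoint_def]
    intro v hv1 hv2
    obtain ⟨w, rfl⟩ := hv2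
    have hzv := hker _ hv1
    -- the norm element
    have hN : (∑ i ∈ Finset.range r, z ^ i) * (z - 1) = 0 := by
      rw [geom_sum_mul, hz, sub_self]
    have h1 : (∑ i ∈ Finset.range r, z ^ i) ((z - 1) w) = 0 := by
      have := congrArg (fun f : V →ₗ[F] V => f w) hN
      simpa using this
    have h2 : (∑ i ∈ Finset.range r, z ^ i) ((z - 1) w) = (r : F) • ((z - 1) w) := by
      rw [LinearMap.sum_apply]
      have h3 : ∀ i ∈ Finset.range r, (z ^ i) ((z - 1) w) = (z - 1) w := by
        intro i _
        rw [Module.End.pow_apply]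
        exact Function.iterate_fixed hzv i
      rw [Finset.sum_congr rfl h3, Finset.sum_const, Finset.card_range, Nat.cast_smul_eq_nsmul]
    rw [h2] at h1
    rcases smul_eq_zero.mp h1 with h | h
    · exact absurd h hrF
    · exact h
  · intro u hu v hv
    obtain ⟨w, rfl⟩ := hv
    have hzu := hker u hu
    rw [LinearMap.sub_apply, Module.End.one_apply, map_sub]
    nth_rewrite 1 [← hzu]
    rw [hiso, sub_self]

end Cfsg.Agent.Helper4
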