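import Mathlib
import Cfsg.Agent.Helper4.Invol

set_option autoImplicit false

namespace Cfsg.Agent.Helper4

open scoped Pointwise

variable {G : Type*} [Group G]

theorem mem_conj_smul_iff (g a : G) (H : Subgroup G) :
    a ∈ MulAut.conj g • H ↔ g⁻¹ * a * g ∈ H := by
  rw [Subgroup.mem_pointwise_smul_iff_inv_smul_mem]
  have : (MulAut.conj g)⁻¹ • a = g⁻¹ * a * g := by
    rw [← map_inv, MulAut.smul_def, MulAut.conj_apply, inv_inv]
  rw [this]

/-- Sylow: every `p`-subgroup is conjugate into a given Sylow `p`-subgroup. -/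
theorem exists_conj_le_sylow [Finite G] {p : ℕ} [Fact p.Prime] (P : Sylow p G) {Q : Subgroup G}
    (hQ : IsPGroup p Q) : ∃ g : G, ∀ a ∈ Q, g * a * g⁻¹ ∈ P := by
  obtain ⟨R, hR⟩ := hQ.exists_le_sylow
  obtain ⟨g, hg⟩ := MulAction.exists_smul_eq G R P
  refine ⟨g, fun a ha => ?_⟩
  have h1 : a ∈ (R : Subgroup G) := hR ha
  have h2 : g * a * g⁻¹ ∈ ((g • R : Sylow p G) : Subgroup G) := by
    rw [Sylow.coe_subgroup_smul, mem_conj_smul_iff]
    have : g⁻¹ * (g * a * g⁻¹) * g = a := by group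
    rw [this]; exact h1
  rw [hg] at h2
  exact h2

theorem isPGroup_two_closure_pair {x y : G} (hx : x * x = 1) (hy : y * y = 1) {k : ℕ}
    (h : (x * y) ^ (2 ^ k) = 1) : IsPGroup 2 (Subgroup.closure ({x, y} : Set G)) := by
  rintro ⟨d, hd⟩
  refine ⟨k + 1, ?_⟩
  apply Subtype.ext
  show d ^ 2 ^ (k + 1) = 1
  obtain ⟨j, rfl | rfl⟩ := mem_closure_pair hx hy hd
  · rw [← zpow_natCast, ← zpow_mul, mul_comm, zpow_mul, zpow_natCast, pow_succ, pow_mul, h,
      one_pow, one_zpow]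
  · have h2 : (x * (x * y) ^ j) ^ 2 = 1 := by
      rw [pow_two]
      calc x * (x * y) ^ j * (x * (x * y) ^ j) = (x * (x * y) ^ j * x) * (x * y) ^ j := by group
        _ = 1 := by rw [mul_zpow_mul_of_mul_self hx hy, ← zpow_add]; simp
    rw [pow_succ', pow_mul, h2, one_pow]

theorem isPGroup_two_closure_pair_of_commute {x y : G} (hx : x * x = 1) (hy : y * y = 1)
    (hc : Commute x y) : IsPGroup 2 (Subgroup.closure ({x, y} : Set G)) := by
  apply isPGroup_two_closure_pair hx hy (k := 1)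
  rw [pow_one, pow_two]
  calc x * y * (x * y) = x * (y * x) * y := by group
    _ = x * (x * y) * y := by rw [hc.eq]
    _ = (x * x) * (y * y) := by group
    _ = 1 := by rw [hx, hy, one_mul]

/-- If `t` is isolated in the Sylow subgroup `P` (no other conjugate of `t` lies in `P`), two
conjugates of `t` lying in a common `p`-subgroup are equal. -/
theorem eq_of_isConj_of_mem_pgroup [Finite G] {p : ℕ} [Fact p.Prime] (P : Sylow p G) {t : G}
    (hiso : ∀ g : G, g * t * g⁻¹ ∈ P → g * t * g⁻¹ = t) {Q : Subgroup G} (hQ : IsPGroup p Q)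
    {a b : G} (ha : a ∈ Q) (hb : b ∈ Q) (hat : IsConj t a) (hbt : IsConj t b) : a = b := by
  obtain ⟨g, hg⟩ := exists_conj_le_sylow P hQ
  obtain ⟨c, hc⟩ := isConj_iff.mp hat
  obtain ⟨d, hd⟩ := isConj_iff.mp hbt
  have h1 : g * a * g⁻¹ = t := by
    have e : g * a * g⁻¹ = (g * c) * t * (g * c)⁻¹ := by rw [← hc]; group
    rw [e]; apply hiso; rw [← e]; exact hg a ha
  have h2 : g * b * g⁻¹ = t := by
    have e : g * b * g⁻¹ = (g * d) * t * (g * d)⁻¹ := by rw [← hd]; group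
    rw [e]; apply hiso; rw [← e]; exact hg b hb
  have : g * a * g⁻¹ = g * b * g⁻¹ := h1.trans h2.symm
  exact mul_left_cancel (mul_right_cancel this)

/-- Conjugating the "reflection" `x (xy)^i` by `(xy)^j`. -/
theorem zpow_conj_reflection {x y : G} (hx : x * x = 1) (hy : y * y = 1) (i j : ℤ) :
    (x * y) ^ j * (x * (x * y) ^ i) * ((x * y) ^ j)⁻¹ = x * (x * y) ^ (i - 2 * j) := by
  rw [← mul_assoc, zpow_mul_of_mul_self hx hy, mul_assoc, mul_assoc, ← zpow_neg, ← zpow_add,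
    ← zpow_add]
  congr 2; ring

theorem isConj_mul_pow_even {x y : G} (hx : x * x = 1) (hy : y * y = 1) (q : ℕ) :
    IsConj x (x * (x * y) ^ (2 * q)) ∧ IsConj y (y * (x * y) ^ (2 * q)) := by
  constructor
  · rw [isConj_iff]
    refine ⟨(x * y) ^ (-(q : ℤ)), ?_⟩
    have := zpow_conj_reflection hx hy 0 (-(q : ℤ))
    rw [zpow_zero, mul_one] at this
    rw [this, ← zpow_natCast]; congr 2; push_cast; ring
  · rw [isConj_iff]
    refine ⟨(x * y) ^ (-(q : ℤ)), ?_⟩
    have := zpow_conj_reflection hx hy 1 (-(q : ℤ))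
    have hy' : x * (x * y) ^ (1 : ℤ) = y := by rw [zpow_one, ← mul_assoc, hx, one_mul]
    rw [hy'] at this
    rw [this]
    have e : y * (x * y) ^ (2 * q) = x * ((x * y) * (x * y) ^ (2 * q)) := by
      rw [← mul_assoc, ← mul_assoc, hx, one_mul]
    rw [e, ← pow_succ', ← zpow_natCast]; congr 2; push_cast; ring

theorem isConj_mul_pow_odd {x y : G} (hx : x * x = 1) (hy : y * y = 1) (q : ℕ) :
    IsConj y (x * (x * y) ^ (2 * q + 1)) ∧ IsConj x (y * (x * y) ^ (2 * q + 1)) := by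
  constructor
  · rw [isConj_iff]
    refine ⟨(x * y) ^ (-(q : ℤ)), ?_⟩
    have := zpow_conj_reflection hx hy 1 (-(q : ℤ))
    have hy' : x * (x * y) ^ (1 : ℤ) = y := by rw [zpow_one, ← mul_assoc, hx, one_mul]
    rw [hy'] at this
    rw [this, ← zpow_natCast]; congr 2; push_cast; ring
  · rw [isConj_iff]
    refine ⟨(x * y) ^ (-((q : ℤ) + 1)), ?_⟩
    have := zpow_conj_reflection hx hy 0 (-((q : ℤ) + 1))
    rw [zpow_zero, mul_one] at this
    rw [this]
    have e : y * (x * y) ^ (2 * q + 1) = x * ((x * y) * (x * y) ^ (2 * q + 1)) := by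
      rw [← mul_assoc, ← mul_assoc, hx, one_mul]
    rw [e, ← pow_succ', ← zpow_natCast]; congr 2; push_cast; ring

end Cfsg.Agent.Helper4
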