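import Mathlib
import Cfsg.Agent.Helper4.SylowTwo

set_option autoImplicit false

namespace Cfsg.Agent.Helper4

open scoped Pointwise

variable {G : Type*} [Group G]

/-- Two involutions whose product has odd order are conjugate. -/
theorem isConj_of_odd_orderOf_mul {x y : G} (hx : x * x = 1) (hy : y * y = 1)
    (hodd : Odd (orderOf (x * y))) : IsConj x y := by
  obtain ⟨k, hk⟩ := hodd
  rw [isConj_iff]
  refine ⟨(x * y) ^ (k : ℤ), ?_⟩
  rw [zpow_conj_of_mul_self hx hy]
  have h1 : (x * y) ^ ((2 * k + 1 : ℕ) : ℤ) = 1 := by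
    rw [zpow_natCast, ← hk, pow_orderOf_eq_one]
  have h2 : (x * y) ^ (-(2 * (k : ℤ))) = (x * y) ^ (1 : ℤ) := by
    have : (-(2 * (k : ℤ))) = 1 - ((2 * k + 1 : ℕ) : ℤ) := by push_cast; ring
    rw [this, zpow_sub, h1]; simp
  rw [h2, zpow_one, ← mul_assoc, hx, one_mul]

/-- Two non-conjugate involutions have a product of even order. -/
theorem even_orderOf_mul_of_not_isConj {x y : G} (hx : x * x = 1) (hy : y * y = 1)
    (hnc : ¬ IsConj x y) : Even (orderOf (x * y)) := by
  by_contra h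
  rw [Nat.not_even_iff_odd] at h
  exact hnc (isConj_of_odd_orderOf_mul hx hy h)

/-- The central involution `z = (xy)^(n/2)` of the dihedral group generated by two involutions
whose product has even order `n > 0`. -/
theorem central_invol_spec {x y : G} (hx : x * x = 1) (hy : y * y = 1)
    (hpos : 0 < orderOf (x * y)) (heven : Even (orderOf (x * y))) :
    (x * y) ^ (orderOf (x * y) / 2) ≠ 1 ∧
    (x * y) ^ (orderOf (x * y) / 2) * (x * y) ^ (orderOf (x * y) / 2) = 1 ∧
    Commute x ((x * y) ^ (orderOf (x * y) / 2)) ∧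
    Commute y ((x * y) ^ (orderOf (x * y) / 2)) := by
  obtain ⟨m, hm⟩ := heven
  have hm0 : 0 < m := by omega
  have hdiv : orderOf (x * y) / 2 = m := by omega
  rw [hdiv]
  have hz2 : (x * y) ^ m * (x * y) ^ m = 1 := by rw [← pow_add, ← hm, pow_orderOf_eq_one]
  have hz1 : (x * y) ^ m ≠ 1 := pow_ne_one_of_lt_orderOf hm0.ne' (by omega)
  have hzinv : ((x * y) ^ m)⁻¹ = (x * y) ^ m := inv_eq_self_of_mul_self hz2
  have hcx : Commute x ((x * y) ^ m) := by
    have h := mul_zpow_mul_of_mul_self hx hy (m : ℤ)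
    rw [zpow_neg, zpow_natCast, hzinv] at h
    show x * (x * y) ^ m = (x * y) ^ m * x
    calc x * (x * y) ^ m = (x * (x * y) ^ m * x) * x := by
          rw [mul_assoc, mul_assoc, hx, mul_one]
      _ = (x * y) ^ m * x := by rw [h]
  refine ⟨hz1, hz2, hcx, ?_⟩
  have hcxy : Commute (x * y) ((x * y) ^ m) := (Commute.refl (x * y)).pow_right m
  have key : Commute (x⁻¹ * (x * y)) ((x * y) ^ m) := (hcx.inv_left).mul_left hcxy
  rwa [inv_mul_cancel_left] at key

/-- Two commuting involutions can be simultaneously conjugated into a given Sylow 2-subgroup. -/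
theorem exists_conj_mem_sylow_of_commute [Finite G] (T : Sylow 2 G) {x z : G} (hx : x * x = 1)
    (hz : z * z = 1) (hc : Commute x z) : ∃ h : G, h * x * h⁻¹ ∈ T ∧ h * z * h⁻¹ ∈ T := by
  have hQ := isPGroup_two_closure_pair_of_commute hx hz hc
  obtain ⟨h, hh⟩ := exists_conj_le_sylow T hQ
  exact ⟨h, hh x (Subgroup.subset_closure (by simp)), hh z (Subgroup.subset_closure (by simp))⟩

/-- Every involution is conjugate into a given Sylow 2-subgroup. -/
theorem exists_conj_mem_sylow_of_invol [Finite G] (T : Sylow 2 G) {x : G} (hx : x * x = 1) :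
    ∃ h : G, h * x * h⁻¹ ∈ T :=
  let ⟨h, hh, _⟩ := exists_conj_mem_sylow_of_commute T hx hx (Commute.refl x)
  ⟨h, hh⟩

theorem conj_mul_self {x : G} (hx : x * x = 1) (g : G) : (g * x * g⁻¹) * (g * x * g⁻¹) = 1 := by
  calc (g * x * g⁻¹) * (g * x * g⁻¹) = g * (x * x) * g⁻¹ := by group
    _ = 1 := by rw [hx]; group

theorem conj_ne_one {x : G} (hx : x ≠ 1) (g : G) : g * x * g⁻¹ ≠ 1 := by
  intro h
  apply hx
  have : x = g⁻¹ * (g * x * g⁻¹) * g := by group
  rw [this, h]; group

end Cfsg.Agent.Helper4
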