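import Mathlib
import Cfsg.Agent.Helper4.InvolTwo

set_option autoImplicit false

namespace Cfsg.Agent.Helper4

variable {G : Type*} [Group G]

/-- Orbit–stabilizer for conjugacy classes: `|t^G| * |C(t)| = |G|`. -/
theorem card_isConj_mul_card_centralizer [Finite G] (t : G) :
    Nat.card {w : G // IsConj t w} * Nat.card (Subgroup.centralizer ({t} : Set G))
      = Nat.card G := by
  classical
  have := Fintype.ofFinite G
  have h := MulAction.card_orbit_mul_card_stabilizer_eq_card_group (ConjAct G) t
  rw [Subgroup.nat_card_centralizer_nat_card_stabilizer]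
  have e1 : Nat.card {w : G // IsConj t w} = Fintype.card (MulAction.orbit (ConjAct G) t) := by
    rw [← Nat.card_eq_fintype_card]
    apply Nat.card_congr
    apply Equiv.subtypeEquivRight
    intro w
    rw [ConjAct.mem_orbit_conjAct, isConj_comm]
  rw [e1, Nat.card_eq_fintype_card, h, Nat.card_eq_fintype_card]
  rfl

end Cfsg.Agent.Helper4
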