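import Mathlib
import Cfsg.Prelude.Def_Characters
import Cfsg.Agent.Helper4.PowFixExt
import Cfsg.Agent.S0874
import Cfsg.Agent.Helper15.Gallagher
import Cfsg.Agent.Helper3.Induced

/-!
# Dade's theorem on invariant characters over a normal subgroup of `p`-power index: core (helper4)

`N` normal in `G` with index a power of `p`, `ϑ ∈ Irr(N)` invariant in `G`.

* `dade_classInner_indFun_indFun`: for a subgroup `E`, a function `lam` on `E` and a `G`-invariant
  function `ξ` on `N`, `[Ind_E^G lam, Ind_N^G ξ] = |G : EN| [lam|_{E ∩ N}, ξ|_{E ∩ N}]`.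
* `dade_exists_elementary`: there are a `p`-elementary `E` with `E N = G` and a character `lam`
  of `E` with `[lam ϑ, ϑ]_{E ∩ N}` a natural number prime to `p` (local Brauer induction S0874).

Here `E ∩ N` is realised as `N.subgroupOf E`, and `ϑ` restricted to it is
`powFix_subFun N E ϑ`.
-/

set_option autoImplicit false

namespace Cfsg.Agent.Helper4

open Cfsg
open scoped ComplexConjugate

theorem dade_index_mul_card {G : Type*} [Group G] [Finite G] (N E : Subgroup G) [hN : N.Normal] :
    N.index * Nat.card (N.subgroupOf E) = (E ⊔ N).index * Nat.card E := by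
  have h1 := Subgroup.relIndex_mul_index (le_sup_right : N ≤ E ⊔ N)
  have h2 : N.relIndex (E ⊔ N) = N.relIndex E := Subgroup.relIndex_sup_right E N
  have h3 := Subgroup.card_mul_index (N.subgroupOf E)
  have h4 : (N.subgroupOf E).index = N.relIndex E := rfl
  rw [← h1, h2, ← h3, h4]
  ring

theorem dade_classInner_indFun_indFun {G : Type*} [Group G] [Fintype G] (N : Subgroup G)
    [hN : N.Normal] (E : Subgroup G) [Fintype E] [Fintype (N.subgroupOf E)] (lam : E → ℂ)
    (ξ : N → ℂ)
    (hinv : ∀ (g : G) (n : N), ξ ⟨g * n * g⁻¹, hN.conj_mem (n : G) n.2 g⟩ = ξ n) :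
    classInner (indFun E lam) (indFun N ξ)
      = ((E ⊔ N).index : ℂ) *
        classInner (fun a : N.subgroupOf E => lam a) (powFix_subFun N E ξ) := by
  rw [Helper3.frobenius_reciprocity E lam _ (Helper3.indFun_isClassFunction N ξ)]
  unfold classInner
  have hsum : ∑ e : E, lam e * conj (indFun N ξ (e : G))
      = (N.index : ℂ) * ∑ a : N.subgroupOf E, lam a * conj (powFix_subFun N E ξ a) := by
    rw [Finset.mul_sum]
    symm
    apply Fintype.sum_of_injective (fun a : N.subgroupOf E => (a : E)) Subtype.val_injective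
    · intro e he
      have hnot : (e : G) ∉ N := fun h => he ⟨⟨e, Subgroup.mem_subgroupOf.2 h⟩, rfl⟩
      rw [Helper15.indFun_of_invariant N ξ hinv, Helper3.extendByZero_of_not_mem N ξ hnot]
      simp
    · intro a
      rw [Helper15.indFun_of_invariant N ξ hinv,
        Helper3.extendByZero_of_mem N ξ (Subgroup.mem_subgroupOf.1 a.2), powFix_subFun_apply,
        map_mul, Complex.conj_natCast]
      ring
  rw [hsum]
  have hidx := dade_index_mul_card N E
  have hE0 : (Nat.card E : ℂ) ≠ 0 := by exact_mod_cast Nat.card_pos.ne'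
  have hA0 : (Nat.card (N.subgroupOf E) : ℂ) ≠ 0 := by exact_mod_cast Nat.card_pos.ne'
  have hidx' : (N.index : ℂ) * (Nat.card (N.subgroupOf E) : ℂ)
      = ((E ⊔ N).index : ℂ) * (Nat.card E : ℂ) := by exact_mod_cast hidx
  field_simp
  linear_combination (∑ a : N.subgroupOf E, lam a * conj (powFix_subFun N E ξ a)) * hidx'

theorem dade_list_sum_aux {ι : Type*} {K : Type*} [Group K] [Fintype K] (Ξ : K → ℂ) (p : ℕ)
    (f : ι → K → ℂ) (l : List ι)
    (h : ∀ t ∈ l, ∃ w : ℤ, (p : ℤ) ∣ w ∧ classInner (f t) Ξ = (w : ℂ)) :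
    ∃ W : ℤ, (p : ℤ) ∣ W ∧ classInner (l.map f).sum Ξ = (W : ℂ) := by
  induction l with
  | nil =>
    refine ⟨0, dvd_zero _, ?_⟩
    rw [List.map_nil, List.sum_nil, Helper75.classInner_zero_left]
    simp
  | cons a l ih =>
    obtain ⟨w, hw, hwa⟩ := h a (List.mem_cons_self ..)
    obtain ⟨W, hW, hWl⟩ := ih (fun t ht => h t (List.mem_cons_of_mem _ ht))
    refine ⟨w + W, dvd_add hw hW, ?_⟩
    rw [List.map_cons, List.sum_cons, Helper75.classInner_add_left, hwa, hWl]
    push_cast
    rfl

theorem dade_isCharacter_subFun {G : Type*} [Group G] (N E : Subgroup G) {ϑ : N → ℂ}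
    (hϑ : IsCharacter N ϑ) : IsCharacter (N.subgroupOf E) (powFix_subFun N E ϑ) :=
  Helper79.isCharacter_comp hϑ (E.subtype.subgroupComap N)

theorem dade_exists_elementary {G : Type*} [Group G] [Fintype G] (p : ℕ) (hp : p.Prime)
    (N : Subgroup G) [hN : N.Normal] [Fintype N] (hind : ∃ k : ℕ, N.index = p ^ k) (ϑ : N → ℂ)
    (hϑ : IsIrrCharacter N ϑ)
    (hinv : ∀ (g : G) (n : N), ϑ ⟨g * n * g⁻¹, hN.conj_mem (n : G) n.2 g⟩ = ϑ n) :
    ∃ (E : Subgroup G) (lam : E → ℂ) (I : ℕ), IsElementary p E ∧ IsCharacter E lam ∧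
      E ⊔ N = ⊤ ∧ ¬ p ∣ I ∧ ∀ [Fintype (N.subgroupOf E)],
        classInner (fun a : N.subgroupOf E => lam a * powFix_subFun N E ϑ a)
          (powFix_subFun N E ϑ) = (I : ℂ) := by
  classical
  obtain ⟨m, l, hm, hl, hsum⟩ := Cfsg.Agent.S0874.result (G := G) p hp
  obtain ⟨k, hk⟩ := hind
  set ξ : N → ℂ := fun n => ϑ n * conj (ϑ n) with hξ
  have hξinv : ∀ (g : G) (n : N), ξ ⟨g * n * g⁻¹, hN.conj_mem (n : G) n.2 g⟩ = ξ n := by
    intro g n
    show ϑ _ * conj (ϑ _) = ϑ n * conj (ϑ n)
    rw [hinv]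
  have hm1 : classInner (fun _ : G => (m : ℂ)) (indFun N ξ) = (m : ℂ) := by
    have h1 : (fun _ : G => (m : ℂ)) = (m : ℂ) • (fun _ : G => (1 : ℂ)) := by
      funext g
      simp
    rw [h1, Helper75.classInner_smul_left,
      Helper75.classInner_conj_symm (indFun N ξ) (fun _ : G => (1 : ℂ)),
      Helper3.frobenius_reciprocity N ξ (fun _ : G => (1 : ℂ)) (fun g h => rfl)]
    have h2 : classInner ξ (fun _ : N => (1 : ℂ)) = classInner ϑ ϑ := by
      unfold classInner
      congr 1
      apply Finset.sum_congr rfl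
      intro n _
      simp [hξ]
    rw [h2, Helper75.classInner_irr_self hϑ]
    simp
  by_contra hcon
  push Not at hcon
  have hbad : ∀ t ∈ l, ∃ w : ℤ, (p : ℤ) ∣ w ∧
      classInner ((fun t : (E : Subgroup G) × ((E → ℂ) × ℤ) =>
        (t.2.2 : ℂ) • indFun t.1 t.2.1) t) (indFun N ξ) = (w : ℂ) := by
    rintro ⟨E, lam, c⟩ ht
    obtain ⟨hEl, hlam⟩ := hl _ ht
    simp only at hEl hlam ⊢
    letI : Fintype E := Fintype.ofFinite _
    letI instA : Fintype (N.subgroupOf E) := Fintype.ofFinite _
    have hχ1 : IsCharacter (N.subgroupOf E) (fun a : N.subgroupOf E => lam a) :=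
      Helper79.isCharacter_restrict hlam (N.subgroupOf E)
    have hχ2 : IsCharacter (N.subgroupOf E) (powFix_subFun N E ϑ) :=
      dade_isCharacter_subFun N E (Helper79.isCharacter_of_irr hϑ)
    obtain ⟨I, hI⟩ := Helper3.classInner_isCharacter_nat (Helper79.isCharacter_mul hχ1 hχ2) hχ2
    have hI' : classInner (fun a : N.subgroupOf E => lam a * powFix_subFun N E ϑ a)
        (powFix_subFun N E ϑ) = (I : ℂ) := hI
    have hval : classInner ((c : ℂ) • indFun E lam) (indFun N ξ)
        = (c : ℂ) * (((E ⊔ N).index : ℂ) * (I : ℂ)) := by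
      rw [Helper75.classInner_smul_left, dade_classInner_indFun_indFun N E lam ξ hξinv, ← hI']
      congr 2
      unfold classInner
      congr 1
      apply Finset.sum_congr rfl
      intro a _
      rw [powFix_subFun_apply, powFix_subFun_apply]
      show lam a * conj (ϑ _ * conj (ϑ _)) = lam a * ϑ _ * conj (ϑ _)
      rw [map_mul, Complex.conj_conj]
      ring
    refine ⟨c * (((E ⊔ N).index : ℤ) * (I : ℤ)), ?_, ?_⟩
    · by_cases hr : (E ⊔ N).index = 1
      · have hsup : E ⊔ N = ⊤ := Subgroup.index_eq_one.1 hr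
        have hpI : p ∣ I := by
          by_contra hpI
          obtain ⟨inst', hne⟩ := hcon E lam I hEl hlam hsup hpI
          apply hne
          have : inst' = instA := Subsingleton.elim _ _
          rw [this]
          exact hI'
        exact Dvd.dvd.mul_left (Dvd.dvd.mul_left (by exact_mod_cast hpI) _) _
      · have hdvd : (E ⊔ N).index ∣ p ^ k := by
          rw [← hk]
          exact Subgroup.index_dvd_of_le le_sup_right
        obtain ⟨j, -, hj⟩ := (Nat.dvd_prime_pow hp).1 hdvd
        have hj0 : j ≠ 0 := by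
          rintro rfl
          exact hr (by rw [hj, pow_zero])
        have hpr : p ∣ (E ⊔ N).index := by
          rw [hj]
          exact dvd_pow_self p hj0
        exact Dvd.dvd.mul_left (Dvd.dvd.mul_right (by exact_mod_cast hpr) _) _
    · rw [hval]
      push_cast
      rfl
  obtain ⟨W, hW, hWsum⟩ := dade_list_sum_aux (indFun N ξ) p _ l hbad
  rw [← hsum, hm1] at hWsum
  have : m = W := by exact_mod_cast hWsum
  rw [this] at hm
  exact hm hW

end Cfsg.Agent.Helper4
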