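import Mathlib
import Cfsg.Prelude.Def_Characters
import Cfsg.Agent.Helper4.DadeCore
import Cfsg.Agent.Helper75.Ito
import Cfsg.Agent.Helper15.RamGen

/-!
# Extension of invariant characters over a normal subgroup of `p`-power index (helper4)

Isaacs (8.26): `N` normal in `G` with `G / N` a `p`-group, `P` a Sylow `p`-subgroup with
`P ∩ N ≤ Z(P)` and every linear character of `P ∩ N` extendible to `P`. Then every `G`-invariant
irreducible character of `N` extends to `G` (`dade_extends_of_central_sylow_inter`).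

Auxiliary:
* `dade_exists_hom_extension_of_comm`: homomorphisms to `ℂˣ` extend from subgroups of finite
  abelian groups.
* `dade_exists_hom_of_central_sup`: gluing homomorphisms on `A` and `B` with `[A, B] = 1`,
  `A B = E`, agreeing on `A ∩ B`.
* `dade_psub_package`: transport of the hypotheses on `P` to an arbitrary `p`-subgroup.
-/

set_option autoImplicit false

namespace Cfsg.Agent.Helper4

open Cfsg
open scoped ComplexConjugate

theorem dade_exists_hom_extension_of_comm {A : Type*} [Group A] [Finite A]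
    (hA : ∀ a b : A, a * b = b * a) (H : Subgroup A) (φ : H →* ℂˣ) :
    ∃ ψ : A →* ℂˣ, ∀ h : H, ψ h = φ h := by
  letI : CommGroup A := { (inferInstance : Group A) with mul_comm := hA }
  haveI : NeZero ((Monoid.exponent A : ℕ) : ℂ) :=
    ⟨by exact_mod_cast Monoid.exponent_ne_zero_of_finite⟩
  obtain ⟨ψ, hψ⟩ := MonoidHom.domRestrict_surjective ℂ H φ
  refine ⟨ψ, fun h => ?_⟩
  rw [← hψ]
  rfl

theorem dade_exists_hom_of_central_sup {E : Type*} [Group E] (A B : Subgroup E)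
    (hcomm : ∀ a ∈ A, ∀ b ∈ B, a * b = b * a)
    (hsup : ∀ e : E, ∃ a ∈ A, ∃ b ∈ B, e = a * b)
    (φ : A →* ℂˣ) (μ : B →* ℂˣ)
    (hagree : ∀ (x : E) (ha : x ∈ A) (hb : x ∈ B), φ ⟨x, ha⟩ = μ ⟨x, hb⟩) :
    ∃ ψ : E →* ℂˣ, ∀ a : A, ψ a = φ a := by
  let f : A × B →* E :=
    { toFun := fun x => (x.1 : E) * (x.2 : E)
      map_one' := by simp
      map_mul' := by
        rintro ⟨a, b⟩ ⟨a', b'⟩
        show ((a * a' : A) : E) * ((b * b' : B) : E) = (a : E) * b * ((a' : E) * b')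
        have h1 := hcomm a' a'.2 b b.2
        rw [Subgroup.coe_mul, Subgroup.coe_mul]
        calc (a : E) * a' * ((b : E) * b') = (a : E) * ((a' : E) * b) * b' := by group
          _ = (a : E) * ((b : E) * a') * b' := by rw [h1]
          _ = (a : E) * b * ((a' : E) * b') := by group }
  let g : A × B →* ℂˣ := (φ.comp (MonoidHom.fst A B)) * (μ.comp (MonoidHom.snd A B))
  have hf : Function.Surjective f := by
    intro e
    obtain ⟨a, ha, b, hb, rfl⟩ := hsup e
    exact ⟨(⟨a, ha⟩, ⟨b, hb⟩), rfl⟩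
  have hker : f.ker ≤ g.ker := by
    rintro ⟨a, b⟩ hx
    rw [MonoidHom.mem_ker] at hx ⊢
    have h1 : (a : E) * (b : E) = 1 := hx
    have h2 : (a : E) = (b : E)⁻¹ := eq_inv_of_mul_eq_one_left h1
    have hbB : (a : E) ∈ B := by rw [h2]; exact B.inv_mem b.2
    show φ a * μ b = 1
    have h3 : φ a = μ ⟨(a : E), hbB⟩ := hagree (a : E) a.2 hbB
    have h4 : (⟨(a : E), hbB⟩ : B) = b⁻¹ := Subtype.ext h2
    rw [h3, h4, map_inv, inv_mul_cancel]
  refine ⟨f.liftOfSurjective hf ⟨g, hker⟩, fun a => ?_⟩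
  have h4 := MonoidHom.liftOfRightInverse_comp_apply f (Function.surjInv hf)
    (Function.rightInverse_surjInv hf) ⟨g, hker⟩ (a, 1)
  have h5 : f (a, 1) = (a : E) := by
    show (a : E) * ((1 : B) : E) = a
    simp
  rw [h5] at h4
  rw [h4]
  show φ a * μ 1 = φ a
  simp

theorem dade_psub_package {G : Type*} [Group G] [Finite G] (p : ℕ) [Fact p.Prime]
    (N : Subgroup G) [hN : N.Normal] (P : Sylow p G)
    (hcent : ∀ x ∈ (P : Subgroup G) ⊓ N, ∀ y ∈ (P : Subgroup G), x * y = y * x)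
    (hlin : ∀ lam : ↥((P : Subgroup G) ⊓ N) → ℂ, IsCharacter ↥((P : Subgroup G) ⊓ N) lam →
      lam 1 = 1 → ∃ μ : ↥(P : Subgroup G) → ℂ, IsCharacter ↥(P : Subgroup G) μ ∧ μ 1 = 1 ∧
        ∀ x : ↥((P : Subgroup G) ⊓ N), μ ⟨(x : G), x.2.1⟩ = lam x)
    (R : Subgroup G) (hR : IsPGroup p R) :
    (∀ x ∈ R ⊓ N, ∀ y ∈ R, x * y = y * x) ∧
      ∀ φ : ↥(R ⊓ N) →* ℂˣ, ∃ μ : R →* ℂˣ, ∀ x : ↥(R ⊓ N), μ ⟨(x : G), x.2.1⟩ = φ x := by
  obtain ⟨P', hRP'⟩ := hR.exists_le_sylow
  obtain ⟨g, hg⟩ := MulAction.exists_smul_eq G P P'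
  have hmem : ∀ y ∈ R, g⁻¹ * y * g ∈ (P : Subgroup G) := by
    intro y hy
    have h1 : y ∈ (P' : Subgroup G) := hRP' hy
    rw [← hg, Sylow.coe_subgroup_smul] at h1
    have := Subgroup.mem_pointwise_smul_iff_inv_smul_mem.1 h1
    simpa [MulAut.smul_def] using this
  have hmemN : ∀ y ∈ N, g⁻¹ * y * g ∈ N := by
    intro y hy
    have := hN.conj_mem y hy g⁻¹
    rwa [inv_inv] at this
  refine ⟨?_, ?_⟩
  · intro x hx y hy
    have h1 := hcent (g⁻¹ * x * g) ⟨hmem x hx.1, hmemN x hx.2⟩ (g⁻¹ * y * g) (hmem y hy)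
    have h2 : g⁻¹ * (x * y) * g = g⁻¹ * (y * x) * g := by
      calc g⁻¹ * (x * y) * g = (g⁻¹ * x * g) * (g⁻¹ * y * g) := by group
        _ = (g⁻¹ * y * g) * (g⁻¹ * x * g) := h1
        _ = g⁻¹ * (y * x) * g := by group
    exact mul_left_cancel (mul_right_cancel h2)
  · intro φ
    have hQ : ∀ a b : ↥((P : Subgroup G) ⊓ N), a * b = b * a := by
      intro a b
      apply Subtype.ext
      exact hcent a a.2 b b.2.1
    -- the subgroup of `P ⊓ N` conjugated into `R`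
    let H : Subgroup ↥((P : Subgroup G) ⊓ N) :=
      { carrier := {q | g * (q : G) * g⁻¹ ∈ R}
        mul_mem' := by
          intro a b ha hb
          have h1 : g * ((a * b : ↥((P : Subgroup G) ⊓ N)) : G) * g⁻¹
              = (g * (a : G) * g⁻¹) * (g * (b : G) * g⁻¹) := by
            rw [Subgroup.coe_mul]; group
          show g * ((a * b : ↥((P : Subgroup G) ⊓ N)) : G) * g⁻¹ ∈ R
          rw [h1]
          exact R.mul_mem ha hb
        one_mem' := by
          show g * ((1 : ↥((P : Subgroup G) ⊓ N)) : G) * g⁻¹ ∈ R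
          simp
        inv_mem' := by
          intro a ha
          have h1 : g * ((a⁻¹ : ↥((P : Subgroup G) ⊓ N)) : G) * g⁻¹
              = (g * (a : G) * g⁻¹)⁻¹ := by
            rw [Subgroup.coe_inv]; group
          show g * ((a⁻¹ : ↥((P : Subgroup G) ⊓ N)) : G) * g⁻¹ ∈ R
          rw [h1]
          exact R.inv_mem ha }
    let c : H →* ↥(R ⊓ N) :=
      { toFun := fun q => ⟨g * ((q : ↥((P : Subgroup G) ⊓ N)) : G) * g⁻¹,
          ⟨q.2, hN.conj_mem _ q.1.2.2 g⟩⟩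
        map_one' := by
          apply Subtype.ext
          simp
        map_mul' := by
          intro a b
          apply Subtype.ext
          show g * (((a * b : H) : ↥((P : Subgroup G) ⊓ N)) : G) * g⁻¹
            = (g * ((a : ↥((P : Subgroup G) ⊓ N)) : G) * g⁻¹)
              * (g * ((b : ↥((P : Subgroup G) ⊓ N)) : G) * g⁻¹)
          rw [Subgroup.coe_mul, Subgroup.coe_mul]
          group }
    obtain ⟨lam', hlam'⟩ := dade_exists_hom_extension_of_comm hQ H (φ.comp c)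
    obtain ⟨μ₀, hμ₀, hμ₀1, hμ₀ext⟩ := hlin (fun q => (lam' q : ℂ))
      (Helper79.isCharacter_of_irr (Helper79.isIrrCharacter_of_hom lam')) (by simp)
    obtain ⟨f, hf⟩ := Helper79.isCharacter_linear hμ₀ hμ₀1
    let c' : R →* ↥(P : Subgroup G) :=
      { toFun := fun y => ⟨g⁻¹ * (y : G) * g, hmem y y.2⟩
        map_one' := by
          apply Subtype.ext
          simp
        map_mul' := by
          intro a b
          apply Subtype.ext
          show g⁻¹ * ((a * b : R) : G) * g = (g⁻¹ * (a : G) * g) * (g⁻¹ * (b : G) * g)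
          rw [Subgroup.coe_mul]
          group }
    refine ⟨f.comp c', fun x => ?_⟩
    apply Units.ext
    have hq : g⁻¹ * (x : G) * g ∈ (P : Subgroup G) ⊓ N := ⟨hmem x x.2.1, hmemN x x.2.2⟩
    have hqH : (⟨g⁻¹ * (x : G) * g, hq⟩ : ↥((P : Subgroup G) ⊓ N)) ∈ H := by
      show g * (g⁻¹ * (x : G) * g) * g⁻¹ ∈ R
      have : g * (g⁻¹ * (x : G) * g) * g⁻¹ = (x : G) := by group
      rw [this]
      exact x.2.1
    have h1 := hμ₀ext ⟨g⁻¹ * (x : G) * g, hq⟩
    have h2 := hlam' ⟨⟨g⁻¹ * (x : G) * g, hq⟩, hqH⟩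
    show ((f (c' ⟨(x : G), x.2.1⟩) : ℂˣ) : ℂ) = ((φ x : ℂˣ) : ℂ)
    rw [← hf]
    have h3 : (c' ⟨(x : G), x.2.1⟩ : ↥(P : Subgroup G)) = ⟨g⁻¹ * (x : G) * g, hq.1⟩ := rfl
    rw [h3, h1]
    show ((lam' ⟨g⁻¹ * (x : G) * g, hq⟩ : ℂˣ) : ℂ) = _
    have h4 : lam' ⟨g⁻¹ * (x : G) * g, hq⟩ = φ x := by
      rw [h2]
      show φ (c ⟨⟨g⁻¹ * (x : G) * g, hq⟩, hqH⟩) = φ x
      congr 1
      apply Subtype.ext
      show g * (g⁻¹ * (x : G) * g) * g⁻¹ = (x : G)
      group
    rw [h4]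

/-- Isaacs (8.26). -/
theorem dade_extends_of_central_sylow_inter {G : Type*} [Group G] [Fintype G] (p : ℕ)
    [hp : Fact p.Prime] (N : Subgroup G) [hN : N.Normal] (hind : ∃ k : ℕ, N.index = p ^ k)
    (P : Sylow p G)
    (hcent : ∀ x ∈ (P : Subgroup G) ⊓ N, ∀ y ∈ (P : Subgroup G), x * y = y * x)
    (hlin : ∀ lam : ↥((P : Subgroup G) ⊓ N) → ℂ, IsCharacter ↥((P : Subgroup G) ⊓ N) lam →
      lam 1 = 1 → ∃ μ : ↥(P : Subgroup G) → ℂ, IsCharacter ↥(P : Subgroup G) μ ∧ μ 1 = 1 ∧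
        ∀ x : ↥((P : Subgroup G) ⊓ N), μ ⟨(x : G), x.2.1⟩ = lam x)
    (ϑ : N → ℂ) (hϑ : IsIrrCharacter N ϑ)
    (hinv : ∀ (g : G) (n : N), ϑ ⟨g * n * g⁻¹, hN.conj_mem (n : G) n.2 g⟩ = ϑ n) :
    ∃ χ : G → ℂ, IsIrrCharacter G χ ∧ ∀ n : N, χ n = ϑ n := by
  classical
  letI : Fintype N := Fintype.ofFinite _
  letI : Fintype (IrrCharacter G) := Fintype.ofFinite _
  obtain ⟨E, lam, I, hEl, hlam, hsup, hpI, hI⟩ :=
    dade_exists_elementary p hp.out N hind ϑ hϑ hinv
  obtain ⟨k, hk⟩ := hind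
  letI : Fintype E := Fintype.ofFinite _
  letI : Fintype (N.subgroupOf E) := Fintype.ofFinite _
  letI : Fintype (IrrCharacter (N.subgroupOf E)) := Fintype.ofFinite _
  obtain ⟨SE⟩ : Nonempty (Sylow p E) := inferInstance
  have hR : IsPGroup p ((SE : Subgroup E).map E.subtype) := SE.2.map E.subtype
  obtain ⟨hRc, hRext⟩ := dade_psub_package p N P hcent hlin _ hR
  obtain ⟨x, hxc, hxcop, kx, hxidx⟩ := hEl
  have hxS : Subgroup.zpowers x ⊔ (SE : Subgroup E) = ⊤ := by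
    rw [← Subgroup.index_eq_one]
    have h1 : (Subgroup.zpowers x ⊔ (SE : Subgroup E)).index ∣ p ^ kx := by
      rw [← hxidx]
      exact Subgroup.index_dvd_of_le le_sup_left
    have h2 : (Subgroup.zpowers x ⊔ (SE : Subgroup E)).index ∣ (SE : Subgroup E).index :=
      Subgroup.index_dvd_of_le le_sup_right
    obtain ⟨j, -, hj⟩ := (Nat.dvd_prime_pow hp.out).1 h1
    cases j with
    | zero => rw [hj, pow_zero]
    | succ j =>
      exfalso
      apply SE.not_dvd_index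
      exact dvd_trans (by rw [hj]; exact dvd_pow_self p (Nat.succ_ne_zero j)) h2
  have hxN : ((x : E) : G) ∈ N := by
    rw [← QuotientGroup.eq_one_iff]
    have h1 : (((x : E) : G) : G ⧸ N) ^ orderOf x = 1 := by
      rw [← QuotientGroup.mk_pow, ← Subgroup.coe_pow, pow_orderOf_eq_one]
      rfl
    have h2 : (((x : E) : G) : G ⧸ N) ^ (p ^ k) = 1 := by
      rw [← hk, Subgroup.index_eq_card]
      exact pow_card_eq_one'
    have h3 : Nat.gcd (orderOf x) (p ^ k) = 1 := Nat.Coprime.pow_right k hxcop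
    have h4 := pow_gcd_eq_one.2 ⟨h1, h2⟩
    rwa [h3, pow_one] at h4
  haveI hzn : (Subgroup.zpowers x).Normal := by
    refine ⟨fun y hy g => ?_⟩
    obtain ⟨i, rfl⟩ := Subgroup.mem_zpowers_iff.1 hy
    have h1 := Subgroup.mem_center_iff.1 (Subgroup.zpow_mem _ hxc i) g
    rw [h1, mul_inv_cancel_right]
    exact Subgroup.zpow_mem_zpowers x i
  have hdec : ∀ e : E, ∃ i : ℤ, ∃ s ∈ (SE : Subgroup E), e = x ^ i * s := by
    intro e
    have he : e ∈ ((Subgroup.zpowers x ⊔ (SE : Subgroup E) : Subgroup E) : Set E) := by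
      rw [hxS]
      exact Set.mem_univ e
    rw [Subgroup.normal_mul] at he
    obtain ⟨a, ha, s, hs, rfl⟩ := Set.mem_mul.1 he
    obtain ⟨i, rfl⟩ := Subgroup.mem_zpowers_iff.1 ha
    exact ⟨i, s, hs, rfl⟩
  have hAc : ∀ a ∈ N.subgroupOf E, ∀ e : E, a * e = e * a := by
    intro a ha e
    obtain ⟨i, s, hs, rfl⟩ := hdec a
    obtain ⟨j, s', hs', rfl⟩ := hdec e
    have hxi : ∀ (n : ℤ) (y : E), y * x ^ n = x ^ n * y :=
      fun n y => Subgroup.mem_center_iff.1 (Subgroup.zpow_mem _ hxc n) y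
    have hsN : ((s : E) : G) ∈ N := by
      have h1 : ((x ^ i * s : E) : G) ∈ N := Subgroup.mem_subgroupOf.1 ha
      have h2 : ((x ^ i : E) : G) ∈ N := by
        rw [Subgroup.coe_zpow]
        exact N.zpow_mem hxN i
      have h3 : ((s : E) : G) = ((x ^ i : E) : G)⁻¹ * ((x ^ i * s : E) : G) := by
        rw [Subgroup.coe_mul]
        group
      rw [h3]
      exact N.mul_mem (N.inv_mem h2) h1
    have hss' : s * s' = s' * s := by
      apply Subtype.ext
      rw [Subgroup.coe_mul, Subgroup.coe_mul]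
      exact hRc (s : G) ⟨⟨s, hs, rfl⟩, hsN⟩ (s' : G) ⟨s', hs', rfl⟩
    calc x ^ i * s * (x ^ j * s') = x ^ i * (s * x ^ j) * s' := by group
      _ = x ^ i * (x ^ j * s) * s' := by rw [hxi j s]
      _ = x ^ i * x ^ j * (s * s') := by group
      _ = x ^ i * x ^ j * (s' * s) := by rw [hss']
      _ = x ^ j * (x ^ i * s') * s := by rw [← zpow_add, add_comm, zpow_add]; group
      _ = x ^ j * (s' * x ^ i) * s := by rw [hxi i s']
      _ = x ^ j * s' * (x ^ i * s) := by group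
  have hθA : IsCharacter (N.subgroupOf E) (powFix_subFun N E ϑ) :=
    dade_isCharacter_subFun N E (Helper79.isCharacter_of_irr hϑ)
  have hlamA : IsCharacter (N.subgroupOf E) (fun a : N.subgroupOf E => lam a) :=
    Helper79.isCharacter_restrict hlam (N.subgroupOf E)
  have hprod : IsCharacter (N.subgroupOf E)
      (fun a : N.subgroupOf E => lam a * powFix_subFun N E ϑ a) :=
    Helper79.isCharacter_mul hlamA hθA
  obtain ⟨u, hu⟩ := Helper75.exists_nat_mult hθA
  obtain ⟨v, hv⟩ := Helper75.exists_nat_mult hprod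
  have hIsum : (I : ℂ) = ((∑ φ : IrrCharacter (N.subgroupOf E), u φ * v φ : ℕ) : ℂ) := by
    rw [← hI]
    have h1 := congrArg (classInner (fun a : N.subgroupOf E => lam a * powFix_subFun N E ϑ a))
      (Helper75.character_eq_sum_irr hθA)
    rw [h1, Helper75.classInner_sum_right, Nat.cast_sum]
    apply Finset.sum_congr rfl
    intro φ _
    rw [Helper75.classInner_smul_right, hu φ, hv φ, Complex.conj_natCast]
    push_cast
    ring
  have hIeq : I = ∑ φ : IrrCharacter (N.subgroupOf E), u φ * v φ := by exact_mod_cast hIsum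
  obtain ⟨φ, hφp⟩ : ∃ φ : IrrCharacter (N.subgroupOf E), ¬ p ∣ u φ := by
    by_contra hcon
    push Not at hcon
    apply hpI
    rw [hIeq]
    exact Finset.dvd_sum (fun φ _ => Dvd.dvd.mul_right (hcon φ) _)
  have hAcomm : ∀ a b : N.subgroupOf E, a * b = b * a := by
    intro a b
    apply Subtype.ext
    exact hAc a a.2 b
  have hφ1 : (φ : N.subgroupOf E → ℂ) 1 = 1 := Helper75.irr_one_eq_one_of_comm hAcomm φ.2
  obtain ⟨φ₀, hφ₀⟩ := Helper79.isCharacter_linear (Helper79.isCharacter_of_irr φ.2) hφ1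
  let ι : ↥(((SE : Subgroup E).map E.subtype) ⊓ N) →* ↥(N.subgroupOf E) :=
    { toFun := fun y => ⟨⟨(y : G), Subgroup.map_subtype_le _ y.2.1⟩,
        Subgroup.mem_subgroupOf.2 y.2.2⟩
      map_one' := rfl
      map_mul' := fun a b => rfl }
  obtain ⟨μR, hμR⟩ := hRext (φ₀.comp ι)
  let κ : ↥(SE : Subgroup E) →* ↥((SE : Subgroup E).map E.subtype) :=
    { toFun := fun s => ⟨((s : E) : G), ⟨(s : E), s.2, rfl⟩⟩
      map_one' := rfl
      map_mul' := fun a b => rfl }
  obtain ⟨ψ, hψ⟩ := dade_exists_hom_of_central_sup (N.subgroupOf E) (SE : Subgroup E)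
    (fun a ha b _ => hAc a ha b)
    (by
      intro e
      obtain ⟨i, s, hs, rfl⟩ := hdec e
      refine ⟨x ^ i, ?_, s, hs, rfl⟩
      rw [Subgroup.mem_subgroupOf, Subgroup.coe_zpow]
      exact N.zpow_mem hxN i)
    φ₀ (μR.comp κ)
    (by
      intro y ha hb
      show φ₀ ⟨y, ha⟩ = μR (κ ⟨y, hb⟩)
      have h1 := hμR ⟨(y : G), ⟨⟨y, hb, rfl⟩, Subgroup.mem_subgroupOf.1 ha⟩⟩
      have h2 : κ ⟨y, hb⟩ = ⟨(y : G), ⟨y, hb, rfl⟩⟩ := rfl
      rw [h2, h1]
      rfl)
  have hψirr : IsIrrCharacter E (fun e : E => ((ψ e : ℂˣ) : ℂ)) := Helper79.isIrrCharacter_of_hom ψ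
  have hψc := Helper79.isCharacter_of_irr hψirr
  have hkey : classInner (indFun E (fun e : E => ((ψ e : ℂˣ) : ℂ))) (indFun N ϑ) = (u φ : ℂ) := by
    rw [dade_classInner_indFun_indFun N E _ ϑ hinv, hsup, Subgroup.index_top, Nat.cast_one,
      one_mul,
      Helper75.classInner_conj_symm (powFix_subFun N E ϑ)
        (fun a : N.subgroupOf E => ((ψ a : ℂˣ) : ℂ))]
    have h1 : (fun a : N.subgroupOf E => ((ψ a : ℂˣ) : ℂ)) = (φ : N.subgroupOf E → ℂ) := by
      funext a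
      rw [hψ a, hφ₀ a]
    rw [h1, hu φ, Complex.conj_natCast]
  have hInd : IsCharacter G (indFun N ϑ) :=
    Helper3.isCharacter_indFun N ϑ (Helper79.isCharacter_of_irr hϑ)
  have he : ∀ χ : IrrCharacter G, ∃ e : ℕ,
      classInner (fun n : N => (χ : G → ℂ) n) ϑ = (e : ℂ) := fun χ =>
    Helper3.classInner_isCharacter_nat
      (Helper79.isCharacter_restrict (Helper79.isCharacter_of_irr χ.2) N)
      (Helper79.isCharacter_of_irr hϑ)
  choose eχ heχ using he
  have hf : ∀ χ : IrrCharacter G, ∃ f : ℕ,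
      classInner (fun e : E => ((ψ e : ℂˣ) : ℂ)) (fun e : E => (χ : G → ℂ) e) = (f : ℂ) :=
    fun χ => Helper3.classInner_isCharacter_nat hψc
      (Helper79.isCharacter_restrict (Helper79.isCharacter_of_irr χ.2) E)
  choose fχ hfχ using hf
  have hsumG : (u φ : ℂ) = ((∑ χ : IrrCharacter G, eχ χ * fχ χ : ℕ) : ℂ) := by
    rw [← hkey]
    have h1 := congrArg (classInner (indFun E (fun e : E => ((ψ e : ℂˣ) : ℂ))))
      (Helper75.character_eq_sum_irr hInd)
    rw [h1, Helper75.classInner_sum_right, Nat.cast_sum]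
    apply Finset.sum_congr rfl
    intro χ _
    have hcl := Helper75.isCharacter_isClassFunction' (Helper79.isCharacter_of_irr χ.2)
    rw [Helper75.classInner_smul_right, Helper3.frobenius_reciprocity N ϑ _ hcl,
      Helper3.frobenius_reciprocity E _ _ hcl, hfχ χ,
      Helper75.classInner_conj_symm (fun n : N => (χ : G → ℂ) n) ϑ, heχ χ]
    simp
  have huφ : u φ = ∑ χ : IrrCharacter G, eχ χ * fχ χ := by exact_mod_cast hsumG
  obtain ⟨χ, hχp⟩ : ∃ χ : IrrCharacter G, ¬ p ∣ eχ χ * fχ χ := by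
    by_contra hcon
    push Not at hcon
    apply hφp
    rw [huφ]
    exact Finset.dvd_sum (fun χ _ => hcon χ)
  have hpe : ¬ p ∣ eχ χ := fun h => hχp (Dvd.dvd.mul_right h _)
  have hne : classInner (fun n : N => (χ : G → ℂ) n) ϑ ≠ 0 := by
    rw [heχ χ]
    intro h0
    have h00 : eχ χ = 0 := by exact_mod_cast h0
    exact hpe (h00 ▸ dvd_zero p)
  obtain ⟨e, he0, hres, hee⟩ :=
    Helper75.restrict_eq_natCast_smul_of_invariant N χ.2 hϑ hne (by
      intro g
      funext n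
      rw [Helper75.conjFun_apply]
      exact hinv g n)
  obtain ⟨kk, hkk, hkd⟩ := Helper15.degree_eq_mul_of_constituent N (χ : G → ℂ) χ.2 ϑ hϑ hne
  have hϑ1 : ϑ 1 ≠ 0 := Helper80.irr_one_ne_zero ⟨ϑ, hϑ⟩
  have hekk : e = kk := by
    have h1 := congrFun hres 1
    rw [Pi.smul_apply, smul_eq_mul] at h1
    have h2 : (χ : G → ℂ) ((1 : N) : G) = (kk : ℂ) * ϑ 1 := hkk
    rw [h2] at h1
    exact_mod_cast (mul_right_cancel₀ hϑ1 h1).symm
  have hee' : eχ χ = e := by
    have h1 := heχ χ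
    rw [hee] at h1
    exact_mod_cast h1.symm
  have he1 : e = 1 := by
    rw [hee', hekk] at hpe
    rw [hk] at hkd
    obtain ⟨j, -, hj⟩ := (Nat.dvd_prime_pow hp.out).1 hkd
    rw [hekk, hj]
    cases j with
    | zero => rfl
    | succ j => exact absurd (hj ▸ dvd_pow_self p (Nat.succ_ne_zero j)) hpe
  refine ⟨χ, χ.2, fun n => ?_⟩
  have h1 := congrFun hres n
  rw [he1] at h1
  simpa using h1

end Cfsg.Agent.Helper4
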