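import Mathlib
import Cfsg.Prelude.Def_Characters
import Cfsg.Agent.Helper4.DadeCore
import Cfsg.Agent.Helper15.Thompson
import Cfsg.Agent.Helper15.FixedPts

/-!
# Dade's theorem (Isaacs 8.24) (helper4)

`N` normal in `G` with `G / N` a `p`-group, `ϑ ∈ Irr(N)` invariant in `G`. Then there are a
`p`-elementary subgroup `E` with `E N = G` and an `E`-invariant `φ ∈ Irr(E ∩ N)` with
`[ϑ|_{E ∩ N}, φ]` prime to `p` (`dade_exists_invariant_constituent`).
-/

set_option autoImplicit false

namespace Cfsg.Agent.Helper4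

open Cfsg
open scoped ComplexConjugate

attribute [local instance] Helper15.irrConjAction

theorem dade_exists_invariant_constituent {G : Type*} [Group G] [Fintype G] (p : ℕ)
    (hp : p.Prime) (N : Subgroup G) [hN : N.Normal] (hind : ∃ k : ℕ, N.index = p ^ k)
    (ϑ : N → ℂ) (hϑ : IsIrrCharacter N ϑ)
    (hinv : ∀ (g : G) (n : N), ϑ ⟨g * n * g⁻¹, hN.conj_mem (n : G) n.2 g⟩ = ϑ n) :
    ∃ (E : Subgroup G) (φ : ↥(E ⊓ N) → ℂ), IsElementary p E ∧ E ⊔ N = ⊤ ∧
      IsIrrCharacter ↥(E ⊓ N) φ ∧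
      (∀ (g : G) (hg : g ∈ E) (x : ↥(E ⊓ N)),
        φ ⟨g * x * g⁻¹, ⟨(E.mul_mem (E.mul_mem hg x.2.1) (E.inv_mem hg)),
          hN.conj_mem (x : G) x.2.2 g⟩⟩ = φ x) ∧
      ∃ m : ℕ, ¬ p ∣ m ∧ (Nat.card ↥(E ⊓ N) : ℂ)⁻¹ *
        ∑ᶠ x : ↥(E ⊓ N), ϑ ⟨(x : G), x.2.2⟩ * conj (φ x) = (m : ℂ) := by
  classical
  haveI : Fact p.Prime := ⟨hp⟩
  letI : Fintype N := Fintype.ofFinite _
  obtain ⟨E, lam, I, hEl, hlam, hsup, hpI, hI⟩ :=
    dade_exists_elementary p hp N hind ϑ hϑ hinv
  obtain ⟨k, hk⟩ := hind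
  letI : Fintype E := Fintype.ofFinite _
  letI : Fintype (N.subgroupOf E) := Fintype.ofFinite _
  letI : Fintype (IrrCharacter (N.subgroupOf E)) := Fintype.ofFinite _
  obtain ⟨SE⟩ : Nonempty (Sylow p E) := inferInstance
  have hAidx : (N.subgroupOf E).index = p ^ k := by
    have h1 : (N.subgroupOf E).index = N.relIndex E := rfl
    have h2 : N.relIndex (E ⊔ N) = N.relIndex E := Subgroup.relIndex_sup_right E N
    rw [h1, ← h2, hsup, Subgroup.relIndex_top_right, hk]
  have hθA : IsCharacter (N.subgroupOf E) (powFix_subFun N E ϑ) :=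
    dade_isCharacter_subFun N E (Helper79.isCharacter_of_irr hϑ)
  have hlamA : IsCharacter (N.subgroupOf E) (fun a : N.subgroupOf E => lam a) :=
    Helper79.isCharacter_restrict hlam (N.subgroupOf E)
  have hprod : IsCharacter (N.subgroupOf E)
      (fun a : N.subgroupOf E => lam a * powFix_subFun N E ϑ a) :=
    Helper79.isCharacter_mul hlamA hθA
  obtain ⟨u, hu⟩ := Helper75.exists_nat_mult hθA
  obtain ⟨v, hv⟩ := Helper75.exists_nat_mult hprod
  have hIsum : (I : ℂ) = ((∑ φ : IrrCharacter (N.subgroupOf E), u φ * v φ : ℕ) : ℂ) := by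
    rw [← hI]
    have h1 := congrArg (classInner (fun a : N.subgroupOf E => lam a * powFix_subFun N E ϑ a))
      (Helper75.character_eq_sum_irr hθA)
    rw [h1, Helper75.classInner_sum_right, Nat.cast_sum]
    apply Finset.sum_congr rfl
    intro φ _
    rw [Helper75.classInner_smul_right, hu φ, hv φ, Complex.conj_natCast]
    push_cast
    ring
  have hIeq : I = ∑ φ : IrrCharacter (N.subgroupOf E), u φ * v φ := by exact_mod_cast hIsum
  -- invariance of the two characters under `E`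
  have hθinv : ∀ g : E, Helper75.conjFun (N.subgroupOf E) g (powFix_subFun N E ϑ)
      = powFix_subFun N E ϑ := by
    intro g
    funext a
    rw [Helper75.conjFun_apply, powFix_subFun_apply, powFix_subFun_apply]
    exact hinv (g : G) ⟨((a : E) : G), Subgroup.mem_subgroupOf.1 a.2⟩
  have hprodinv : ∀ g : E, Helper75.conjFun (N.subgroupOf E) g
      (fun a : N.subgroupOf E => lam a * powFix_subFun N E ϑ a)
      = fun a : N.subgroupOf E => lam a * powFix_subFun N E ϑ a := by
    intro g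
    funext a
    have h1 := congrFun (hθinv g) a
    rw [Helper75.conjFun_apply] at h1 ⊢
    show lam _ * powFix_subFun N E ϑ _ = lam a * powFix_subFun N E ϑ a
    rw [h1]
    congr 1
    exact Helper75.isCharacter_isClassFunction' hlam (a : E) g
  have huinv : ∀ (g : E) (φ : IrrCharacter (N.subgroupOf E)), u (g • φ) = u φ := by
    intro g φ
    have h1 := hu (g • φ)
    have h2 : classInner (powFix_subFun N E ϑ) ((g • φ : IrrCharacter (N.subgroupOf E)) :
        N.subgroupOf E → ℂ) = classInner (powFix_subFun N E ϑ) (φ : N.subgroupOf E → ℂ) := by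
      have h3 := Helper75.classInner_conjFun (N.subgroupOf E) g⁻¹ (powFix_subFun N E ϑ)
        (φ : N.subgroupOf E → ℂ)
      rw [hθinv g⁻¹] at h3
      exact h3
    rw [h2, hu φ] at h1
    exact_mod_cast h1.symm
  have hvinv : ∀ (g : E) (φ : IrrCharacter (N.subgroupOf E)), v (g • φ) = v φ := by
    intro g φ
    have h1 := hv (g • φ)
    have h2 : classInner (fun a : N.subgroupOf E => lam a * powFix_subFun N E ϑ a)
        ((g • φ : IrrCharacter (N.subgroupOf E)) : N.subgroupOf E → ℂ)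
        = classInner (fun a : N.subgroupOf E => lam a * powFix_subFun N E ϑ a)
          (φ : N.subgroupOf E → ℂ) := by
      have h3 := Helper75.classInner_conjFun (N.subgroupOf E) g⁻¹
        (fun a : N.subgroupOf E => lam a * powFix_subFun N E ϑ a) (φ : N.subgroupOf E → ℂ)
      rw [hprodinv g⁻¹] at h3
      exact h3
    rw [h2, hv φ] at h1
    exact_mod_cast h1.symm
  have hmod := Helper15.sum_modEq_sum_fixed (P := (SE : Subgroup E))
    (X := IrrCharacter (N.subgroupOf E)) p SE.2 (fun φ => u φ * v φ) (by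
      intro g φ
      show u ((g : E) • φ) * v ((g : E) • φ) = u φ * v φ
      rw [huinv, hvinv])
  obtain ⟨φ, hφfix, hφp⟩ : ∃ φ : IrrCharacter (N.subgroupOf E),
      (∀ g : (SE : Subgroup E), g • φ = φ) ∧ ¬ p ∣ u φ := by
    by_contra hcon
    push Not at hcon
    apply hpI
    rw [hIeq]
    refine Nat.modEq_zero_iff_dvd.1 (hmod.trans (Nat.modEq_zero_iff_dvd.2 ?_))
    apply Finset.dvd_sum
    intro φ _
    split_ifs with h
    · exact Dvd.dvd.mul_right (hcon φ h) _
    · exact dvd_zero p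
  have hφinv := (Helper15.fixed_iff_invariant p (N.subgroupOf E) k hAidx SE φ).1 hφfix
  -- transport to `E ⊓ N`
  let e : ↥(E ⊓ N) ≃* ↥(N.subgroupOf E) :=
    { toFun := fun x => ⟨⟨(x : G), x.2.1⟩, Subgroup.mem_subgroupOf.2 x.2.2⟩
      invFun := fun a => ⟨((a : E) : G), ⟨(a : E).2, Subgroup.mem_subgroupOf.1 a.2⟩⟩
      left_inv := fun x => rfl
      right_inv := fun a => rfl
      map_mul' := fun x y => rfl }
  refine ⟨E, fun x => (φ : N.subgroupOf E → ℂ) (e x), hEl, hsup,
    (Helper79.isIrrCharacter_mulEquiv e (χ := (φ : N.subgroupOf E → ℂ))).2 φ.2, ?_, u φ, hφp, ?_⟩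
  · intro g hg x
    exact hφinv ⟨g, hg⟩ (e x)
  · have h1 := hu φ
    unfold classInner at h1
    rw [← h1, Nat.card_congr e.toEquiv]
    congr 1
    rw [finsum_eq_sum_of_fintype, ← Equiv.sum_comp e.toEquiv]
    rfl

end Cfsg.Agent.Helper4
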