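import Mathlib
import Cfsg.Prelude.Def_GeometricClasses
import Cfsg.Prelude.Def_LieClassical
import Cfsg.Agent.Helper69.E4UDef
import Cfsg.Agent.Helper97.UForm

/-!
# Helper4: piece ADJ5 (`e4u_adjust_five`) of CALL S6001
-/

set_option autoImplicit false

namespace Cfsg.Agent.Helper4
open Cfsg.Agent.Helper69 Cfsg.Agent.Helper97
open scoped Matrix

/-- the matrix identities behind ADJ5 -/
theorem e4u_adj5_core {F : Type*} [Field F] (σ : F ≃+* F) (τ α β A B ν N : F)
    (hA : σ A = α) (hB : σ B = β) (hσα : σ α = A) (hσβ : σ β = B) (hστ : σ τ = -1 - τ)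
    (hν : ν = α ^ 2 + τ * α * β + β ^ 2) (hN : N = A ^ 2 + (-1 - τ) * A * B + B ^ 2)
    (hν0 : ν ≠ 0) (hN0 : N ≠ 0) :
    ∃ n₀ : Matrix (Fin 4) (Fin 4) F, n₀ * e4uD5 τ = e4uD5 τ * n₀ ∧
      n₀ᵀ * e4uJ5 F * n₀.map σ = e4uJ5 F ∧ n₀.det = ν / N := by
  have hσN : σ N = ν := by
    rw [hN, hν]
    simp only [map_add, map_mul, map_pow, map_sub, map_neg, map_one, hA, hB, hστ]
    ring
  have hσ1 : σ (A + B * (-1 - τ)) = α + β * τ := by
    simp only [map_add, map_mul, map_sub, map_neg, map_one, hA, hB, hστ]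
    ring
  have hσ2 : σ (α + β * τ) = A + B * (-1 - τ) := by
    simp only [map_add, map_mul, hσα, hσβ, hστ]
  refine ⟨!![α, -β, 0, 0; β, α + β * τ, 0, 0;
      0, 0, (A + B * (-1 - τ)) / N, -B / N; 0, 0, B / N, A / N], ?_, ?_, ?_⟩
  · ext i j
    fin_cases i <;> fin_cases j <;>
      simp [e4uD5, Matrix.mul_apply, Fin.sum_univ_four] <;> field_simp <;> ring
  · have hmap : (!![α, -β, 0, 0; β, α + β * τ, 0, 0;
        0, 0, (A + B * (-1 - τ)) / N, -B / N; 0, 0, B / N, A / N] :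
          Matrix (Fin 4) (Fin 4) F).map σ =
        !![A, -B, 0, 0; B, A + B * (-1 - τ), 0, 0;
          0, 0, (α + β * τ) / ν, -β / ν; 0, 0, β / ν, α / ν] := by
      ext i j
      fin_cases i <;> fin_cases j <;>
        simp [Matrix.map_apply, map_div₀, hσN, hσ1, hσ2, hσα, hσβ, hA, hB, map_neg]
    rw [hmap]
    ext i j
    fin_cases i <;> fin_cases j <;>
      simp [e4uJ5, Matrix.mul_apply, Fin.sum_univ_four] <;> field_simp <;>
      (subst hν hN; ring)
  · rw [Matrix.det_succ_row_zero]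
    simp [Fin.sum_univ_four, Matrix.det_fin_three, Fin.succAbove]
    field_simp
    subst hν hN
    ring

/-! ### ADJ5 -/

theorem e4u_adjust_five {F : Type*} [Field F] [Fintype F] {p : ℕ}
    (hF : Fintype.card F = p ^ 2) (h2 : (2 : F) ≠ 0) (h5 : (5 : F) ≠ 0) (σ : F ≃+* F)
    (hσ : IsSigma p σ) (τ : F) (hτ : τ ^ 2 + τ - 1 = 0) (hστ : σ τ = -1 - τ) (δ : F)
    (hδ : δ * σ δ = 1) :
    ∃ n₀ : Matrix (Fin 4) (Fin 4) F, n₀ * e4uD5 τ = e4uD5 τ * n₀ ∧
      n₀ᵀ * e4uJ5 F * n₀.map σ = e4uJ5 F ∧ n₀.det = δ := by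
  classical
  -- Hilbert 90
  obtain ⟨ν, hν0, hν⟩ : ∃ ν : F, ν ≠ 0 ∧ ν = δ * σ ν := by
    by_cases hd : δ = -1
    · obtain ⟨c, hc0, hc⟩ := hσ.exists_trace_zero
      exact ⟨c, hc0, by rw [hc, hd]; ring⟩
    · refine ⟨1 + δ, ?_, ?_⟩
      · intro h
        exact hd (by linear_combination h)
      · rw [map_add, map_one, mul_add, hδ]
        ring
  -- the norm form is universal
  have hodd : Fintype.card F % 2 = 1 := by
    apply FiniteField.odd_card_of_char_ne_two
    intro h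
    apply h2
    have := ringChar.Nat.cast_ringChar (R := F)
    rw [h] at this
    exact_mod_cast this
  have h4 : (4 : F) ≠ 0 := by
    have : (4 : F) = 2 * 2 := by norm_num
    rw [this]
    exact mul_ne_zero h2 h2
  have hc : (1 - τ ^ 2 / 4 : F) ≠ 0 := by
    intro h
    have h3 : τ = -3 := by
      field_simp at h
      linear_combination h + hτ
    rw [h3] at hτ
    apply h5
    linear_combination hτ
  obtain ⟨a', b, hab⟩ := FiniteField.exists_root_sum_quadratic (R := F)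
    (f := Polynomial.X ^ 2) (g := Polynomial.C (1 - τ ^ 2 / 4) * Polynomial.X ^ 2 - Polynomial.C ν)
    (Polynomial.degree_X_pow 2)
    (by
      rw [Polynomial.degree_sub_eq_left_of_degree_lt]
      · exact Polynomial.degree_C_mul_X_pow 2 hc
      · rw [Polynomial.degree_C_mul_X_pow 2 hc]
        exact lt_of_le_of_lt Polynomial.degree_C_le (by norm_num)) hodd
  simp only [Polynomial.eval_pow, Polynomial.eval_X, Polynomial.eval_sub, Polynomial.eval_mul,
    Polynomial.eval_C] at hab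
  set α : F := a' - τ * b / 2 with hα
  have hνab : α ^ 2 + τ * α * b + b ^ 2 = ν := by
    rw [hα]
    field_simp
    field_simp at hab
    linear_combination hab
  have hσν : σ ν = σ α ^ 2 + (-1 - τ) * σ α * σ b + σ b ^ 2 := by
    rw [← hνab]
    simp only [map_add, map_mul, map_pow, hστ]
  have hσν0 : σ ν ≠ 0 := (map_ne_zero σ).mpr hν0
  obtain ⟨n₀, h1, h2', h3⟩ := e4u_adj5_core σ τ α b (σ α) (σ b) ν (σ ν) (hσ.inv α) (hσ.inv b)
    rfl rfl hστ hνab.symm hσν hν0 hσν0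
  refine ⟨n₀, h1, h2', ?_⟩
  rw [h3, div_eq_iff hσν0]
  exact hν

end Cfsg.Agent.Helper4
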