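import Mathlib
import Cfsg.Prelude.Def_GeometricClasses
import Cfsg.Prelude.Def_LieClassical
import Cfsg.Agent.Helper5.UnitSU

/-!
# Helper4: piece BAD3UA (`e4u_bad_diag`) of CALL S6001
-/

set_option autoImplicit false

namespace Cfsg.Agent.Helper4
open scoped Matrix

/-! ### BAD3UA -/

theorem e4u_bad_diag {F : Type*} [Field F] [Fintype F] {p : ℕ} [Fact p.Prime] [CharP F p]
    (hF : Fintype.card F = p ^ 2) (hp3 : p % 3 = 2) :
    ∃ (x : GL (Fin 4) F) (a : Fin 4 → F) (μ : F),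
      x ∈ Cfsg.GU 4 F p ⊓ Cfsg.Geo.specialLinear (Fin 4) F ∧
      (x : Matrix (Fin 4) (Fin 4) F) ^ 3 = 1 ∧
      (∀ c : F, (x : Matrix (Fin 4) (Fin 4) F) ≠ c • (1 : Matrix (Fin 4) (Fin 4) F)) ∧ a ≠ 0 ∧
      ∀ v : Fin 4 → F, a ⬝ᵥ v = 0 → (x : Matrix (Fin 4) (Fin 4) F) *ᵥ v = μ • v := by
  classical
  haveI : Fact (Nat.Prime 3) := ⟨by norm_num⟩
  -- an element of order 3
  have hcard : Nat.card Fˣ = p ^ 2 - 1 := by
    rw [Nat.card_eq_fintype_card, Fintype.card_units, hF]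
  have h3dvd : 3 ∣ Nat.card Fˣ := by
    rw [hcard]
    have h1 : p ^ 2 % 3 = 1 := by rw [Nat.pow_mod, hp3]
    have h2 : 1 ≤ p ^ 2 := Nat.one_le_pow _ _ (Fact.out : p.Prime).pos
    omega
  obtain ⟨u, hu⟩ := exists_prime_orderOf_dvd_card' 3 h3dvd
  have hu3 : u ^ 3 = 1 := by rw [← hu]; exact pow_orderOf_eq_one u
  have hu1 : u ≠ 1 := by
    intro h
    rw [h, orderOf_one] at hu
    norm_num at hu
  set ω : F := (u : F) with hω
  have hω3 : ω ^ 3 = 1 := by
    rw [hω, ← Units.val_pow_eq_pow_val, hu3, Units.val_one]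
  have hω1 : ω ≠ 1 := by
    intro h
    exact hu1 (Units.ext h)
  have hωp : ω ^ (p + 1) = 1 := by
    obtain ⟨k, hk⟩ : 3 ∣ p + 1 := by omega
    rw [hk, pow_mul, hω3, one_pow]
  have hdet : (Matrix.diagonal ![1, ω, ω, ω] : Matrix (Fin 4) (Fin 4) F).det = 1 := by
    rw [Matrix.det_diagonal]
    simp only [Fin.prod_univ_four, Matrix.cons_val_zero, Matrix.cons_val_one, Matrix.cons_val]
    linear_combination hω3
  let x : GL (Fin 4) F := Matrix.GeneralLinearGroup.mkOfDetNeZero (Matrix.diagonal ![1, ω, ω, ω])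
    (by rw [hdet]; exact one_ne_zero)
  have hx : (x : Matrix (Fin 4) (Fin 4) F) = Matrix.diagonal ![1, ω, ω, ω] := rfl
  refine ⟨x, Pi.single 0 1, ω, ⟨?_, ?_⟩, ?_, ?_, ?_, ?_⟩
  · apply Cfsg.Agent.Helper5.diagonal_mem_GU ![1, ω, ω, ω] ?_ x hx
    intro i
    fin_cases i <;> simp [hωp]
  · show x ∈ (Matrix.GeneralLinearGroup.det : GL (Fin 4) F →* Fˣ).ker
    rw [MonoidHom.mem_ker]
    apply Units.ext
    rw [Matrix.GeneralLinearGroup.val_det_apply, hx, hdet, Units.val_one]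
  · rw [hx, Matrix.diagonal_pow]
    rw [← Matrix.diagonal_one]
    congr 1
    funext i
    fin_cases i <;> simp [hω3]
  · intro c hc
    rw [hx] at hc
    have h0 := congrFun (congrFun hc 0) 0
    have h1 := congrFun (congrFun hc 1) 1
    simp at h0 h1
    exact hω1 (by rw [h1, ← h0])
  · intro h
    have := congrFun h 0
    simp at this
  · intro v hv
    have hv0 : v 0 = 0 := by
      rw [single_dotProduct, one_mul] at hv
      exact hv
    rw [hx]
    funext i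
    rw [Matrix.mulVec_diagonal]
    fin_cases i <;> simp [hv0]

end Cfsg.Agent.Helper4
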