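import Mathlib
import Cfsg.Agent.Helper3.FHDefs
import Cfsg.Agent.Helper4.FHTrig

/-!
Piece P12 of S1142-LA: the Feit–Higman trigonometric sum, even case.
-/

set_option autoImplicit false

namespace Cfsg.Agent.Helper4

open Cfsg.Agent.Helper3.FH Real

/-- the sum over `range (2N)`, where `N` is a full period of `θ` -/
theorem fh_range_sum (T : ℕ → ℝ) (a b u θ μ P Q x : ℝ) (N K : ℕ)
    (hu : u ^ 2 = a * b) (hu0 : u ≠ 0) (ha : a ≠ 0)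
    (hx : x = u * cos θ) (hθ : 2 * (N : ℝ) * θ = K * (2 * π)) (hs : sin θ ≠ 0)
    (hT0 : T 0 = μ) (hT1 : T 1 = P) (hT2 : T 2 = μ * x)
    (hT3 : T 3 = u * (P * cos θ + Q * sin θ))
    (hT : ∀ j, T (j + 4) = 2 * x * T (j + 2) - u ^ 2 * T j) :
    ∑ j ∈ Finset.range (2 * N), T j ^ 2 / altProd a b j
      = N * μ ^ 2 / 2 + N * (P ^ 2 + Q ^ 2) / (2 * a) := by
  rw [fh_sum_even_odd]
  simp only [fh_term_even T a b u θ μ x hu hu0 hx hT0 hT2 hT,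
    fh_term_odd T a b u θ P Q x hu hu0 ha hx hT1 hT3 hT]
  rw [fh_sq_sum θ μ 0 N K hθ hs, ← Finset.sum_div, fh_sq_sum θ P Q N K hθ hs]
  field_simp
  ring

theorem fh_sum_even (n k : ℕ) (hk : 0 < k) (hkn : k < n) (s t μ x : ℝ) (hs : 0 < s) (ht : 0 < t)
    (hx : x = √(s * t) * cos (k * π / n)) (T T' : ℕ → ℝ)
    (hT0 : T 0 = μ) (hT1 : T 1 = (s - 1) * μ / 2) (hT2 : T 2 = μ * x)
    (hT3 : T 3 = s * (t - 1) * μ / 2 + (s - 1) * μ * x)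
    (hT : ∀ j, T (j + 4) = 2 * x * T (j + 2) - s * t * T j)
    (hT'0 : T' 0 = μ) (hT'1 : T' 1 = (t - 1) * μ / 2) (hT'2 : T' 2 = μ * x)
    (hT'3 : T' 3 = t * (s - 1) * μ / 2 + (t - 1) * μ * x)
    (hT' : ∀ j, T' (j + 4) = 2 * x * T' (j + 2) - s * t * T' j) :
    ∑ j ∈ Finset.range (2 * n + 1), T j ^ 2 / altProd s t j
        + ∑ j ∈ Finset.Ico 1 (2 * n), T' j ^ 2 / altProd t s j
      = μ ^ 2 * (2 * n) * (s + t + 2 * x) * (s * t + 1 - 2 * x) / (8 * (s * t - x ^ 2)) := by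
  have hst : 0 < s * t := mul_pos hs ht
  have hu0 : 0 < √(s * t) := Real.sqrt_pos.mpr hst
  have hu : √(s * t) ^ 2 = s * t := Real.sq_sqrt hst.le
  generalize √(s * t) = u at hx hu0 hu
  have hn : (0 : ℝ) < n := by exact_mod_cast (lt_trans hk hkn)
  have hk' : (0 : ℝ) < k := by exact_mod_cast hk
  have hθ : 2 * (n : ℝ) * ((k : ℝ) * π / n) = k * (2 * π) := by field_simp
  have hθ0 : 0 < (k : ℝ) * π / n := by positivity
  have hθπ : (k : ℝ) * π / n < π := by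
    rw [div_lt_iff₀ hn]
    have : (k : ℝ) < n := by exact_mod_cast hkn
    nlinarith [Real.pi_pos]
  have hnθ : (n : ℝ) * ((k : ℝ) * π / n) = k * π := by field_simp
  generalize (k : ℝ) * π / n = θ at hx hθ hθ0 hθπ hnθ
  have hu' : u ^ 2 = t * s := by rw [hu, mul_comm]
  have hsin : 0 < sin θ := Real.sin_pos_of_pos_of_lt_pi hθ0 hθπ
  have hsin0 : sin θ ≠ 0 := hsin.ne'
  have hD : s * t - x ^ 2 = (u * sin θ) ^ 2 := by
    rw [hx, mul_pow, mul_pow, ← hu, sin_sq]; ring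
  have hus : u * sin θ ≠ 0 := mul_ne_zero hu0.ne' hsin0
  have hD0 : s * t - x ^ 2 ≠ 0 := by rw [hD]; exact pow_ne_zero _ hus
  have hTu : ∀ j, T (j + 4) = 2 * x * T (j + 2) - u ^ 2 * T j := by intro j; rw [hT, hu]
  have hT'u : ∀ j, T' (j + 4) = 2 * x * T' (j + 2) - u ^ 2 * T' j := by intro j; rw [hT', hu]
  obtain ⟨Q, hQ⟩ : ∃ Q : ℝ, Q = μ / 2 * (s * (t - 1) + (s - 1) * x) / (u * sin θ) := ⟨_, rfl⟩
  obtain ⟨Q', hQ'⟩ : ∃ Q' : ℝ, Q' = μ / 2 * (t * (s - 1) + (t - 1) * x) / (u * sin θ) :=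
    ⟨_, rfl⟩
  have hT3' : T 3 = u * ((s - 1) * μ / 2 * cos θ + Q * sin θ) := by
    rw [hT3, hQ, hx]; field_simp; ring
  have hT'3' : T' 3 = u * ((t - 1) * μ / 2 * cos θ + Q' * sin θ) := by
    rw [hT'3, hQ', hx]; field_simp; ring
  have h1 := fh_range_sum T s t u θ μ _ Q x n k hu hu0.ne' hs.ne' hx hθ hsin0 hT0 hT1 hT2
    hT3' hTu
  have h2 := fh_range_sum T' t s u θ μ _ Q' x n k hu' hu0.ne' ht.ne' hx hθ hsin0 hT'0 hT'1
    hT'2 hT'3' hT'u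
  have hc : cos (k * π) ^ 2 = 1 := by rw [Real.cos_sq', Real.sin_nat_mul_pi]; norm_num
  have h3 : T (2 * n) ^ 2 / altProd s t (2 * n) = μ ^ 2 := by
    rw [fh_term_even T s t u θ μ x hu hu0.ne' hx hT0 hT2 hTu n, hnθ, zero_mul, add_zero, mul_pow,
      hc, mul_one]
  have h4 : T' 0 ^ 2 / altProd t s 0 = μ ^ 2 := by rw [hT'0]; simp
  have h5 := Finset.sum_range_eq_add_Ico (fun j => T' j ^ 2 / altProd t s j)
    (show 0 < 2 * n by omega)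
  rw [h2] at h5
  simp only [h4] at h5
  have h6 : ∑ j ∈ Finset.Ico 1 (2 * n), T' j ^ 2 / altProd t s j
      = n * μ ^ 2 / 2 + n * (((t - 1) * μ / 2) ^ 2 + Q' ^ 2) / (2 * t) - μ ^ 2 := by linarith
  rw [Finset.sum_range_succ, h1, h3, h6]
  have hQ2 : Q ^ 2 = μ ^ 2 / 4 * (s * (t - 1) + (s - 1) * x) ^ 2 / (s * t - x ^ 2) := by
    rw [hQ, hD]; field_simp; ring
  have hQ'2 : Q' ^ 2 = μ ^ 2 / 4 * (t * (s - 1) + (t - 1) * x) ^ 2 / (s * t - x ^ 2) := by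
    rw [hQ', hD]; field_simp; ring
  rw [hQ2, hQ'2]
  have hs0 := hs.ne'
  have ht0 := ht.ne'
  field_simp
  ring

end Cfsg.Agent.Helper4
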