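import Mathlib
import Cfsg.Agent.Helper57.J1oDefs

set_option autoImplicit false

/-!
# Helper4: piece P17 (`j1o_simple_card`) of CALL S4274
-/

namespace Cfsg.Agent.Helper4

open Subgroup Cfsg.Agent.Helper57

universe u

theorem j1o_p17_aux1 : ∀ j ∈ List.range 487,
    (19 * j + 1 ∣ 9240 ∧ j ≠ 0) → (j = 1 ∨ j = 4 ∨ j = 11 ∨ j = 81) := by
  decide +kernel

theorem j1o_p17_aux2 : ∀ n ∈ [20, 77, 210, 1540], ∀ e ∈ List.range 19, ∀ c ∈ List.range 232,
    (e ∣ 18 ∧ 1 < e ∧ n * e * c ∣ 9240 ∧ ∀ q ∈ [2, 3, 5, 7, 11], q ∣ c → 19 * q + 1 ≤ n) →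
    (n * e * c = 40 ∨ n * e * c = 60 ∨ n * e * c = 120 ∨ n * e * c = 154 ∨ n * e * c = 231 ∨
      n * e * c = 308 ∨ n * e * c = 462 ∨ n * e * c = 616 ∨ n * e * c = 924 ∨
      n * e * c = 1848 ∨ n * e * c = 420 ∨ n * e * c = 840 ∨ n * e * c = 4620 ∨
      n * e * c = 3080 ∨ n * e * c = 9240) := by
  decide +kernel

/-- P17. The possible orders `19 m`, `m ∣ 9240`, of a simple group other than `C_19`. -/
theorem j1o_simple_card (SD : J1oSylData.{u}) {H : Type u} [Group H] [Finite H]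
    [IsSimpleGroup H] (m : ℕ)
    (hm : m ∣ 9240) (hH : Nat.card H = 19 * m) (hm1 : m ≠ 1) :
    m = 40 ∨ m = 60 ∨ m = 120 ∨ m = 154 ∨ m = 231 ∨ m = 308 ∨ m = 462 ∨ m = 616 ∨ m = 924 ∨
      m = 1848 ∨ m = 420 ∨ m = 840 ∨ m = 4620 ∨ m = 3080 ∨ m = 9240 := by
  haveI : Fact (Nat.Prime 19) := ⟨by norm_num⟩
  have hm0 : 0 < m := Nat.pos_of_dvd_of_pos hm (by norm_num)
  have h19 : ¬ 19 ∣ m := fun h => absurd (dvd_trans h hm) (by norm_num)
  obtain ⟨n, e, c, h1, h2, h3, -, h5, h6, h7, -⟩ := SD H 19 (by rw [hH]; exact dvd_mul_right _ _)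
    (by
      rw [hH, pow_two]
      intro h
      exact h19 ((Nat.mul_dvd_mul_iff_left (by norm_num)).mp h))
    (by rw [hH]; omega)
  rw [hH] at h1
  have hmeq : m = n * e * c := by
    have : 19 * m = 19 * (n * e * c) := by rw [h1]; ring
    exact Nat.eq_of_mul_eq_mul_left (by norm_num) this
  subst hmeq
  have hndvd : n ∣ 9240 := dvd_trans (Dvd.intro (e * c) (by ring)) hm
  have hnle : n ≤ 9240 := Nat.le_of_dvd (by norm_num) hndvd
  have hele : e ≤ 18 := Nat.le_of_dvd (by norm_num) h5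
  have hmle : n * e * c ≤ 9240 := Nat.le_of_dvd (by norm_num) hm
  have hn20 : 20 ≤ n := by omega
  have hc : c < 232 := by
    have h40 : 40 * c ≤ n * e * c := by
      calc 40 * c = 20 * 2 * c := by ring
        _ ≤ n * e * c := Nat.mul_le_mul (Nat.mul_le_mul hn20 h6) le_rfl
    generalize n * e * c = t at h40 hmle
    omega
  -- the number of Sylow 19-subgroups
  have hn : n = 20 ∨ n = 77 ∨ n = 210 ∨ n = 1540 := by
    obtain ⟨j, rfl⟩ : ∃ j, n = 19 * j + 1 := ⟨n / 19, by omega⟩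
    have := j1o_p17_aux1 j (List.mem_range.mpr (by omega)) ⟨hndvd, by omega⟩
    omega
  have hnmem : n ∈ [20, 77, 210, 1540] := by
    rcases hn with rfl | rfl | rfl | rfl <;> simp
  refine j1o_p17_aux2 n hnmem e (List.mem_range.mpr (by omega)) c (List.mem_range.mpr hc)
    ⟨h5, h6, hm, ?_⟩
  intro q hq hqc
  apply h7 q ?_ hqc
  simp only [List.mem_cons, List.not_mem_nil, or_false] at hq
  rcases hq with rfl | rfl | rfl | rfl | rfl <;> norm_num

end Cfsg.Agent.Helper4
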