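import Mathlib
import Cfsg.Agent.Helper4.Dihedral

/-!
# Involution counts modulo 4 and normal four-subgroups of 2-groups (helper4)

* `dvd_card_of_dvd_index`: if all orbits of a finite group action have size divisible by `m`,
  so does the set acted on.
* `four_dvd_card_sq_eq_one`: a finite group containing an elementary abelian subgroup of order `8`
  has a number of solutions of `x * x = 1` divisible by `4`.
* `exists_normal_four`: a finite `2`-group containing an elementary abelian subgroup of order `8`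
  has a central involution `z` and an involution `e ≠ z` all of whose conjugates are `e` or `z * e`
  (that is, `{1, z, e, z * e}` is a normal four-subgroup).
* `adjoinInv`: the subgroup `A ∪ c A` for an involution `c` centralizing `A`.
-/

set_option autoImplicit false

namespace Cfsg.Agent.Helper4

theorem comm_of_sq {P : Type*} [Group P] {a b : P} (ha : a * a = 1) (hb : b * b = 1)
    (hab : (a * b) * (a * b) = 1) : a * b = b * a := by
  have h1 : a⁻¹ = a := inv_eq_of_mul_eq_one_left ha
  have h2 : b⁻¹ = b := inv_eq_of_mul_eq_one_left hb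
  have h3 : (a * b)⁻¹ = a * b := inv_eq_of_mul_eq_one_left hab
  rw [mul_inv_rev, h1, h2] at h3
  exact h3.symm

/-- If every orbit of a finite group action has size divisible by `m`, then `m` divides the size
of the set acted on. -/
theorem dvd_card_of_dvd_index {H Y : Type*} [Group H] [MulAction H Y] [Finite H] [Finite Y] (m : ℕ)
    (h : ∀ y : Y, m ∣ (MulAction.stabilizer H y).index) : m ∣ Nat.card Y := by
  classical
  letI := Fintype.ofFinite H
  letI := Fintype.ofFinite Y
  letI : Fintype (Quotient (MulAction.orbitRel H Y)) := Fintype.ofFinite _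
  letI : ∀ b : Y, Fintype (MulAction.stabilizer H b) := fun b => Fintype.ofFinite _
  rw [Nat.card_eq_fintype_card, MulAction.card_eq_sum_card_group_div_card_stabilizer H Y]
  apply Finset.dvd_sum
  intro ω _
  have h1 := Subgroup.card_mul_index (MulAction.stabilizer H ω.out)
  rw [Nat.card_eq_fintype_card, Nat.card_eq_fintype_card] at h1
  rw [← h1, Nat.mul_div_cancel_left _ Fintype.card_pos]
  exact h _

section Fiber

variable {P : Type*} [Group P]

theorem mul_mem_fiber {V W : Subgroup P} (hexp : ∀ v ∈ V, v * v = 1) {x : P} (hx : x * x = 1)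
    (hW : V ⊓ Subgroup.centralizer {x} = W) {w : P} (hw : w ∈ W) :
    (w * x) * (w * x) = 1 ∧ V ⊓ Subgroup.centralizer {w * x} = W := by
  have hVcomm : ∀ a ∈ V, ∀ b ∈ V, a * b = b * a := fun a ha b hb =>
    comm_of_sq (hexp a ha) (hexp b hb) (hexp _ (V.mul_mem ha hb))
  have hw' : w ∈ V ∧ w * x = x * w := by
    rw [← hW, Subgroup.mem_inf, Subgroup.mem_centralizer_singleton_iff] at hw
    exact hw
  constructor
  · calc w * x * (w * x) = w * (x * w) * x := by group
      _ = w * (w * x) * x := by rw [hw'.2]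
      _ = (w * w) * (x * x) := by group
      _ = 1 := by rw [hexp _ hw'.1, hx, one_mul]
  · rw [← hW]
    ext v
    rw [Subgroup.mem_inf, Subgroup.mem_inf, Subgroup.mem_centralizer_singleton_iff,
      Subgroup.mem_centralizer_singleton_iff]
    constructor
    · rintro ⟨hv, hc⟩
      refine ⟨hv, ?_⟩
      have hvw := hVcomm v hv w hw'.1
      have h1 : w * (v * x) = w * (x * v) := by
        calc w * (v * x) = (v * w) * x := by rw [hvw, mul_assoc]
          _ = v * (w * x) := by rw [mul_assoc]
          _ = w * x * v := hc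
          _ = w * (x * v) := by rw [mul_assoc]
      exact mul_left_cancel h1
    · rintro ⟨hv, hc⟩
      refine ⟨hv, ?_⟩
      have hvw := hVcomm v hv w hw'.1
      calc v * (w * x) = (v * w) * x := by rw [mul_assoc]
        _ = w * (v * x) := by rw [hvw, mul_assoc]
        _ = w * (x * v) := by rw [hc]
        _ = w * x * v := by rw [mul_assoc]

theorem conj_mem_fiber {V W : Subgroup P} (hexp : ∀ v ∈ V, v * v = 1) {x : P} (hx : x * x = 1)
    (hW : V ⊓ Subgroup.centralizer {x} = W) {u : P} (hu : u ∈ V) :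
    (u * x * u⁻¹) * (u * x * u⁻¹) = 1 ∧ V ⊓ Subgroup.centralizer {u * x * u⁻¹} = W := by
  have hVcomm : ∀ a ∈ V, ∀ b ∈ V, a * b = b * a := fun a ha b hb =>
    comm_of_sq (hexp a ha) (hexp b hb) (hexp _ (V.mul_mem ha hb))
  constructor
  · calc u * x * u⁻¹ * (u * x * u⁻¹) = u * (x * x) * u⁻¹ := by group
      _ = 1 := by rw [hx]; group
  · rw [← hW]
    ext v
    rw [Subgroup.mem_inf, Subgroup.mem_inf, Subgroup.mem_centralizer_singleton_iff,
      Subgroup.mem_centralizer_singleton_iff]
    constructor
    · rintro ⟨hv, hc⟩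
      refine ⟨hv, ?_⟩
      have hvu := hVcomm v hv u hu
      have h1 : u * (v * x) * u⁻¹ = u * (x * v) * u⁻¹ := by
        calc u * (v * x) * u⁻¹ = (u * v) * x * u⁻¹ := by group
          _ = v * (u * x * u⁻¹) := by rw [← hvu]; group
          _ = u * x * u⁻¹ * v := hc
          _ = u * x * (u⁻¹ * v) := by group
          _ = u * x * (v * u⁻¹) := by
              have : u⁻¹ * v = v * u⁻¹ := by
                rw [eq_mul_inv_iff_mul_eq, mul_assoc, hvu, ← mul_assoc, inv_mul_cancel, one_mul]
              rw [this]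
          _ = u * (x * v) * u⁻¹ := by group
      exact mul_left_cancel (mul_right_cancel h1)
    · rintro ⟨hv, hc⟩
      refine ⟨hv, ?_⟩
      have hvu := hVcomm v hv u hu
      have h2 : u⁻¹ * v = v * u⁻¹ := by
        rw [eq_mul_inv_iff_mul_eq, mul_assoc, hvu, ← mul_assoc, inv_mul_cancel, one_mul]
      calc v * (u * x * u⁻¹) = (v * u) * x * u⁻¹ := by group
        _ = u * (v * x) * u⁻¹ := by rw [hvu]; group
        _ = u * (x * v) * u⁻¹ := by rw [hc]
        _ = u * x * (v * u⁻¹) := by group
        _ = u * x * (u⁻¹ * v) := by rw [h2]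
        _ = u * x * u⁻¹ * v := by group

/-- Each fibre of `x ↦ C_V(x)` on the solutions of `x * x = 1` has size divisible by `4`. -/
theorem four_dvd_fiber [Finite P] (V W : Subgroup P) (hV : Nat.card V = 8)
    (hexp : ∀ v ∈ V, v * v = 1) :
    4 ∣ Nat.card {x : P // x * x = 1 ∧ V ⊓ Subgroup.centralizer {x} = W} := by
  classical
  by_cases hne : Nonempty {x : P // x * x = 1 ∧ V ⊓ Subgroup.centralizer {x} = W}
  swap
  · rw [not_nonempty_iff] at hne
    rw [Nat.card_of_isEmpty]
    exact dvd_zero 4
  obtain ⟨⟨x₀, hx₀, hW₀⟩⟩ := hne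
  have hWV : W ≤ V := hW₀ ▸ inf_le_left
  have hWcard : Nat.card W ∣ 8 := hV ▸ Subgroup.card_dvd_of_le hWV
  have hWpos : 0 < Nat.card W := Nat.card_pos
  by_cases h4 : 4 ≤ Nat.card W
  · -- `W` acts freely by left multiplication
    letI : MulAction W {x : P // x * x = 1 ∧ V ⊓ Subgroup.centralizer {x} = W} :=
      { smul := fun w x => ⟨(w : P) * x.1, mul_mem_fiber hexp x.2.1 x.2.2 w.2⟩
        one_smul := fun x => Subtype.ext (one_mul _)
        mul_smul := fun a b x => Subtype.ext (mul_assoc _ _ _) }
    apply dvd_card_of_dvd_index (H := W)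
    intro y
    have hst : MulAction.stabilizer W y = ⊥ := by
      rw [eq_bot_iff]
      intro w hw
      rw [MulAction.mem_stabilizer_iff] at hw
      have h1 : (w : P) * y.1 = y.1 := congrArg Subtype.val hw
      rw [Subgroup.mem_bot]
      exact Subtype.ext (mul_eq_right.mp h1)
    rw [hst, Subgroup.index_bot]
    have h8 : Nat.card W ≤ 8 := Nat.le_of_dvd (by norm_num) hWcard
    interval_cases (Nat.card W) <;> omega
  · -- `V` acts by conjugation with stabilizers inside `W`
    letI : MulAction V {x : P // x * x = 1 ∧ V ⊓ Subgroup.centralizer {x} = W} :=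
      { smul := fun u x => ⟨(u : P) * x.1 * (u : P)⁻¹, conj_mem_fiber hexp x.2.1 x.2.2 u.2⟩
        one_smul := fun x => Subtype.ext (by
          show ((1 : V) : P) * x.1 * ((1 : V) : P)⁻¹ = x.1
          simp)
        mul_smul := fun a b x => Subtype.ext (by
          show ((a * b : V) : P) * x.1 * ((a * b : V) : P)⁻¹
            = (a : P) * ((b : P) * x.1 * (b : P)⁻¹) * (a : P)⁻¹
          simp only [Subgroup.coe_mul, mul_inv_rev]
          group) }
    apply dvd_card_of_dvd_index (H := V)
    intro y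
    have hinj : Nat.card (MulAction.stabilizer V y) ≤ Nat.card W := by
      apply Nat.card_le_card_of_injective
        (fun u : MulAction.stabilizer V y => (⟨(u : V), by
          have hu := u.2
          rw [MulAction.mem_stabilizer_iff] at hu
          have h1 : ((u : V) : P) * y.1 * ((u : V) : P)⁻¹ = y.1 := congrArg Subtype.val hu
          have hmem : ((u : V) : P) ∈ V ⊓ Subgroup.centralizer {y.1} :=
            Subgroup.mem_inf.mpr ⟨(u : V).2, Subgroup.mem_centralizer_singleton_iff.mpr (by
              calc ((u : V) : P) * y.1 = (((u : V) : P) * y.1 * ((u : V) : P)⁻¹) * ((u : V) : P) := by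
                    group
                _ = y.1 * ((u : V) : P) := by rw [h1])⟩
          rw [y.2.2] at hmem
          exact hmem⟩ : W))
      intro a b hab
      have h1 : ((a : V) : P) = ((b : V) : P) := congrArg (fun w : W => (w : P)) hab
      exact Subtype.ext (Subtype.ext h1)
    have h1 := Subgroup.card_mul_index (MulAction.stabilizer V y)
    rw [hV] at h1
    have hpos : 0 < Nat.card (MulAction.stabilizer V y) := Nat.card_pos
    have hW2 : Nat.card W ≤ 2 := by
      have h8 : Nat.card W ≤ 8 := Nat.le_of_dvd (by norm_num) hWcard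
      interval_cases (Nat.card W) <;> omega
    have hs2 : Nat.card (MulAction.stabilizer V y) ≤ 2 := hinj.trans hW2
    generalize Nat.card (MulAction.stabilizer V y) = s at h1 hpos hs2
    generalize (MulAction.stabilizer V y).index = i at h1 ⊢
    interval_cases s <;> omega

/-- A finite group containing an elementary abelian subgroup of order `8` has a number of
solutions of `x * x = 1` divisible by `4`. -/
theorem four_dvd_card_sq_eq_one [Finite P] (V : Subgroup P) (hV : Nat.card V = 8)
    (hexp : ∀ v ∈ V, v * v = 1) : 4 ∣ Nat.card {x : P // x * x = 1} := by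
  classical
  letI := Fintype.ofFinite P
  letI : Fintype (Subgroup P) := Fintype.ofFinite _
  rw [Nat.card_eq_fintype_card, Fintype.card_subtype]
  rw [Finset.card_eq_sum_card_fiberwise (f := fun x : P => V ⊓ Subgroup.centralizer {x})
    (t := Finset.univ) (fun x _ => Finset.mem_coe.mpr (Finset.mem_univ _))]
  apply Finset.dvd_sum
  intro W _
  have h := four_dvd_fiber V W hV hexp
  rw [Nat.card_eq_fintype_card, Fintype.card_subtype] at h
  rw [Finset.filter_filter]
  exact h

end Fiber

section NormalFour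

variable {P : Type*} [Group P]

theorem mem_zpowers_of_sq {z w : P} (hz : z * z = 1) (hw : w ∈ Subgroup.zpowers z) :
    w = 1 ∨ w = z := by
  obtain ⟨k, rfl⟩ := Subgroup.mem_zpowers_iff.mp hw
  rcases Int.even_or_odd' k with ⟨j, rfl | rfl⟩
  · left
    rw [zpow_mul, zpow_two, hz, one_zpow]
  · right
    rw [zpow_add, zpow_mul, zpow_two, hz, one_zpow, one_mul, zpow_one]

theorem twist_mem {z : P} (hzc : ∀ g : P, g * z = z * g) (hzz : z * z = 1) {w : P}
    (hw : w = 1 ∨ w = z) {t : P} (ht : t * t = 1 ∧ t ≠ 1 ∧ t ≠ z) (g : P) :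
    (w * (g * t * g⁻¹)) * (w * (g * t * g⁻¹)) = 1 ∧ w * (g * t * g⁻¹) ≠ 1 ∧
      w * (g * t * g⁻¹) ≠ z := by
  have hsq : (g * t * g⁻¹) * (g * t * g⁻¹) = 1 := by
    calc (g * t * g⁻¹) * (g * t * g⁻¹) = g * (t * t) * g⁻¹ := by group
      _ = 1 := by rw [ht.1]; group
  have hne1 : g * t * g⁻¹ ≠ 1 := by
    intro h
    apply ht.2.1
    calc t = g⁻¹ * (g * t * g⁻¹) * g := by group
      _ = 1 := by rw [h]; group
  have hnez : g * t * g⁻¹ ≠ z := by
    intro h
    apply ht.2.2
    calc t = g⁻¹ * (g * t * g⁻¹) * g := by group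
      _ = g⁻¹ * (z * g) := by rw [h, mul_assoc]
      _ = g⁻¹ * (g * z) := by rw [hzc g]
      _ = z := by group
  rcases hw with rfl | rfl
  · rw [one_mul]
    exact ⟨hsq, hne1, hnez⟩
  · refine ⟨?_, ?_, ?_⟩
    · calc w * (g * t * g⁻¹) * (w * (g * t * g⁻¹))
          = w * ((g * t * g⁻¹) * w) * (g * t * g⁻¹) := by group
        _ = w * (w * (g * t * g⁻¹)) * (g * t * g⁻¹) := by rw [hzc]
        _ = (w * w) * ((g * t * g⁻¹) * (g * t * g⁻¹)) := by group
        _ = 1 := by rw [hzz, hsq, one_mul]
    · intro h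
      apply hnez
      have : g * t * g⁻¹ = w⁻¹ := eq_inv_of_mul_eq_one_right h
      rw [this]
      exact inv_eq_of_mul_eq_one_left hzz
    · intro h
      exact hne1 (mul_eq_left.mp h)

/-- A finite `2`-group containing an elementary abelian subgroup of order `8` has a normal
four-subgroup `{1, z, e, z * e}` with `z` central. -/
theorem exists_normal_four [Finite P] (hP : IsPGroup 2 P) (V : Subgroup P) (hV : Nat.card V = 8)
    (hexp : ∀ v ∈ V, v * v = 1) :
    ∃ z e : P, z ∈ Subgroup.center P ∧ orderOf z = 2 ∧ orderOf e = 2 ∧ e ≠ z ∧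
      ∀ g : P, g * e * g⁻¹ = e ∨ g * e * g⁻¹ = z * e := by
  classical
  haveI : Fact (Nat.Prime 2) := ⟨Nat.prime_two⟩
  haveI : Nontrivial P := by
    have hVn : Nontrivial V := by
      apply (Finite.one_lt_card_iff_nontrivial).mp
      rw [hV]; norm_num
    obtain ⟨a, b, hab⟩ := hVn
    exact ⟨⟨a.1, b.1, fun h => hab (Subtype.ext h)⟩⟩
  haveI hcn : Nontrivial (Subgroup.center P) := hP.center_nontrivial
  obtain ⟨k, hk0, hk⟩ := (hP.to_subgroup (Subgroup.center P)).nontrivial_iff_card.mp hcn
  have h2c : 2 ∣ Nat.card (Subgroup.center P) := by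
    rw [hk]; exact dvd_pow_self 2 (ne_of_gt hk0)
  obtain ⟨⟨z, hzc⟩, hzo⟩ := exists_prime_orderOf_dvd_card' 2 h2c
  have hzo' : orderOf z = 2 := by
    rw [← hzo]; exact (Subgroup.orderOf_mk z hzc).symm
  have hz1 : z ≠ 1 := ne_one_of_orderOf_two hzo'
  have hzz : z * z = 1 := mul_self_of_orderOf_two hzo'
  have hzcomm : ∀ g : P, g * z = z * g := fun g => Subgroup.mem_center_iff.mp hzc g
  have hw : ∀ w : Subgroup.zpowers z, (w : P) = 1 ∨ (w : P) = z :=
    fun w => mem_zpowers_of_sq hzz w.2
  have hwc : ∀ (w : Subgroup.zpowers z) (g : P), g * (w : P) = (w : P) * g := by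
    intro w g
    rcases hw w with h | h <;> rw [h]
    · simp
    · exact hzcomm g
  letI : MulAction (P × Subgroup.zpowers z) {t : P // t * t = 1 ∧ t ≠ 1 ∧ t ≠ z} :=
    { smul := fun k t => ⟨(k.2 : P) * (k.1 * t.1 * k.1⁻¹), twist_mem hzcomm hzz (hw k.2) t.2 k.1⟩
      one_smul := fun t => Subtype.ext (by
        show (((1 : P × Subgroup.zpowers z).2 : Subgroup.zpowers z) : P) *
          ((1 : P × Subgroup.zpowers z).1 * t.1 * (1 : P × Subgroup.zpowers z).1⁻¹) = t.1
        simp)
      mul_smul := fun a b t => Subtype.ext (by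
        show (((a * b).2 : Subgroup.zpowers z) : P) * ((a * b).1 * t.1 * (a * b).1⁻¹)
          = (a.2 : P) * (a.1 * ((b.2 : P) * (b.1 * t.1 * b.1⁻¹)) * a.1⁻¹)
        simp only [Prod.fst_mul, Prod.snd_mul, Subgroup.coe_mul, mul_inv_rev]
        calc (a.2 : P) * (b.2 : P) * (a.1 * b.1 * t.1 * (b.1⁻¹ * a.1⁻¹))
            = (a.2 : P) * ((b.2 : P) * a.1) * (b.1 * t.1 * b.1⁻¹) * a.1⁻¹ := by group
          _ = (a.2 : P) * (a.1 * (b.2 : P)) * (b.1 * t.1 * b.1⁻¹) * a.1⁻¹ := by rw [hwc b.2 a.1]
          _ = (a.2 : P) * (a.1 * ((b.2 : P) * (b.1 * t.1 * b.1⁻¹)) * a.1⁻¹) := by group) }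
  -- the set has size ≡ 2 mod 4
  have hcardY : ¬ 4 ∣ Nat.card {t : P // t * t = 1 ∧ t ≠ 1 ∧ t ≠ z} := by
    have h4 := four_dvd_card_sq_eq_one V hV hexp
    letI := Fintype.ofFinite P
    rw [Nat.card_eq_fintype_card, Fintype.card_subtype] at h4 ⊢
    have hY : (Finset.univ.filter (fun t : P => t * t = 1 ∧ t ≠ 1 ∧ t ≠ z))
        = ((Finset.univ.filter (fun t : P => t * t = 1)).erase 1).erase z := by
      ext t
      simp only [Finset.mem_filter, Finset.mem_erase, Finset.mem_univ, true_and]
      tauto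
    have h1mem : (1 : P) ∈ Finset.univ.filter (fun t : P => t * t = 1) := by simp
    have hzmem : z ∈ (Finset.univ.filter (fun t : P => t * t = 1)).erase 1 := by
      simp [hz1, hzz]
    rw [hY, Finset.card_erase_of_mem hzmem, Finset.card_erase_of_mem h1mem]
    have hpos : 2 ≤ (Finset.univ.filter (fun t : P => t * t = 1)).card := by
      have := Finset.card_pos.mpr ⟨z, hzmem⟩
      rw [Finset.card_erase_of_mem h1mem] at this
      omega
    omega
  obtain ⟨y, hy⟩ : ∃ y : {t : P // t * t = 1 ∧ t ≠ 1 ∧ t ≠ z},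
      ¬ 4 ∣ (MulAction.stabilizer (P × Subgroup.zpowers z) y).index := by
    by_contra hcon
    push Not at hcon
    exact hcardY (dvd_card_of_dvd_index 4 hcon)
  -- the index is 1 or 2
  have hidx : (MulAction.stabilizer (P × Subgroup.zpowers z) y).index = 1 ∨
      (MulAction.stabilizer (P × Subgroup.zpowers z) y).index = 2 := by
    obtain ⟨n, hn⟩ := IsPGroup.iff_card.mp hP
    have hdvd := Subgroup.index_dvd_card (MulAction.stabilizer (P × Subgroup.zpowers z) y)
    rw [Nat.card_prod, Nat.card_zpowers, hzo', hn, ← pow_succ] at hdvd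
    obtain ⟨j, -, hj⟩ := (Nat.dvd_prime_pow Nat.prime_two).mp hdvd
    rw [hj] at hy ⊢
    rcases j with _ | _ | j
    · left; rfl
    · right; rfl
    · exfalso
      apply hy
      rw [pow_succ, pow_succ, mul_assoc]
      exact Dvd.intro_left _ rfl
  set zK : P × Subgroup.zpowers z := (1, ⟨z, Subgroup.mem_zpowers z⟩) with hzK
  have hzK_not : zK ∉ MulAction.stabilizer (P × Subgroup.zpowers z) y := by
    intro h
    rw [MulAction.mem_stabilizer_iff] at h
    have h1 : z * (1 * y.1 * 1⁻¹) = y.1 := congrArg Subtype.val h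
    rw [one_mul, inv_one, mul_one] at h1
    exact hz1 (mul_eq_right.mp h1)
  have hidx2 : (MulAction.stabilizer (P × Subgroup.zpowers z) y).index = 2 := by
    rcases hidx with h | h
    · exfalso
      rw [Subgroup.index_eq_one] at h
      exact hzK_not (h ▸ Subgroup.mem_top _)
    · exact h
  refine ⟨z, y.1, hzc, hzo', orderOf_two_iff.mpr ⟨y.2.2.1, y.2.1⟩, y.2.2.2, ?_⟩
  intro g
  have key := Subgroup.mul_mem_iff_of_index_two hidx2 (a := zK)
    (b := ((g, 1) : P × Subgroup.zpowers z))
  by_cases hg : ((g, 1) : P × Subgroup.zpowers z) ∈ MulAction.stabilizer (P × Subgroup.zpowers z) y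
  · left
    rw [MulAction.mem_stabilizer_iff] at hg
    have h1 : ((1 : Subgroup.zpowers z) : P) * (g * y.1 * g⁻¹) = y.1 := congrArg Subtype.val hg
    rw [Subgroup.coe_one, one_mul] at h1
    exact h1
  · right
    have h2 : zK * ((g, 1) : P × Subgroup.zpowers z) ∈
        MulAction.stabilizer (P × Subgroup.zpowers z) y := by
      rw [key]
      exact ⟨fun h => absurd h hzK_not, fun h => absurd h hg⟩
    rw [MulAction.mem_stabilizer_iff] at h2
    have h1 : ((zK * ((g, 1) : P × Subgroup.zpowers z)).2 : P) *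
        ((zK * ((g, 1) : P × Subgroup.zpowers z)).1 * y.1 *
          (zK * ((g, 1) : P × Subgroup.zpowers z)).1⁻¹) = y.1 := congrArg Subtype.val h2
    simp only [hzK, Prod.mk_mul_mk, one_mul, mul_one] at h1
    have h3 : z * (g * y.1 * g⁻¹) = y.1 := h1
    calc g * y.1 * g⁻¹ = (z * z) * (g * y.1 * g⁻¹) := by rw [hzz, one_mul]
      _ = z * (z * (g * y.1 * g⁻¹)) := by rw [mul_assoc]
      _ = z * y.1 := by rw [h3]

end NormalFour

section Adjoin

variable {P : Type*} [Group P]

theorem comm_of_mul_mem {A : Subgroup P} {c : P} (hc : c * c = 1)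
    (hcomm : ∀ a ∈ A, c * a = a * c) {b : P} (hb : c * b ∈ A) : c * b = b * c := by
  have h := hcomm _ hb
  -- c * (c * b) = c * b * c
  rw [← mul_assoc, hc, one_mul] at h
  -- b = c * b * c
  calc c * b = c * b * (c * c) := by rw [hc, mul_one]
    _ = (c * b * c) * c := by group
    _ = b * c := by rw [← h]

/-- The subgroup `A ∪ c A` for an involution `c` centralizing `A`. -/
def adjoinInv (A : Subgroup P) (c : P) (hc : c * c = 1) (hcomm : ∀ a ∈ A, c * a = a * c) :
    Subgroup P where
  carrier := {b | b ∈ A ∨ c * b ∈ A}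
  one_mem' := Or.inl A.one_mem
  mul_mem' := by
    rintro a b (ha | ha) (hb | hb)
    · exact Or.inl (A.mul_mem ha hb)
    · right
      have : c * (a * b) = a * (c * b) := by rw [← mul_assoc, hcomm a ha, mul_assoc]
      show c * (a * b) ∈ A
      rw [this]
      exact A.mul_mem ha hb
    · right
      show c * (a * b) ∈ A
      rw [← mul_assoc]
      exact A.mul_mem ha hb
    · left
      have h1 := comm_of_mul_mem hc hcomm ha
      have : a * b = (c * a) * (c * b) := by
        calc a * b = (c * c) * a * b := by rw [hc, one_mul]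
          _ = c * (c * a) * b := by group
          _ = c * (a * c) * b := by rw [h1]
          _ = (c * a) * (c * b) := by group
      show a * b ∈ A
      rw [this]
      exact A.mul_mem ha hb
  inv_mem' := by
    rintro b (hb | hb)
    · exact Or.inl (A.inv_mem hb)
    · right
      have h1 := comm_of_mul_mem hc hcomm hb
      have hcinv : c⁻¹ = c := inv_eq_of_mul_eq_one_left hc
      have : c * b⁻¹ = (c * b)⁻¹ := by
        rw [h1, mul_inv_rev, hcinv]
      show c * b⁻¹ ∈ A
      rw [this]
      exact A.inv_mem hb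

theorem mem_adjoinInv {A : Subgroup P} {c : P} {hc : c * c = 1}
    {hcomm : ∀ a ∈ A, c * a = a * c} {b : P} :
    b ∈ adjoinInv A c hc hcomm ↔ b ∈ A ∨ c * b ∈ A := Iff.rfl

theorem le_adjoinInv (A : Subgroup P) (c : P) (hc : c * c = 1)
    (hcomm : ∀ a ∈ A, c * a = a * c) : A ≤ adjoinInv A c hc hcomm := fun _ ha => Or.inl ha

theorem self_mem_adjoinInv (A : Subgroup P) (c : P) (hc : c * c = 1)
    (hcomm : ∀ a ∈ A, c * a = a * c) : c ∈ adjoinInv A c hc hcomm :=
  Or.inr (by rw [hc]; exact A.one_mem)

theorem sq_adjoinInv {A : Subgroup P} {c : P} {hc : c * c = 1}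
    {hcomm : ∀ a ∈ A, c * a = a * c} (hA : ∀ a ∈ A, a * a = 1) :
    ∀ b ∈ adjoinInv A c hc hcomm, b * b = 1 := by
  rintro b (hb | hb)
  · exact hA b hb
  · have h1 := comm_of_mul_mem hc hcomm hb
    have h2 := hA _ hb
    calc b * b = (c * c) * (b * b) := by rw [hc, one_mul]
      _ = c * (c * b) * b := by group
      _ = c * (b * c) * b := by rw [h1]
      _ = (c * b) * (c * b) := by group
      _ = 1 := h2

theorem comm_adjoinInv {A : Subgroup P} {c : P} {hc : c * c = 1}
    {hcomm : ∀ a ∈ A, c * a = a * c} (g : P) (hgA : ∀ a ∈ A, g * a = a * g)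
    (hgc : g * c = c * g) : ∀ b ∈ adjoinInv A c hc hcomm, g * b = b * g := by
  rintro b (hb | hb)
  · exact hgA b hb
  · have h1 := hgA _ hb
    have h2 : c * (g * b) = c * (b * g) := by
      calc c * (g * b) = (g * c) * b := by rw [hgc, mul_assoc]
        _ = g * (c * b) := by rw [mul_assoc]
        _ = c * b * g := h1
        _ = c * (b * g) := by rw [mul_assoc]
    exact mul_left_cancel h2

theorem card_adjoinInv [Finite P] {A : Subgroup P} {c : P} {hc : c * c = 1}
    {hcomm : ∀ a ∈ A, c * a = a * c} (hcA : c ∉ A) :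
    Nat.card (adjoinInv A c hc hcomm) = 2 * Nat.card A := by
  have hbij : Function.Bijective (fun s : A ⊕ A =>
      (Sum.elim (fun a : A => (⟨(a : P), Or.inl a.2⟩ : adjoinInv A c hc hcomm))
        (fun a : A => (⟨c * (a : P), Or.inr (by
          show c * (c * (a : P)) ∈ A
          rw [← mul_assoc, hc, one_mul]; exact a.2)⟩ : adjoinInv A c hc hcomm)) s)) := by
    constructor
    · rintro (a | a) (b | b) hab
      · have h1 : (a : P) = (b : P) :=
          congrArg (fun w : adjoinInv A c hc hcomm => (w : P)) hab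
        rw [Subtype.ext h1]
      · exfalso
        have h1 : (a : P) = c * (b : P) :=
          congrArg (fun w : adjoinInv A c hc hcomm => (w : P)) hab
        apply hcA
        have : c = (a : P) * (b : P)⁻¹ := by rw [h1]; group
        rw [this]
        exact A.mul_mem a.2 (A.inv_mem b.2)
      · exfalso
        have h1 : c * (a : P) = (b : P) :=
          congrArg (fun w : adjoinInv A c hc hcomm => (w : P)) hab
        apply hcA
        have : c = (b : P) * (a : P)⁻¹ := by rw [← h1]; group
        rw [this]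
        exact A.mul_mem b.2 (A.inv_mem a.2)
      · have h1 : c * (a : P) = c * (b : P) :=
          congrArg (fun w : adjoinInv A c hc hcomm => (w : P)) hab
        rw [Subtype.ext (mul_left_cancel h1)]
    · rintro ⟨b, hb | hb⟩
      · exact ⟨Sum.inl ⟨b, hb⟩, rfl⟩
      · refine ⟨Sum.inr ⟨c * b, hb⟩, ?_⟩
        apply Subtype.ext
        show c * (c * b) = b
        rw [← mul_assoc, hc, one_mul]
  rw [← Nat.card_congr (Equiv.ofBijective _ hbij), Nat.card_sum, two_mul]

end Adjoin

end Cfsg.Agent.Helper4
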