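import Mathlib
import Cfsg.Prelude.Def_Characters
import Cfsg.Prelude.Def_Blocks
import Cfsg.Agent.Helper8.S4504Defs
import Cfsg.Agent.Helper15.BergerB1
import Cfsg.Agent.Helper79.Quotient
import Cfsg.Agent.Helper81.CharBasic
import Cfsg.Agent.S4503
import Cfsg.Agent.Helper4.S4504SING

/-!
# S4504 piece RED, part c (helper4): a faithful character of degree `(p - 1) / 2` of a group
satisfying `S4504Grp` is irreducible.
-/

set_option autoImplicit false
open Cfsg Cfsg.Agent.Helper8
open scoped ComplexConjugate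

universe u

namespace Cfsg.Agent.Helper4

/-- the quotient of an `S4504Grp` group by a normal subgroup not containing `x` has order
divisible by `p` exactly once and no normal subgroup of order `p` -/
theorem s4504r_quot {H : Type u} [Group H] [Finite H] (p : ℕ) [Fact p.Prime] (x : H)
    (hg : S4504Grp p x) (L : Subgroup H) [L.Normal] (hxL : x ∉ L) :
    p ∣ Nat.card (H ⧸ L) ∧ ¬ p ^ 2 ∣ Nat.card (H ⧸ L) ∧
      ∀ M : Subgroup (H ⧸ L), M.Normal → Nat.card M ≠ p := by
  have hp : p.Prime := Fact.out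
  have hLc : L ≤ Subgroup.center H := hg.hcen L inferInstance hxL
  have hxbar : orderOf ((x : H) : H ⧸ L) = p := by
    have h1 : orderOf ((x : H) : H ⧸ L) ∣ p := by
      rw [← hg.hx]
      exact orderOf_map_dvd (QuotientGroup.mk' L) x
    rcases (Nat.dvd_prime hp).mp h1 with h2 | h2
    · exfalso
      rw [orderOf_eq_one_iff] at h2
      exact hxL ((QuotientGroup.eq_one_iff x).mp h2)
    · exact h2
  have hcard : Nat.card H = Nat.card (H ⧸ L) * Nat.card L :=
    Subgroup.card_eq_card_quotient_mul_card_subgroup L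
  refine ⟨?_, ?_, ?_⟩
  · rw [← hxbar]
    exact orderOf_dvd_natCard _
  · intro h
    apply hg.hsq
    rw [hcard]
    exact Dvd.dvd.mul_right h _
  · intro M hM hMp
    set M' : Subgroup H := M.comap (QuotientGroup.mk' L) with hM'
    have hM'n : M'.Normal := hM.comap _
    by_cases hxM : x ∈ M'
    · -- `M' = ⊤`, so `H ⧸ L` has order `p` and `H` is abelian
      have htop := hg.htop M' hM'n hxM
      have hMtop : M = ⊤ := by
        rw [eq_top_iff]
        intro q _
        obtain ⟨g, rfl⟩ := QuotientGroup.mk_surjective q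
        have : g ∈ M' := by rw [htop]; trivial
        exact this
      have hcardq : Nat.card (H ⧸ L) = p := by
        rw [← hMp, hMtop, Subgroup.card_top]
      haveI : IsCyclic (H ⧸ L) := isCyclic_of_prime_card hcardq
      have hcomm : ∀ a b : H, a * b = b * a :=
        commutative_of_cyclic_center_quotient (QuotientGroup.mk' L)
          (by rw [QuotientGroup.ker_mk']; exact hLc)
      apply hg.hnn
      refine ⟨fun n hn g => ?_⟩
      rw [hcomm g n, mul_inv_cancel_right]
      exact hn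
    · -- `M'` is central and contains an element of order `p`
      have hM'c : M' ≤ Subgroup.center H := hg.hcen M' hM'n hxM
      haveI : Fact p.Prime := ⟨hp⟩
      have hMne : ∃ q : H ⧸ L, q ∈ M ∧ orderOf q = p := by
        obtain ⟨q, hq⟩ := exists_prime_orderOf_dvd_card' (G := M) p (by rw [hMp])
        exact ⟨(q : H ⧸ L), q.2, by rw [Subgroup.orderOf_coe]; exact hq⟩
      obtain ⟨q, hqM, hq⟩ := hMne
      obtain ⟨m, rfl⟩ := QuotientGroup.mk_surjective q
      have hmM' : m ∈ M' := hqM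
      have hpm : p ∣ orderOf m := by
        rw [← hq]
        exact orderOf_map_dvd (QuotientGroup.mk' L) m
      have hy : orderOf (m ^ (orderOf m / p)) = p :=
        orderOf_pow_orderOf_div (orderOf_pos m).ne' hpm
      have hyM' : m ^ (orderOf m / p) ∈ M' := Subgroup.pow_mem _ hmM' _
      have hyc : m ^ (orderOf m / p) ∈ Subgroup.center H := hM'c hyM'
      have hxy : x ∈ Subgroup.zpowers (m ^ (orderOf m / p)) :=
        s4504s_mem_zpowers p hg.hsq hy hg.hx
          ((Subgroup.mem_center_iff.mp hyc x).symm)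
      exact hxM ((Subgroup.zpowers_le.mpr hyM') hxy)

/-- RED, irreducibility: a faithful character of degree `(p - 1) / 2` of a group satisfying
`S4504Grp` is irreducible -/
theorem s4504_red_irr {H : Type u} [Group H] [Finite H] (p : ℕ) [Fact p.Prime] (x : H)
    (hg : S4504Grp p x) (χ : H → ℂ) (hχ : Cfsg.IsCharacter H χ)
    (hfaith : ∀ g : H, χ g = χ 1 → g = 1) (hdeg : 2 * Cfsg.charDegree χ + 1 = p) :
    Cfsg.IsIrrCharacter H χ := by
  classical
  have hp : p.Prime := Fact.out
  haveI : Fintype H := Fintype.ofFinite H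
  haveI : Fintype (IrrCharacter H) := Fintype.ofFinite _
  obtain ⟨m, hm, hsum⟩ := Cfsg.Agent.Helper15.char_decomp χ hχ
  have hx1 : x ≠ 1 := by
    rintro rfl
    have := hg.hx
    rw [orderOf_one] at this
    exact hp.one_lt.ne this
  have hval : ∀ g : H, χ g = ∑ φ : IrrCharacter H, (m φ : ℂ) * (φ : H → ℂ) g := by
    intro g
    conv_lhs => rw [hsum]
    simp [Finset.sum_apply]
  -- a constituent not containing `x` in its kernel
  have hex : ∃ φ : IrrCharacter H, m φ ≠ 0 ∧ (φ : H → ℂ) x ≠ (φ : H → ℂ) 1 := by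
    by_contra hno
    push Not at hno
    apply hx1
    apply hfaith
    rw [hval x, hval 1]
    apply Finset.sum_congr rfl
    intro φ _
    by_cases h0 : m φ = 0
    · simp [h0]
    · rw [hno φ h0]
  obtain ⟨φ, hmφ, hφx⟩ := hex
  have hφc : Cfsg.IsCharacter H (φ : H → ℂ) := Cfsg.Agent.Helper15.isChar_of_irr φ.2
  have hdegle : Cfsg.charDegree (φ : H → ℂ) ≤ Cfsg.charDegree χ := by
    apply Cfsg.Agent.Helper15.charDegree_le_of_constituent χ hχ (φ : H → ℂ) φ.2
    rw [hm φ]
    exact_mod_cast hmφ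
  -- the kernel of `φ`
  set L : Subgroup H := Cfsg.Agent.Helper79.charKer hφc with hL
  haveI hLn : L.Normal := Cfsg.Agent.Helper79.charKer_normal hφc
  have hxL : x ∉ L := fun h => hφx ((Cfsg.Agent.Helper79.mem_charKer hφc x).mp h)
  obtain ⟨hdiv, hsq, hnn⟩ := s4504r_quot p x hg L hxL
  obtain ⟨ψ, hψ, hψφ⟩ := Cfsg.Agent.Helper79.exists_irr_deflation L φ.2
    (fun y hy => (Cfsg.Agent.Helper79.mem_charKer hφc y).mp hy)
  have hψ1 : ψ 1 = (φ : H → ℂ) 1 := hψφ 1
  have hψfaith : ∀ q : H ⧸ L, ψ q = ψ 1 → q = 1 := by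
    intro q hq
    obtain ⟨g, rfl⟩ := QuotientGroup.mk_surjective q
    rw [hψφ g, hψ1] at hq
    exact (QuotientGroup.eq_one_iff g).mpr ((Cfsg.Agent.Helper79.mem_charKer hφc g).mpr hq)
  have hbound := Cfsg.Agent.S4503.result p hp hdiv hsq hnn ψ
    (Cfsg.Agent.Helper15.isChar_of_irr hψ) hψfaith
  have hdegψ : Cfsg.charDegree ψ = Cfsg.charDegree (φ : H → ℂ) := by
    unfold Cfsg.charDegree
    rw [hψ1]
  rw [hdegψ] at hbound
  have hdegeq : Cfsg.charDegree (φ : H → ℂ) = Cfsg.charDegree χ := by omega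
  -- `χ = m φ • φ` and then `m φ = 1`
  have hsm := Cfsg.Agent.Helper15.char_eq_smul_of_degree_le χ hχ (φ : H → ℂ) φ.2 (m φ) (hm φ)
    (by rw [hdegeq]; exact Nat.le_mul_of_pos_left _ (Nat.pos_of_ne_zero hmφ))
  have hone : χ 1 = (m φ : ℂ) * (φ : H → ℂ) 1 := by
    conv_lhs => rw [hsm]
    rfl
  rw [Cfsg.Agent.Helper79.isCharacter_one_eq_charDegree hχ,
    Cfsg.Agent.Helper79.isCharacter_one_eq_charDegree hφc, hdegeq] at hone
  have hpos : 0 < Cfsg.charDegree χ := by
    have := hp.two_le
    omega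
  have hm1 : m φ = 1 := by
    have h1 : (Cfsg.charDegree χ : ℂ) ≠ 0 := by exact_mod_cast hpos.ne'
    have h2 : ((m φ : ℂ) - 1) * (Cfsg.charDegree χ : ℂ) = 0 := by
      rw [sub_mul, one_mul, ← hone, sub_self]
    have h3 : (m φ : ℂ) - 1 = 0 := by
      rcases mul_eq_zero.mp h2 with h | h
      · exact h
      · exact absurd h h1
    have h4 : (m φ : ℂ) = 1 := sub_eq_zero.mp h3
    exact_mod_cast h4
  have hfin : χ = (φ : H → ℂ) := by
    rw [hsm, hm1]
    simp
  rw [hfin]
  exact φ.2

end Cfsg.Agent.Helper4
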