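import Mathlib
import Cfsg.Agent.Helper71.SODefs
import Cfsg.Agent.Helper4.T4CRCore

/-!
# Helper4: piece CL (`cubic_image`) of CALL S5843
-/

set_option autoImplicit false

namespace Cfsg.Agent.Helper4.SOCL

open Matrix Cfsg.Agent.Helper71.T4 Cfsg.Agent.Helper71.SO Cfsg.Agent.Helper4.T4CRCore
open scoped Kronecker

variable {F : Type*} [Field F] {n : ℕ}

theorem vmv_mul {b : ℕ} (u v w x : Fin b → F) :
    vecMulVec u v * vecMulVec w x = (v ⬝ᵥ w) • vecMulVec u x := by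
  rw [Matrix.vecMulVec_mul_vecMulVec]
  ext i j
  simp only [Matrix.vecMulVec_apply, Matrix.smul_apply, Pi.smul_apply, smul_eq_mul]
  ring

theorem one_kron_sub {a b : ℕ} (X Y : Matrix (Fin b) (Fin b) F) :
    (1 : Matrix (Fin a) (Fin a) F) ⊗ₖ (X - Y) =
      (1 : Matrix (Fin a) (Fin a) F) ⊗ₖ X - (1 : Matrix (Fin a) (Fin a) F) ⊗ₖ Y := by
  ext ⟨i, k⟩ ⟨j, l⟩
  simp [mul_sub]

theorem one_kron_eq_zero {a b : ℕ} (ha : 1 ≤ a) (X : Matrix (Fin b) (Fin b) F)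
    (h : (1 : Matrix (Fin a) (Fin a) F) ⊗ₖ X = 0) : X = 0 := by
  ext k l
  have := congrFun (congrFun h (⟨0, ha⟩, k)) (⟨0, ha⟩, l)
  simpa [Matrix.kronecker_apply] using this

theorem blk_smul_mat {a b : ℕ} (c : F) (z : Matrix (Fin a × Fin b) (Fin a × Fin b) F)
    (β w : Fin b → F) : blk (c • z) β w = c • blk z β w := by
  ext i j
  simp only [blk_apply, Matrix.smul_apply, smul_eq_mul, Finset.mul_sum]
  refine Finset.sum_congr rfl fun k _ => Finset.sum_congr rfl fun l _ => ?_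
  ring

/-- If `A ⊗ B - 1` is conjugate to `1 ⊗ X` with `X` of rank at most two and `2a < b`, then `A`
is scalar. -/
theorem cl_scalar {a b : ℕ} (ha : 1 ≤ a) (hab : 2 * a < b)
    (G Gi : Matrix (Fin a × Fin b) (Fin a × Fin b) F)
    (A : Matrix (Fin a) (Fin a) F) (B : Matrix (Fin b) (Fin b) F)
    (hdet : (A ⊗ₖ B).det ≠ 0) (p₁ q₁ p₂ q₂ : Fin b → F)
    (hconj : G * ((1 : Matrix (Fin a) (Fin a) F) ⊗ₖ vecMulVec p₁ q₁) * Gi -
      G * ((1 : Matrix (Fin a) (Fin a) F) ⊗ₖ vecMulVec p₂ q₂) * Gi = A ⊗ₖ B - 1) :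
    ∃ c : F, A = c • (1 : Matrix (Fin a) (Fin a) F) := by
  classical
  by_contra hsc
  obtain ⟨u, α, hαu, hαAu⟩ := exists_of_not_scalar ha A hsc
  have hE : ∀ β' w'' : Fin b → F,
      blk G β' p₁ * blk Gi q₁ w'' - blk G β' p₂ * blk Gi q₂ w'' =
        (β' ⬝ᵥ B *ᵥ w'') • A - (β' ⬝ᵥ w'') • (1 : Matrix (Fin a) (Fin a) F) := by
    intro β' w''
    rw [← blk_mul_vmv_mul, ← blk_mul_vmv_mul, ← blk_sub_mat, hconj, blk_sub_mat, blk_kron, blk_one]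
  let f : (Fin b → F) →ₗ[F] ((Fin a → F) × (Fin a → F)) :=
    { toFun := fun v => (blk Gi q₁ v *ᵥ u, blk Gi q₂ v *ᵥ u)
      map_add' := by
        intro x y
        simp only [blk_add_right, Matrix.add_mulVec, Prod.mk_add_mk]
      map_smul' := by
        intro c x
        simp only [blk_smul_right, Matrix.smul_mulVec, RingHom.id_apply, Prod.smul_mk] }
  have hk : LinearMap.ker f ≠ ⊥ := by
    apply LinearMap.ker_ne_bot_of_finrank_lt
    simp only [Module.finrank_prod, Module.finrank_pi, Fintype.card_fin]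
    omega
  obtain ⟨v, hv, hv0⟩ := (Submodule.ne_bot_iff _).1 hk
  have hv' : blk Gi q₁ v *ᵥ u = 0 ∧ blk Gi q₂ v *ᵥ u = 0 := by
    have := LinearMap.mem_ker.1 hv
    exact ⟨congrArg Prod.fst this, congrArg Prod.snd this⟩
  have hBv : B *ᵥ v = 0 := by
    ext k
    have h1 := congrArg (fun X : Matrix (Fin a) (Fin a) F => α ⬝ᵥ (X *ᵥ u)) (hE (Pi.single k 1) v)
    simp only [Matrix.sub_mulVec, ← Matrix.mulVec_mulVec, hv'.1, hv'.2, Matrix.mulVec_zero,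
      sub_zero, dotProduct_zero, Matrix.smul_mulVec, Matrix.one_mulVec, dotProduct_sub,
      dotProduct_smul, hαu, hαAu, smul_eq_mul, mul_zero, mul_one, single_dotProduct, one_mul]
      at h1
    rw [Pi.zero_apply]
    exact h1.symm
  have hdetB : B.det = 0 := Matrix.exists_mulVec_eq_zero_iff.mp ⟨v, hv0, hBv⟩
  apply hdet
  rw [Matrix.det_kronecker, hdetB]
  simp only [Fintype.card_fin]
  rw [zero_pow (by omega), mul_zero]

/-- If `1 ⊗ θ` is, up to conjugation by `G`, a non-zero multiple of `1 ⊗ (u dᵀ)`, then `G` maps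
`F^a ⊗ u` into `F^a ⊗ u'` with `u'` in the image of `θ`. -/
theorem cl_line {a b : ℕ} (ha : 1 ≤ a) (G Gi : Matrix (Fin a × Fin b) (Fin a × Fin b) F)
    (hGGi : G * Gi = 1) (hGiG : Gi * G = 1) (θ : Matrix (Fin b) (Fin b) F) (u d : Fin b → F)
    (hu : u ≠ 0) (hd : d ≠ 0) (c₀ : F) (hc₀ : c₀ ≠ 0)
    (h : ((1 : Matrix (Fin a) (Fin a) F) ⊗ₖ θ) * G =
      c₀ • (G * ((1 : Matrix (Fin a) (Fin a) F) ⊗ₖ vecMulVec u d))) :
    ∃ (u' z₀ : Fin b → F), u' ≠ 0 ∧ u' = θ *ᵥ z₀ ∧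
      ∀ a₂ : Fin a → F, ∃ a' : Fin a → F, G *ᵥ pt a₂ u = pt a' u' := by
  classical
  have h1 : (1 : Matrix (Fin a) (Fin a) F) ⊗ₖ θ =
      c₀ • (G * ((1 : Matrix (Fin a) (Fin a) F) ⊗ₖ vecMulVec u d) * Gi) := by
    have h' := congrArg (· * Gi) h
    simp only [Matrix.mul_assoc, hGGi, Matrix.mul_one, Matrix.smul_mul] at h'
    rw [h']
    simp only [Matrix.mul_assoc]
  have hθ : θ ≠ 0 := by
    intro h0
    rw [h0, Matrix.kronecker_zero, Matrix.zero_mul] at h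
    have h2 : G * ((1 : Matrix (Fin a) (Fin a) F) ⊗ₖ vecMulVec u d) = 0 := by
      have h' := h.symm
      rwa [smul_eq_zero, or_iff_right hc₀] at h'
    have h3 : (1 : Matrix (Fin a) (Fin a) F) ⊗ₖ vecMulVec u d = 0 := by
      have h' := congrArg (Gi * ·) h2
      simpa [← Matrix.mul_assoc, hGiG] using h'
    have h4 := one_kron_eq_zero ha _ h3
    obtain ⟨k, hk⟩ : ∃ k, u k ≠ 0 := by
      by_contra hh
      push Not at hh
      exact hu (funext hh)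
    obtain ⟨l, hl⟩ : ∃ l, d l ≠ 0 := by
      by_contra hh
      push Not at hh
      exact hd (funext hh)
    have h5 := congrFun (congrFun h4 k) l
    rw [Matrix.vecMulVec_apply] at h5
    exact mul_ne_zero hk hl h5
  obtain ⟨k, l, hkl⟩ : ∃ k l, θ k l ≠ 0 := by
    by_contra hh
    push Not at hh
    exact hθ (by ext k l; exact hh k l)
  have hu' : θ *ᵥ Pi.single l 1 ≠ 0 := by
    intro h0
    have h5 := congrFun h0 k
    rw [Matrix.mulVec_single_one] at h5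
    exact hkl h5
  obtain ⟨β₀, hβ₀⟩ := exists_dot_eq_one (θ *ᵥ Pi.single l 1) hu'
  have hblk : ∀ β' w'' : Fin b → F, (β' ⬝ᵥ θ *ᵥ w'') • (1 : Matrix (Fin a) (Fin a) F) =
      c₀ • (blk G β' u * blk Gi d w'') := by
    intro β' w''
    rw [← blk_mul_vmv_mul, ← blk_smul_mat, ← h1, blk_kron]
  have hPQ : blk G β₀ u * (c₀ • blk Gi d (Pi.single l 1)) = 1 := by
    have h5 := hblk β₀ (Pi.single l 1)
    rw [dotProduct_comm, hβ₀, one_smul] at h5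
    rw [Matrix.mul_smul]
    exact h5.symm
  have hQP : (c₀ • blk Gi d (Pi.single l 1)) * blk G β₀ u = 1 := mul_eq_one_comm.1 hPQ
  have hperp : ∀ β' : Fin b → F, β' ⬝ᵥ (θ *ᵥ Pi.single l 1) = 0 → blk G β' u = 0 := by
    intro β' hβ'
    have h5 := hblk β' (Pi.single l 1)
    rw [hβ', zero_smul] at h5
    have h6 : blk G β' u * (c₀ • blk Gi d (Pi.single l 1)) = 0 := by
      rw [Matrix.mul_smul]
      exact h5.symm
    calc blk G β' u = blk G β' u * ((c₀ • blk Gi d (Pi.single l 1)) * blk G β₀ u) := by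
          rw [hQP, Matrix.mul_one]
      _ = 0 := by rw [← Matrix.mul_assoc, h6, Matrix.zero_mul]
  have hgen : ∀ β : Fin b → F, blk G β u = (β ⬝ᵥ (θ *ᵥ Pi.single l 1)) • blk G β₀ u := by
    intro β
    have h7 := hperp (β - (β ⬝ᵥ (θ *ᵥ Pi.single l 1)) • β₀) (by
      rw [sub_dotProduct, smul_dotProduct, dotProduct_comm β₀, hβ₀, smul_eq_mul, mul_one, sub_self])
    rw [blk_sub_left, blk_smul_left, sub_eq_zero] at h7
    exact h7
  refine ⟨θ *ᵥ Pi.single l 1, Pi.single l 1, hu', rfl, fun a₂ => ⟨blk G β₀ u *ᵥ a₂, ?_⟩⟩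
  ext ⟨i, k'⟩
  rw [mulVec_pt, hgen, Matrix.smul_mulVec]
  simp [pt, mul_comm]

theorem cl_sing (S ν : Matrix (Fin n) (Fin n) F) (hiso : (1 + ν)ᵀ * S * (1 + ν) = S) :
    νᵀ * S * (1 + ν) = -(S * ν) := by
  have h1 : (1 + ν)ᵀ * S * (1 + ν) = S * (1 + ν) + νᵀ * S * (1 + ν) := by
    rw [Matrix.transpose_add, Matrix.transpose_one, Matrix.add_mul, Matrix.add_mul, Matrix.one_mul]
  rw [h1] at hiso
  have h2 : νᵀ * S * (1 + ν) = S - S * (1 + ν) := eq_sub_of_add_eq' hiso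
  rw [h2, Matrix.mul_add, Matrix.mul_one]
  abel

theorem cl_sing1 (S ν : Matrix (Fin n) (Fin n) F) (hiso : (1 + ν)ᵀ * S * (1 + ν) = S)
    (h2 : ν * ν = 0) : νᵀ * S * ν = 0 := by
  have h := cl_sing S ν hiso
  have e : νᵀ * S * ν = νᵀ * S * (1 + ν) * ν := by
    rw [Matrix.mul_assoc (νᵀ * S) (1 + ν) ν, Matrix.add_mul, Matrix.one_mul, h2, add_zero]
  rw [e, h, Matrix.neg_mul, Matrix.mul_assoc, h2, Matrix.mul_zero, neg_zero]

theorem cl_sing2 (S ν : Matrix (Fin n) (Fin n) F) (hiso : (1 + ν)ᵀ * S * (1 + ν) = S)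
    (h3 : ν * ν * ν = 0) : (ν * ν)ᵀ * S * (ν * ν) = 0 := by
  have h := cl_sing S ν hiso
  have e1 : (1 + ν) * (ν * ν) = ν * ν := by
    rw [Matrix.add_mul, Matrix.one_mul, ← Matrix.mul_assoc, h3, add_zero]
  have e : (ν * ν)ᵀ * S * (ν * ν) = νᵀ * (νᵀ * S * (1 + ν)) * (ν * ν) := by
    rw [Matrix.transpose_mul]
    conv_lhs => rw [← e1]
    simp only [Matrix.mul_assoc]
  rw [e, h, Matrix.mul_neg, Matrix.neg_mul, Matrix.mul_assoc, Matrix.mul_assoc,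
    ← Matrix.mul_assoc ν ν ν, h3, Matrix.mul_zero, Matrix.mul_zero, neg_zero]

theorem cl_bl_zero (S θ : Matrix (Fin n) (Fin n) F) (h : θᵀ * S * θ = 0) (z : Fin n → F) :
    bl S (θ *ᵥ z) (θ *ᵥ z) = 0 := by
  unfold bl
  have e : (θ *ᵥ z) ⬝ᵥ S *ᵥ (θ *ᵥ z) = z ⬝ᵥ (θᵀ * S * θ) *ᵥ z := by
    rw [← Matrix.mulVec_mulVec, ← Matrix.mulVec_mulVec, Matrix.dotProduct_mulVec z θᵀ,
      Matrix.vecMul_transpose]
  rw [e, h, Matrix.zero_mulVec, dotProduct_zero]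

theorem cubic_image (hn : 5 ≤ n) (h2 : (2 : F) ≠ 0) (S : Matrix (Fin n) (Fin n) F)
    (hS : Sᵀ = S) (u w : Fin n → F) (hu : u ≠ 0) (huu : bl S u u = 0) (huw : bl S u w = 0)
    (hww : bl S w w ≠ 0) (γ γ' : Matrix (Fin 2 × Fin n) (Fin 2 × Fin n) F)
    (hγ : γ * γ' = 1) (hγ' : γ' * γ = 1)
    (hK : IsKron (γ * ((1 : Matrix (Fin 2) (Fin 2) F) ⊗ₖ ruw S u w) * γ'))
    (hsp : IsSpM S (γ * ((1 : Matrix (Fin 2) (Fin 2) F) ⊗ₖ ruw S u w) * γ')) :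
    ∃ u' : Fin n → F, u' ≠ 0 ∧ bl S u' u' = 0 ∧
      ∀ a : Fin 2 → F, ∃ a' : Fin 2 → F, γ *ᵥ pt a u = pt a' u' := by
  classical
  obtain ⟨A, B, hAB⟩ := hK
  obtain ⟨sa, hsa⟩ : ∃ sa : Fin n → F, sa = S *ᵥ u := ⟨_, rfl⟩
  obtain ⟨sb, hsb⟩ : ∃ sb : Fin n → F, sb = S *ᵥ w := ⟨_, rfl⟩
  obtain ⟨κ, hκ⟩ : ∃ κ : F, κ = bl S w w := ⟨_, rfl⟩
  have hua : sa ⬝ᵥ u = 0 := by rw [hsa, dotProduct_comm]; exact huu
  have hub : sb ⬝ᵥ u = 0 := by rw [hsb, dotProduct_comm]; exact huw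
  have hwa : sa ⬝ᵥ w = 0 := by
    have e : sa ⬝ᵥ w = u ⬝ᵥ S *ᵥ w := by
      rw [hsa, Matrix.dotProduct_mulVec, ← Matrix.mulVec_transpose, hS]
    rw [e]
    exact huw
  have hwb : sb ⬝ᵥ w = κ := by rw [hsb, hκ, dotProduct_comm]; rfl
  obtain ⟨c₁, hc₁⟩ : ∃ c₁ : Fin n → F, c₁ = sb - (2⁻¹ * κ) • sa := ⟨_, rfl⟩
  have hc₁u : c₁ ⬝ᵥ u = 0 := by
    rw [hc₁, sub_dotProduct, smul_dotProduct, hub, hua, smul_zero, sub_zero]
  have hc₁w : c₁ ⬝ᵥ w = κ := by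
    rw [hc₁, sub_dotProduct, smul_dotProduct, hwb, hwa, smul_zero, sub_zero]
  obtain ⟨E, hE⟩ : ∃ E : Matrix (Fin n) (Fin n) F, E = vecMulVec u c₁ - vecMulVec w sa := ⟨_, rfl⟩
  have hr : ruw S u w = 1 + E := by
    unfold ruw Nuw
    rw [← hsa, ← hsb]
    have hNN : (vecMulVec u sb - vecMulVec w sa) * (vecMulVec u sb - vecMulVec w sa) =
        (-κ) • vecMulVec u sa := by
      simp only [Matrix.sub_mul, Matrix.mul_sub, vmv_mul, hub, hua, hwa,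
        hwb, zero_smul, sub_zero, zero_sub, neg_smul, sub_self]
    rw [hNN, hE, hc₁]
    ext i j
    simp only [Matrix.add_apply, Matrix.sub_apply, Matrix.smul_apply, Matrix.vecMulVec_apply,
      Pi.sub_apply, Pi.smul_apply, smul_eq_mul]
    ring
  have hEE : E * E = (-κ) • vecMulVec u sa := by
    rw [hE]
    simp only [Matrix.sub_mul, Matrix.mul_sub, vmv_mul, hc₁u, hc₁w, hua,
      hwa, zero_smul, sub_zero, zero_sub, neg_smul, sub_self]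
  have hEEE : E * E * E = 0 := by
    rw [hEE, hE, Matrix.smul_mul, Matrix.mul_sub, vmv_mul,
      vmv_mul, hua, hwa, zero_smul, zero_smul, sub_zero, smul_zero]
  have hτ : (1 : Matrix (Fin 2) (Fin 2) F) ⊗ₖ ruw S u w =
      1 + (1 : Matrix (Fin 2) (Fin 2) F) ⊗ₖ E := by
    rw [hr, Matrix.kronecker_add, Matrix.one_kronecker_one]
  have hconj : γ * ((1 : Matrix (Fin 2) (Fin 2) F) ⊗ₖ E) * γ' = A ⊗ₖ B - 1 := by
    rw [← hAB, hτ, Matrix.mul_add, Matrix.mul_one, Matrix.add_mul, hγ, add_sub_cancel_left]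
  have hdet : (A ⊗ₖ B).det ≠ 0 := by
    have e0 : (1 + E) * (1 - E + E * E) = 1 := by
      have e00 : (1 + E) * (1 - E + E * E) = 1 + E * E * E := by
        simp only [Matrix.add_mul, Matrix.mul_add, Matrix.mul_sub, Matrix.one_mul, Matrix.mul_one,
          Matrix.mul_assoc]
        abel
      rw [e00, hEEE, add_zero]
    have e1 : (1 + (1 : Matrix (Fin 2) (Fin 2) F) ⊗ₖ E) *
        ((1 : Matrix (Fin 2) (Fin 2) F) ⊗ₖ (1 - E + E * E)) = 1 := by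
      rw [← hτ, hr, ← Matrix.mul_kronecker_mul, Matrix.one_mul, e0, Matrix.one_kronecker_one]
    have hinv : (A ⊗ₖ B) * (γ * ((1 : Matrix (Fin 2) (Fin 2) F) ⊗ₖ (1 - E + E * E)) * γ') = 1 := by
      rw [← hAB, hτ]
      calc γ * (1 + (1 : Matrix (Fin 2) (Fin 2) F) ⊗ₖ E) * γ' *
            (γ * ((1 : Matrix (Fin 2) (Fin 2) F) ⊗ₖ (1 - E + E * E)) * γ')
          = γ * ((1 + (1 : Matrix (Fin 2) (Fin 2) F) ⊗ₖ E) * ((γ' * γ) *
              ((1 : Matrix (Fin 2) (Fin 2) F) ⊗ₖ (1 - E + E * E)))) * γ' := by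
            simp only [Matrix.mul_assoc]
        _ = 1 := by rw [hγ', Matrix.one_mul, e1, Matrix.mul_one, hγ]
    intro h0
    have h' := congrArg Matrix.det hinv
    rw [Matrix.det_mul, h0, zero_mul, Matrix.det_one] at h'
    exact zero_ne_one h'
  have hsc := cl_scalar (a := 2) (b := n) (by norm_num) (by omega) γ γ' A B hdet u c₁ w sa (by
    rw [← Matrix.sub_mul, ← Matrix.mul_sub, ← one_kron_sub, ← hE]
    exact hconj)
  obtain ⟨c, rfl⟩ := hsc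
  obtain ⟨ν, hν⟩ : ∃ ν : Matrix (Fin n) (Fin n) F, ν = c • B - 1 := ⟨_, rfl⟩
  have hcB : (c • (1 : Matrix (Fin 2) (Fin 2) F)) ⊗ₖ B = (1 : Matrix (Fin 2) (Fin 2) F) ⊗ₖ (c • B) := by
    rw [Matrix.smul_kronecker, Matrix.kronecker_smul]
  have hconj' : γ * ((1 : Matrix (Fin 2) (Fin 2) F) ⊗ₖ E) * γ' =
      (1 : Matrix (Fin 2) (Fin 2) F) ⊗ₖ ν := by
    rw [hconj, hν, one_kron_sub, Matrix.one_kronecker_one, hcB]
  have hcomm : ((1 : Matrix (Fin 2) (Fin 2) F) ⊗ₖ ν) * γ =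
      γ * ((1 : Matrix (Fin 2) (Fin 2) F) ⊗ₖ E) := by
    rw [← hconj', Matrix.mul_assoc, hγ', Matrix.mul_one]
  have hkk : ∀ X Y : Matrix (Fin n) (Fin n) F, (1 : Matrix (Fin 2) (Fin 2) F) ⊗ₖ (X * Y) =
      ((1 : Matrix (Fin 2) (Fin 2) F) ⊗ₖ X) * ((1 : Matrix (Fin 2) (Fin 2) F) ⊗ₖ Y) := by
    intro X Y
    rw [← Matrix.mul_kronecker_mul, Matrix.one_mul]
  have hcomm2 : ((1 : Matrix (Fin 2) (Fin 2) F) ⊗ₖ (ν * ν)) * γ =
      γ * ((1 : Matrix (Fin 2) (Fin 2) F) ⊗ₖ (E * E)) := by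
    rw [hkk, hkk, Matrix.mul_assoc, hcomm, ← Matrix.mul_assoc, hcomm, Matrix.mul_assoc]
  have hzero : ∀ X : Matrix (Fin n) (Fin n) F,
      ((1 : Matrix (Fin 2) (Fin 2) F) ⊗ₖ X) * γ = 0 → X = 0 := by
    intro X hX
    apply one_kron_eq_zero (a := 2) (by norm_num)
    have h' := congrArg (· * γ') hX
    simpa [Matrix.mul_assoc, hγ] using h'
  have hν3 : ν * ν * ν = 0 := by
    apply hzero
    rw [hkk, Matrix.mul_assoc, hcomm, ← Matrix.mul_assoc, hcomm2, Matrix.mul_assoc, ← hkk, hEEE,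
      Matrix.kronecker_zero, Matrix.mul_zero]
  have hiso : (1 + ν)ᵀ * S * (1 + ν) = S := by
    have h1 : (1 : Matrix (Fin n) (Fin n) F) + ν = c • B := by rw [hν]; abel
    rw [h1]
    unfold IsSpM Om at hsp
    rw [hAB, hcB] at hsp
    have e1 : ((1 : Matrix (Fin 2) (Fin 2) F) ⊗ₖ (c • B))ᵀ * (J2 F ⊗ₖ S) *
        ((1 : Matrix (Fin 2) (Fin 2) F) ⊗ₖ (c • B)) = J2 F ⊗ₖ ((c • B)ᵀ * S * (c • B)) := by
      have e2 : ((1 : Matrix (Fin 2) (Fin 2) F) ⊗ₖ (c • B))ᵀ =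
          (1 : Matrix (Fin 2) (Fin 2) F) ⊗ₖ (c • B)ᵀ := by
        rw [← Matrix.kroneckerMap_transpose, Matrix.transpose_one]
      rw [e2, ← Matrix.mul_kronecker_mul, ← Matrix.mul_kronecker_mul, Matrix.one_mul, Matrix.mul_one]
    rw [e1] at hsp
    ext k l
    have h' := congrFun (congrFun hsp (0, k)) (1, l)
    simpa [Matrix.kronecker_apply, J2] using h'
  by_cases ha0 : sa = 0
  · have hE' : E = vecMulVec u c₁ := by
      rw [hE, ha0]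
      ext i j
      simp [Matrix.vecMulVec_apply]
    have hc₁0 : c₁ ≠ 0 := by
      intro h0
      rw [h0, zero_dotProduct] at hc₁w
      exact hww (by rw [← hκ, ← hc₁w])
    have hνν : ν * ν = 0 := by
      apply hzero
      rw [hcomm2, hEE, ha0]
      have e3 : vecMulVec u (0 : Fin n → F) = 0 := by
        ext i j
        simp [Matrix.vecMulVec_apply]
      rw [e3, smul_zero, Matrix.kronecker_zero, Matrix.mul_zero]
    obtain ⟨u', z₀, hu'0, hu'z, himg⟩ := cl_line (a := 2) (by norm_num) γ γ' hγ hγ' ν u c₁ hu hc₁0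
      1 one_ne_zero (by rw [one_smul, hcomm, hE'])
    refine ⟨u', hu'0, ?_, himg⟩
    rw [hu'z]
    exact cl_bl_zero S ν (cl_sing1 S ν hiso hνν) z₀
  · obtain ⟨u', z₀, hu'0, hu'z, himg⟩ := cl_line (a := 2) (by norm_num) γ γ' hγ hγ' (ν * ν) u sa hu
      ha0 (-κ) (neg_ne_zero.mpr (by rw [hκ]; exact hww))
      (by rw [hcomm2, hEE, Matrix.kronecker_smul, Matrix.mul_smul])
    refine ⟨u', hu'0, ?_, himg⟩
    rw [hu'z]
    exact cl_bl_zero S (ν * ν) (cl_sing2 S ν hiso hν3) z₀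

end Cfsg.Agent.Helper4.SOCL
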