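import Mathlib
import Cfsg.Agent.Helper71.SODefs
import Cfsg.Agent.Helper39.T4LX2

/-!
# Helper4: piece V1 (`tvp_of_not_ns1`) of CALL S5843
-/

set_option autoImplicit false

namespace Cfsg.Agent.Helper4.SOV1

open Matrix Cfsg.Agent.Helper71.T4 Cfsg.Agent.Helper71.SO
open scoped Kronecker

variable {F : Type*} [Field F] {n : ℕ}

theorem vmv_mul' {b : ℕ} (u v w x : Fin b → F) :
    vecMulVec u v * vecMulVec w x = (v ⬝ᵥ w) • vecMulVec u x := by
  rw [Matrix.vecMulVec_mul_vecMulVec]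
  ext i j
  simp only [Matrix.vecMulVec_apply, Matrix.smul_apply, Pi.smul_apply, smul_eq_mul]
  ring

theorem vmv_mulVec {b : ℕ} (u v w : Fin b → F) : vecMulVec u v *ᵥ w = (v ⬝ᵥ w) • u := by
  ext i
  simp only [Matrix.mulVec, dotProduct, Matrix.vecMulVec_apply, Pi.smul_apply, smul_eq_mul,
    Finset.sum_mul]
  exact Finset.sum_congr rfl fun k _ => by ring

theorem conj_kron (P P' C : Matrix (Fin 2) (Fin 2) F) (Q Q' N : Matrix (Fin n) (Fin n) F)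
    (hP : P * P' = 1) (hQ : Q * Q' = 1) :
    (P ⊗ₖ Q) * (1 + C ⊗ₖ N) * (P' ⊗ₖ Q') = 1 + (P * C * P') ⊗ₖ (Q * N * Q') := by
  rw [Matrix.mul_add, Matrix.mul_one, Matrix.add_mul, ← Matrix.mul_kronecker_mul,
    ← Matrix.mul_kronecker_mul, ← Matrix.mul_kronecker_mul, hP, hQ, Matrix.one_kronecker_one]

theorem bl_comm (S : Matrix (Fin n) (Fin n) F) (hS : Sᵀ = S) (x y : Fin n → F) :
    bl S x y = bl S y x := by
  unfold bl
  rw [Matrix.dotProduct_mulVec, ← Matrix.mulVec_transpose, hS, dotProduct_comm]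

theorem bl_iso (S Y : Matrix (Fin n) (Fin n) F) (h : Yᵀ * S * Y = S) (x y : Fin n → F) :
    bl S (Y *ᵥ x) (Y *ᵥ y) = bl S x y := by
  unfold bl
  have e : (Y *ᵥ x) ⬝ᵥ S *ᵥ (Y *ᵥ y) = x ⬝ᵥ (Yᵀ * S * Y) *ᵥ y := by
    rw [← Matrix.mulVec_mulVec, ← Matrix.mulVec_mulVec, Matrix.dotProduct_mulVec x Yᵀ,
      Matrix.vecMul_transpose]
  rw [e, h]

theorem iso_conj (S : Matrix (Fin n) (Fin n) F) (hS : Sᵀ = S) (B B' : Matrix (Fin n) (Fin n) F)
    (hBB' : B * B' = 1) (hB : Bᵀ * S * B = S) (u : Fin n → F) :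
    B * vecMulVec u (S *ᵥ u) * B' = vecMulVec (B *ᵥ u) (S *ᵥ (B *ᵥ u)) := by
  have h1 : Bᵀ * S = S * B' := by
    have h' := congrArg (· * B') hB
    simp only [Matrix.mul_assoc, hBB', Matrix.mul_one] at h'
    exact h'
  have h2 : B'ᵀ * S = S * B := by
    have h' := congrArg Matrix.transpose h1
    rw [Matrix.transpose_mul, Matrix.transpose_mul, Matrix.transpose_transpose, hS] at h'
    exact h'.symm
  rw [Matrix.mul_vecMulVec, Matrix.vecMulVec_mul]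
  congr 1
  rw [← Matrix.mulVec_transpose, Matrix.mulVec_mulVec, h2, ← Matrix.mulVec_mulVec]

/-- `1 ⊗ Y` symplectic for `J2 ⊗ S` means `Y` is an isometry of `S`. -/
theorem iso_of_sp (S Y : Matrix (Fin n) (Fin n) F)
    (hsp : IsSpM S ((1 : Matrix (Fin 2) (Fin 2) F) ⊗ₖ Y)) : Yᵀ * S * Y = S := by
  unfold IsSpM Om at hsp
  have e1 : ((1 : Matrix (Fin 2) (Fin 2) F) ⊗ₖ Y)ᵀ * (J2 F ⊗ₖ S) *
      ((1 : Matrix (Fin 2) (Fin 2) F) ⊗ₖ Y) = J2 F ⊗ₖ (Yᵀ * S * Y) := by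
    have e2 : ((1 : Matrix (Fin 2) (Fin 2) F) ⊗ₖ Y)ᵀ =
        (1 : Matrix (Fin 2) (Fin 2) F) ⊗ₖ Yᵀ := by
      rw [← Matrix.kroneckerMap_transpose, Matrix.transpose_one]
    rw [e2, ← Matrix.mul_kronecker_mul, ← Matrix.mul_kronecker_mul, Matrix.one_mul, Matrix.mul_one]
  rw [e1] at hsp
  ext k l
  have h' := congrFun (congrFun hsp (0, k)) (1, l)
  simpa [Matrix.kronecker_apply, J2] using h'

theorem two_sq [Finite F] (h2 : (2 : F) ≠ 0) (c : F) : ∃ x y : F, x ^ 2 + y ^ 2 = c := by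
  classical
  haveI : Fintype F := Fintype.ofFinite F
  have hch : ringChar F ≠ 2 := by
    intro h
    apply h2
    have h' := CharP.cast_eq_zero F (ringChar F)
    rw [h] at h'
    exact_mod_cast h'
  obtain ⟨a, b, hab⟩ := FiniteField.exists_root_sum_quadratic (R := F)
    (f := Polynomial.X ^ 2) (g := Polynomial.X ^ 2 - Polynomial.C c)
    (Polynomial.degree_X_pow 2) (Polynomial.degree_X_pow_sub_C (by norm_num) c)
    (FiniteField.odd_card_of_char_ne_two hch)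
  refine ⟨a, b, ?_⟩
  simp only [Polynomial.eval_pow, Polynomial.eval_X, Polynomial.eval_sub, Polynomial.eval_C] at hab
  linear_combination hab

theorem pq_mul (P Q : Matrix (Fin n) (Fin n) F) (hPP : P * P = P) (hPQ : P * Q = 0)
    (hQP : Q * P = 0) (hQQ : Q * Q = Q) (a b c d : F) :
    (1 + a • P + b • Q) * (1 + c • P + d • Q) =
      1 + (a + c + a * c) • P + (b + d + b * d) • Q := by
  simp only [Matrix.add_mul, Matrix.mul_add, Matrix.one_mul, Matrix.mul_one, Matrix.smul_mul,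
    Matrix.mul_smul, hPP, hPQ, hQP, hQQ, smul_zero, add_zero, smul_smul]
  module

/-- The hyperbolic rotation `B_l` of a hyperbolic pair `u₀, u₁`. -/
def Bl (S : Matrix (Fin n) (Fin n) F) (u₀ u₁ : Fin n → F) (l : F) : Matrix (Fin n) (Fin n) F :=
  1 + (l - 1) • vecMulVec u₀ (S *ᵥ u₁) + (l⁻¹ - 1) • vecMulVec u₁ (S *ᵥ u₀)

section Hyp

variable (S : Matrix (Fin n) (Fin n) F) (hS : Sᵀ = S) (u₀ u₁ : Fin n → F)
  (h00 : bl S u₀ u₀ = 0) (h11 : bl S u₁ u₁ = 0) (h01 : bl S u₀ u₁ = 1)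

include hS h00 h11 h01

theorem Bl_mul (l : F) (hl : l ≠ 0) : Bl S u₀ u₁ l * Bl S u₀ u₁ l⁻¹ = 1 := by
  have d10 : (S *ᵥ u₁) ⬝ᵥ u₀ = 1 := by rw [dotProduct_comm]; exact h01
  have d11 : (S *ᵥ u₁) ⬝ᵥ u₁ = 0 := by rw [dotProduct_comm]; exact h11
  have d00 : (S *ᵥ u₀) ⬝ᵥ u₀ = 0 := by rw [dotProduct_comm]; exact h00
  have d01 : (S *ᵥ u₀) ⬝ᵥ u₁ = 1 := by
    rw [dotProduct_comm]
    have := bl_comm S hS u₁ u₀
    unfold bl at this
    rw [this]
    exact h01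
  unfold Bl
  rw [pq_mul _ _ (by rw [vmv_mul', d10, one_smul]) (by rw [vmv_mul', d11, zero_smul])
    (by rw [vmv_mul', d00, zero_smul]) (by rw [vmv_mul', d01, one_smul])]
  have e1 : l - 1 + (l⁻¹ - 1) + (l - 1) * (l⁻¹ - 1) = 0 := by
    field_simp
    ring
  have e2 : l⁻¹ - 1 + (l⁻¹⁻¹ - 1) + (l⁻¹ - 1) * (l⁻¹⁻¹ - 1) = 0 := by
    rw [inv_inv]
    field_simp
    ring
  rw [e1, e2, zero_smul, zero_smul, add_zero, add_zero]

theorem Bl_mulVec (l : F) : Bl S u₀ u₁ l *ᵥ u₀ = l • u₀ := by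
  have d10 : (S *ᵥ u₁) ⬝ᵥ u₀ = 1 := by rw [dotProduct_comm]; exact h01
  have d00 : (S *ᵥ u₀) ⬝ᵥ u₀ = 0 := by rw [dotProduct_comm]; exact h00
  unfold Bl
  rw [Matrix.add_mulVec, Matrix.add_mulVec, Matrix.one_mulVec, Matrix.smul_mulVec,
    Matrix.smul_mulVec, vmv_mulVec, vmv_mulVec, d10, d00, one_smul, zero_smul, smul_zero, add_zero]
  module

theorem Bl_iso (l : F) (hl : l ≠ 0) : (Bl S u₀ u₁ l)ᵀ * S * Bl S u₀ u₁ l = S := by
  have hP : (vecMulVec u₀ (S *ᵥ u₁))ᵀ * S = S * vecMulVec u₁ (S *ᵥ u₀) := by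
    have e : (vecMulVec u₀ (S *ᵥ u₁))ᵀ = vecMulVec (S *ᵥ u₁) u₀ := by
      ext i j
      simp [Matrix.vecMulVec_apply, mul_comm]
    rw [e, Matrix.vecMulVec_mul, Matrix.mul_vecMulVec, ← Matrix.mulVec_transpose, hS]
  have hQ : (vecMulVec u₁ (S *ᵥ u₀))ᵀ * S = S * vecMulVec u₀ (S *ᵥ u₁) := by
    have e : (vecMulVec u₁ (S *ᵥ u₀))ᵀ = vecMulVec (S *ᵥ u₀) u₁ := by
      ext i j
      simp [Matrix.vecMulVec_apply, mul_comm]
    rw [e, Matrix.vecMulVec_mul, Matrix.mul_vecMulVec, ← Matrix.mulVec_transpose, hS]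
  have h1 : (Bl S u₀ u₁ l)ᵀ * S = S * Bl S u₀ u₁ l⁻¹ := by
    unfold Bl
    rw [Matrix.transpose_add, Matrix.transpose_add, Matrix.transpose_one, Matrix.transpose_smul,
      Matrix.transpose_smul, Matrix.add_mul, Matrix.add_mul, Matrix.one_mul, Matrix.smul_mul,
      Matrix.smul_mul, hP, hQ, inv_inv, Matrix.mul_add, Matrix.mul_add, Matrix.mul_one,
      Matrix.mul_smul, Matrix.mul_smul]
    abel
  have h2 := Bl_mul S hS u₀ u₁ h00 h11 h01 l⁻¹ (inv_ne_zero hl)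
  rw [inv_inv] at h2
  rw [h1, Matrix.mul_assoc, h2, Matrix.mul_one]

end Hyp

theorem neg_kron (C : Matrix (Fin 2) (Fin 2) F) (N : Matrix (Fin n) (Fin n) F) :
    (-C) ⊗ₖ N = -(C ⊗ₖ N) := by
  ext ⟨i, k⟩ ⟨j, l⟩
  simp [Matrix.kronecker_apply]

theorem tvp_of_not_ns1 [Finite F] (h2 : (2 : F) ≠ 0) (S : Matrix (Fin n) (Fin n) F)
    (hS : Sᵀ = S) (hdet : S.det ≠ 0) (M : Subgroup (GL (Fin 2 × Fin n) F)) (hSp : SpLE S M)
    (hH : HasH S M) (hns : ¬ NS1 S M)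
    (hpar : ∀ u : Fin n → F, u ≠ 0 → bl S u u = 0 →
      ∃ u₁ : Fin n → F, bl S u₁ u₁ = 0 ∧ bl S u u₁ = 1)
    (htr : ∀ u u' : Fin n → F, u ≠ 0 → u' ≠ 0 → bl S u u = 0 → bl S u' u' = 0 →
      ∃ B : Matrix (Fin n) (Fin n) F, Bᵀ * S * B = S ∧ B *ᵥ u' = u) : TvP S M := by
  classical
  unfold NS1 at hns
  push Not at hns
  obtain ⟨C₀, u₀, hu₀, h00, hC₀M, hC₀⟩ := hns
  obtain ⟨u₁, h11, h01⟩ := hpar u₀ hu₀ h00
  have h10 : bl S u₁ u₀ = 1 := by rw [bl_comm S hS u₁ u₀]; exact h01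
  have d01 : (S *ᵥ u₀) ⬝ᵥ u₁ = 1 := by rw [dotProduct_comm]; exact h10
  obtain ⟨N0, hN0⟩ : ∃ N0 : Matrix (Fin n) (Fin n) F, N0 = vecMulVec u₀ (S *ᵥ u₀) := ⟨_, rfl⟩
  have hNN : N0 * N0 = 0 := by
    rw [hN0, vmv_mul']
    have h' : (S *ᵥ u₀) ⬝ᵥ u₀ = 0 := by rw [dotProduct_comm]; exact h00
    rw [h', zero_smul]
  have hprod : ∀ C C' : Matrix (Fin 2) (Fin 2) F,
      (1 + C ⊗ₖ N0) * (1 + C' ⊗ₖ N0) = 1 + (C + C') ⊗ₖ N0 := by
    intro C C'
    rw [Matrix.add_mul, Matrix.mul_add, Matrix.mul_add, Matrix.one_mul, Matrix.mul_one,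
      Matrix.one_mul, ← Matrix.mul_kronecker_mul, hNN, Matrix.kronecker_zero, add_zero,
      Matrix.add_kronecker]
    abel
  let 𝒞 : AddSubgroup (Matrix (Fin 2) (Fin 2) F) :=
    { carrier := {C | InM M (1 + C ⊗ₖ N0)}
      zero_mem' := by
        show InM M (1 + (0 : Matrix (Fin 2) (Fin 2) F) ⊗ₖ N0)
        rw [Matrix.zero_kronecker, add_zero]
        exact InM.one M
      add_mem' := by
        intro C C' hC hC'
        have h := InM.mul hC hC'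
        rw [hprod] at h
        exact h
      neg_mem' := by
        intro C hC
        apply InM.inv hC
        rw [hprod, add_neg_cancel, Matrix.zero_kronecker, add_zero] }
  have hmem : ∀ C, C ∈ 𝒞 ↔ InM M (1 + C ⊗ₖ N0) := fun C => Iff.rfl
  have hconj : ∀ (i j : Fin 2), i ≠ j → ∀ (c : F) (X : Matrix (Fin 2) (Fin 2) F), X ∈ 𝒞 →
      Matrix.transvection i j c * X * Matrix.transvection i j (-c) ∈ 𝒞 := by
    intro i j hij c X hX
    have hA : InM M (Matrix.transvection i j c ⊗ₖ (1 : Matrix (Fin n) (Fin n) F)) :=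
      hH _ 1 1 (by simp) (by rw [Matrix.det_transvection_of_ne _ _ hij, one_mul])
    have hA' : InM M (Matrix.transvection i j (-c) ⊗ₖ (1 : Matrix (Fin n) (Fin n) F)) :=
      hH _ 1 1 (by simp) (by rw [Matrix.det_transvection_of_ne _ _ hij, one_mul])
    have h := InM.mul (InM.mul hA ((hmem X).1 hX)) hA'
    rw [conj_kron _ _ _ _ _ _ (by rw [Matrix.transvection_mul_transvection_same _ _ hij,
      add_neg_cancel, Matrix.transvection_zero]) (Matrix.one_mul 1), Matrix.one_mul,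
      Matrix.mul_one] at h
    exact (hmem _).2 h
  have hsq : ∀ (l : F) (X : Matrix (Fin 2) (Fin 2) F), X ∈ 𝒞 → (l ^ 2) • X ∈ 𝒞 := by
    intro l X hX
    by_cases hl : l = 0
    · rw [hl, zero_pow (by norm_num), zero_smul]
      exact 𝒞.zero_mem
    · have hmul := Bl_mul S hS u₀ u₁ h00 h11 h01 l hl
      have hiso := Bl_iso S hS u₀ u₁ h00 h11 h01 l hl
      have hiso' := Bl_iso S hS u₀ u₁ h00 h11 h01 l⁻¹ (inv_ne_zero hl)
      have hB : InM M ((1 : Matrix (Fin 2) (Fin 2) F) ⊗ₖ Bl S u₀ u₁ l) :=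
        hH 1 _ 1 (by rw [hiso, one_smul]) (by rw [Matrix.det_one, one_mul])
      have hB' : InM M ((1 : Matrix (Fin 2) (Fin 2) F) ⊗ₖ Bl S u₀ u₁ l⁻¹) :=
        hH 1 _ 1 (by rw [hiso', one_smul]) (by rw [Matrix.det_one, one_mul])
      have h := InM.mul (InM.mul hB ((hmem X).1 hX)) hB'
      rw [conj_kron _ _ _ _ _ _ (Matrix.one_mul 1) hmul, Matrix.one_mul, Matrix.mul_one, hN0,
        iso_conj S hS _ _ hmul hiso u₀, Bl_mulVec S hS u₀ u₁ h00 h11 h01 l] at h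
      have e : X ⊗ₖ vecMulVec (l • u₀) (S *ᵥ (l • u₀)) = (l ^ 2 • X) ⊗ₖ N0 := by
        rw [hN0, Matrix.mulVec_smul, Matrix.smul_vecMulVec, Matrix.vecMulVec_smul, smul_smul,
          Matrix.kronecker_smul, Matrix.smul_kronecker, ← sq]
      rw [e] at h
      exact (hmem _).2 h
  have hs : ∀ (c : F) (X : Matrix (Fin 2) (Fin 2) F), X ∈ 𝒞 → c • X ∈ 𝒞 := by
    intro c X hX
    obtain ⟨x, y, hxy⟩ := two_sq h2 c
    rw [← hxy, add_smul]
    exact 𝒞.add_mem (hsq x X hX) (hsq y X hX)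
  have hl : ∃ l : F, l ≠ 0 ∧ l ≠ 1 :=
    ⟨-1, neg_ne_zero.mpr one_ne_zero, fun h => h2 (by linear_combination -h)⟩
  have hC₀mem : C₀ ∈ 𝒞 := by
    rw [hmem, hN0]
    exact hC₀M
  have hC₀ns : ¬ ∃ c : F, C₀ = c • (1 : Matrix (Fin 2) (Fin 2) F) := by
    rintro ⟨c, hc⟩
    apply hC₀
    obtain ⟨g, hg, hgm⟩ := hC₀M
    have hsp := hSp g hg
    rw [hgm, hc] at hsp
    have e : (1 : Matrix (Fin 2 × Fin n) (Fin 2 × Fin n) F) +
        (c • (1 : Matrix (Fin 2) (Fin 2) F)) ⊗ₖ vecMulVec u₀ (S *ᵥ u₀) =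
        (1 : Matrix (Fin 2) (Fin 2) F) ⊗ₖ (1 + c • vecMulVec u₀ (S *ᵥ u₀)) := by
      rw [Matrix.kronecker_add, Matrix.one_kronecker_one, Matrix.smul_kronecker,
        Matrix.kronecker_smul]
    rw [e] at hsp
    have hiso := iso_of_sp S _ hsp
    have h5 := bl_iso S _ hiso u₁ u₁
    have e2 : (1 + c • vecMulVec u₀ (S *ᵥ u₀)) *ᵥ u₁ = u₁ + c • u₀ := by
      rw [Matrix.add_mulVec, Matrix.one_mulVec, Matrix.smul_mulVec, vmv_mulVec, d01, one_smul]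
    rw [e2] at h5
    have e3 : bl S (u₁ + c • u₀) (u₁ + c • u₀) =
        bl S u₁ u₁ + c * bl S u₁ u₀ + c * bl S u₀ u₁ + c * c * bl S u₀ u₀ := by
      unfold bl
      simp only [Matrix.mulVec_add, Matrix.mulVec_smul, add_dotProduct, dotProduct_add,
        smul_dotProduct, dotProduct_smul, smul_eq_mul]
      ring
    rw [e3, h10, h01, h00, h11] at h5
    have hc0 : c = 0 := by
      have h6 : (2 : F) * c = 0 := by linear_combination h5
      rcases mul_eq_zero.1 h6 with h | h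
      · exact absurd h h2
      · exact h
    rw [hc, hc0, zero_smul]
  have hsingle := Cfsg.Agent.Helper39.T4LX2.lx2 𝒞 hconj hs hl C₀ hC₀mem hC₀ns
  have hDg : (Matrix.single 0 0 1 - Matrix.single 1 1 1 : Matrix (Fin 2) (Fin 2) F) ∈ 𝒞 := by
    have hR := hconj 1 0 (by decide) 1 _ (hsingle 0 1 (by decide) 1)
    have h6 := 𝒞.neg_mem (𝒞.add_mem (𝒞.sub_mem hR (hsingle 0 1 (by decide) 1))
      (hsingle 1 0 (by decide) 1))
    have e : -(Matrix.transvection (1 : Fin 2) 0 (1 : F) * Matrix.single 0 1 1 *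
        Matrix.transvection 1 0 (-1) - Matrix.single 0 1 1 + Matrix.single 1 0 1) =
        Matrix.single 0 0 1 - Matrix.single 1 1 1 := by
      ext i j
      fin_cases i <;> fin_cases j <;>
        simp [Matrix.transvection, Matrix.mul_apply, Fin.sum_univ_two, Matrix.single_apply]
    rw [e] at h6
    exact h6
  have htr0 : ∀ X : Matrix (Fin 2) (Fin 2) F, X 0 0 + X 1 1 = 0 → X ∈ 𝒞 := by
    intro X hX
    have e : X = Matrix.single 0 1 (X 0 1) + Matrix.single 1 0 (X 1 0) +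
        X 0 0 • (Matrix.single 0 0 1 - Matrix.single 1 1 1) := by
      ext i j
      fin_cases i <;> fin_cases j <;> simp [Matrix.single_apply]
      linear_combination hX
    rw [e]
    exact 𝒞.add_mem (𝒞.add_mem (hsingle 0 1 (by decide) _) (hsingle 1 0 (by decide) _))
      (hs _ _ hDg)
  intro a u c huu
  by_cases hu : u = 0
  · have e : (1 : Matrix (Fin 2 × Fin n) (Fin 2 × Fin n) F) +
        c • vecMulVec (pt a u) (Om S *ᵥ pt a u) = 1 := by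
      have e' : pt a u = 0 := by
        ext ⟨i, k⟩
        simp [pt, hu]
      rw [e']
      simp
    rw [e]
    exact InM.one M
  · obtain ⟨B, hB, hBu⟩ := htr u u₀ hu hu₀ huu h00
    have hBdet : B.det ≠ 0 := by
      intro h0
      have h' := congrArg Matrix.det hB
      rw [Matrix.det_mul, Matrix.det_mul, h0, mul_zero] at h'
      exact hdet h'.symm
    have hBB : B * B⁻¹ = 1 := Matrix.mul_nonsing_inv B (isUnit_iff_ne_zero.mpr hBdet)
    have hBM : InM M ((1 : Matrix (Fin 2) (Fin 2) F) ⊗ₖ B) :=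
      hH 1 B 1 (by rw [hB, one_smul]) (by rw [Matrix.det_one, one_mul])
    have hBM' : InM M ((1 : Matrix (Fin 2) (Fin 2) F) ⊗ₖ B⁻¹) :=
      InM.inv hBM (by rw [← Matrix.mul_kronecker_mul, Matrix.one_mul, hBB, Matrix.one_kronecker_one])
    have hC' : (c • vecMulVec a (J2 F *ᵥ a)) ∈ 𝒞 := by
      apply htr0
      simp [Matrix.vecMulVec_apply, J2, Matrix.mulVec, dotProduct, Fin.sum_univ_two]
      ring
    have h := InM.mul (InM.mul hBM ((hmem _).1 hC')) hBM'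
    rw [conj_kron _ _ _ _ _ _ (Matrix.one_mul 1) hBB, Matrix.one_mul, Matrix.mul_one, hN0,
      iso_conj S hS B B⁻¹ hBB hB u₀, hBu] at h
    have e : (1 : Matrix (Fin 2 × Fin n) (Fin 2 × Fin n) F) +
        c • vecMulVec (pt a u) (Om S *ᵥ pt a u) =
        1 + (c • vecMulVec a (J2 F *ᵥ a)) ⊗ₖ vecMulVec u (S *ᵥ u) := by
      congr 1
      unfold Om
      rw [kron_mulVec_pt]
      ext ⟨i, k⟩ ⟨j, l⟩
      simp only [Matrix.smul_apply, Matrix.vecMulVec_apply, pt, Matrix.kronecker_apply, smul_eq_mul]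
      ring
    rw [e]
    exact h

end Cfsg.Agent.Helper4.SOV1
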