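import Mathlib
import Cfsg.Agent.Helper4.SylowTwo

/-!
# Groups with a self-centralizing element of prime order (helper4)

`x` of prime order `p` with `centralizer {x} = zpowers x`.  Pure group theory (Mathlib only):
`zpowers x` is a Sylow `p`-subgroup, elements of order `p` are conjugate into it, counting of the
classes of elements of order `p`, and the cyclic structure of `N(P)/P`.
-/

set_option autoImplicit false

namespace Cfsg.Agent.Helper4

open Subgroup

section SelfCent

variable {G : Type*} [Group G] {p : ℕ} {x : G}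

theorem selfCent_card (hx : orderOf x = p) : Nat.card (zpowers x) = p := by
  rw [Nat.card_zpowers, hx]

theorem selfCent_comm {a b : G} (ha : a ∈ zpowers x) (hb : b ∈ zpowers x) : a * b = b * a := by
  obtain ⟨i, rfl⟩ := ha
  obtain ⟨j, rfl⟩ := hb
  rw [← zpow_add, ← zpow_add, add_comm]

theorem selfCent_orderOf_dvd (hx : orderOf x = p) {v : G} (hv : v ∈ zpowers x) :
    orderOf v ∣ p := by
  obtain ⟨i, rfl⟩ := hv
  apply orderOf_dvd_of_pow_eq_one
  rw [← zpow_natCast, ← zpow_mul, mul_comm, zpow_mul, zpow_natCast, ← hx, pow_orderOf_eq_one,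
    one_zpow]

theorem selfCent_orderOf (hp : p.Prime) (hx : orderOf x = p) {v : G} (hv : v ∈ zpowers x)
    (hv1 : v ≠ 1) : orderOf v = p := by
  rcases (Nat.dvd_prime hp).mp (selfCent_orderOf_dvd hx hv) with h | h
  · exact absurd (orderOf_eq_one_iff.mp h) hv1
  · exact h

theorem selfCent_zpowers_eq [Finite G] (hp : p.Prime) (hx : orderOf x = p) {v : G}
    (hv : v ∈ zpowers x) (hv1 : v ≠ 1) : zpowers v = zpowers x := by
  have hle : zpowers v ≤ zpowers x := (zpowers_le).mpr hv
  apply Subgroup.eq_of_le_of_card_ge hle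
  rw [Nat.card_zpowers, Nat.card_zpowers, hx, selfCent_orderOf hp hx hv hv1]

theorem selfCent_centralizer [Finite G] (hp : p.Prime) (hx : orderOf x = p)
    (hC : centralizer ({x} : Set G) = zpowers x) {v : G} (hv : v ∈ zpowers x) (hv1 : v ≠ 1) :
    centralizer ({v} : Set G) = zpowers x := by
  have hz := selfCent_zpowers_eq hp hx hv hv1
  ext g
  constructor
  · intro hg
    have hxv : x ∈ zpowers v := by rw [hz]; exact mem_zpowers x
    obtain ⟨j, hj⟩ := hxv
    have hcomm : Commute g v := mem_centralizer_singleton_iff.mp hg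
    rw [← hC, mem_centralizer_singleton_iff, ← hj]
    exact (hcomm.zpow_right j).eq
  · intro hg
    rw [mem_centralizer_singleton_iff]
    exact selfCent_comm hg hv

theorem selfCent_isPGroup (hx : orderOf x = p) : IsPGroup p (zpowers x) :=
  IsPGroup.of_card (n := 1) (by rw [selfCent_card hx, pow_one])

/-- `zpowers x` is a Sylow `p`-subgroup. -/
theorem selfCent_sylow [Finite G] (hp : p.Prime) (hx : orderOf x = p)
    (hC : centralizer ({x} : Set G) = zpowers x) :
    ∃ P : Sylow p G, (P : Subgroup G) = zpowers x := by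
  haveI : Fact p.Prime := ⟨hp⟩
  obtain ⟨S, hS⟩ := (selfCent_isPGroup hx).exists_le_sylow
  refine ⟨S, le_antisymm ?_ hS⟩
  have hxS : x ∈ (S : Subgroup G) := hS (mem_zpowers x)
  haveI : Nontrivial (S : Subgroup G) := ⟨⟨⟨x, hxS⟩, 1, by
    intro h
    have h1 : x = 1 := congrArg Subtype.val h
    rw [h1, orderOf_one] at hx
    exact hp.one_lt.ne hx⟩⟩
  haveI := S.isPGroup'.center_nontrivial
  obtain ⟨z, hz⟩ := exists_ne (1 : center (S : Subgroup G))
  have hzc : ∀ s : (S : Subgroup G), s * z.1 = z.1 * s := fun s => mem_center_iff.mp z.2 s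
  have hz1 : ((z.1 : (S : Subgroup G)) : G) ≠ 1 := by
    intro h
    apply hz
    apply Subtype.ext
    apply Subtype.ext
    exact h
  have hzx : ((z.1 : (S : Subgroup G)) : G) ∈ zpowers x := by
    rw [← hC, mem_centralizer_singleton_iff]
    exact (congrArg Subtype.val (hzc ⟨x, hxS⟩)).symm
  have hcz := selfCent_centralizer hp hx hC hzx hz1
  intro s hs
  rw [← hcz, mem_centralizer_singleton_iff]
  exact congrArg Subtype.val (hzc ⟨s, hs⟩)

/-- Every element of order `p` is conjugate into `zpowers x`. -/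
theorem selfCent_exists_conj [Finite G] (hp : p.Prime) (hx : orderOf x = p)
    (hC : centralizer ({x} : Set G) = zpowers x) {g : G} (hg : orderOf g = p) :
    ∃ h : G, h * g * h⁻¹ ∈ zpowers x := by
  haveI : Fact p.Prime := ⟨hp⟩
  obtain ⟨P, hP⟩ := selfCent_sylow hp hx hC
  have hpg : IsPGroup p (zpowers g) :=
    IsPGroup.of_card (n := 1) (by rw [Nat.card_zpowers, hg, pow_one])
  obtain ⟨h, hh⟩ := exists_conj_le_sylow P hpg
  exact ⟨h, hP ▸ hh g (mem_zpowers g)⟩

theorem selfCent_conj_ne_one {v g : G} (hv1 : v ≠ 1) : g * v * g⁻¹ ≠ 1 := by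
  intro h
  apply hv1
  have h2 : v = g⁻¹ * (g * v * g⁻¹) * g := by group
  rw [h2, h]
  group

/-- An element conjugating a nonidentity element of `zpowers x` into `zpowers x` normalizes. -/
theorem selfCent_mem_normalizer [Finite G] (hp : p.Prime) (hx : orderOf x = p) {v g : G}
    (hv : v ∈ zpowers x) (hv1 : v ≠ 1) (hg : g * v * g⁻¹ ∈ zpowers x) :
    g ∈ normalizer (zpowers x : Set G) := by
  have hz := selfCent_zpowers_eq hp hx hv hv1
  have hz' := selfCent_zpowers_eq hp hx hg (selfCent_conj_ne_one hv1)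
  rw [mem_normalizer_iff]
  intro a
  constructor
  · intro ha
    rw [← hz] at ha
    obtain ⟨k, rfl⟩ := ha
    rw [← hz']
    exact ⟨k, conj_zpow⟩
  · intro ha
    rw [← hz'] at ha
    obtain ⟨k, hk⟩ := ha
    rw [← hz]
    refine ⟨k, ?_⟩
    simp only at hk
    rw [conj_zpow] at hk
    exact mul_left_cancel (mul_right_cancel hk)

theorem selfCent_le_normalizer : zpowers x ≤ normalizer (zpowers x : Set G) :=
  le_normalizer

theorem selfCent_card_normalizer (hx : orderOf x = p) :
    Nat.card (normalizer (zpowers x : Set G)) =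
      p * (zpowers x).relIndex (normalizer (zpowers x : Set G)) := by
  have h := relIndex_mul_relIndex (H := (⊥ : Subgroup G)) (K := zpowers x)
    (L := normalizer (zpowers x : Set G)) bot_le le_normalizer
  rw [relIndex_bot_left, relIndex_bot_left, selfCent_card hx] at h
  exact h.symm

theorem selfCent_centralizer_set (hC : centralizer ({x} : Set G) = zpowers x) :
    centralizer ((zpowers x : Subgroup G) : Set G) = zpowers x := by
  ext g
  constructor
  · intro hg
    rw [← hC, mem_centralizer_singleton_iff]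
    exact (mem_centralizer_iff.mp hg x (mem_zpowers x)).symm
  · intro hg
    rw [mem_centralizer_iff]
    intro a ha
    exact selfCent_comm ha hg

/-- The number of classes of elements of order `p` times `|N(P) : P|` is `p - 1`. -/
theorem selfCent_card_classes [Finite G] (hp : p.Prime) (hx : orderOf x = p)
    (hC : centralizer ({x} : Set G) = zpowers x) :
    Nat.card {C : ConjClasses G // ∃ g ∈ C.carrier, orderOf g = p} *
      (zpowers x).relIndex (normalizer (zpowers x : Set G)) = p - 1 := by
  classical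
  have := Fintype.ofFinite G
  obtain ⟨e, he⟩ : ∃ e, e = (zpowers x).relIndex (normalizer (zpowers x : Set G)) := ⟨_, rfl⟩
  rw [← he]
  obtain ⟨Pf, hPf⟩ : ∃ Pf : Finset G, Pf = Finset.univ.filter (fun v => v ∈ zpowers x ∧ v ≠ 1) :=
    ⟨_, rfl⟩
  obtain ⟨Tf, hTf⟩ : ∃ Tf : Finset (ConjClasses G),
      Tf = Finset.univ.filter (fun C => ∃ g ∈ C.carrier, orderOf g = p) := ⟨_, rfl⟩
  have hmemP : ∀ v, v ∈ Pf ↔ v ∈ zpowers x ∧ v ≠ 1 := by
    intro v; rw [hPf]; simp
  have hP1 : (Finset.univ.filter (fun v : G => v ∈ zpowers x)).card = p := by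
    rw [← selfCent_card hx, Nat.card_eq_fintype_card, Fintype.card_subtype]
  have hPcard : Pf.card = p - 1 := by
    have h1 : Pf = (Finset.univ.filter (fun v : G => v ∈ zpowers x)).erase 1 := by
      ext v
      rw [hmemP, Finset.mem_erase, Finset.mem_filter]
      simp [and_comm]
    rw [h1, Finset.card_erase_of_mem (by simp [one_mem]), hP1]
  have hTcard : Nat.card {C : ConjClasses G // ∃ g ∈ C.carrier, orderOf g = p} = Tf.card := by
    rw [Nat.card_eq_fintype_card, Fintype.card_subtype, hTf]
  have hmaps : (Pf : Set G).MapsTo ConjClasses.mk Tf := by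
    intro v hv
    rw [Finset.mem_coe, hmemP] at hv
    rw [Finset.mem_coe, hTf, Finset.mem_filter]
    exact ⟨Finset.mem_univ _, v, ConjClasses.mem_carrier_mk, selfCent_orderOf hp hx hv.1 hv.2⟩
  have hNcard : (Finset.univ.filter (fun n : G => n ∈ normalizer (zpowers x : Set G))).card
      = p * e := by
    rw [he, ← selfCent_card_normalizer hx, Nat.card_eq_fintype_card, Fintype.card_subtype]
  have hfib : ∀ C ∈ Tf, (Pf.filter (fun v => ConjClasses.mk v = C)).card = e := by
    intro C hCT
    rw [hTf, Finset.mem_filter] at hCT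
    obtain ⟨-, g, hgC, hgo⟩ := hCT
    rw [ConjClasses.mem_carrier_iff_mk_eq] at hgC
    obtain ⟨h, hh⟩ := selfCent_exists_conj hp hx hC hgo
    have hg1 : g ≠ 1 := by
      intro h1
      rw [h1, orderOf_one] at hgo
      exact hp.one_lt.ne hgo
    obtain ⟨v₀, hv₀⟩ : ∃ v₀, v₀ = h * g * h⁻¹ := ⟨_, rfl⟩
    rw [← hv₀] at hh
    have hv₀1 : v₀ ≠ 1 := by rw [hv₀]; exact selfCent_conj_ne_one hg1
    have hmk : ConjClasses.mk v₀ = C := by
      rw [← hgC, ConjClasses.mk_eq_mk_iff_isConj, isConj_comm, isConj_iff]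
      exact ⟨h, hv₀.symm⟩
    have hcv := selfCent_centralizer hp hx hC hh hv₀1
    have hmapsN : ((Finset.univ.filter (fun n : G => n ∈ normalizer (zpowers x : Set G)) :
        Finset G) : Set G).MapsTo (fun n => n * v₀ * n⁻¹)
        (Pf.filter (fun v => ConjClasses.mk v = C)) := by
      intro n hn
      rw [Finset.mem_coe, Finset.mem_filter] at hn
      rw [Finset.mem_coe, Finset.mem_filter, hmemP]
      refine ⟨⟨(mem_normalizer_iff.mp hn.2 v₀).mp hh, selfCent_conj_ne_one hv₀1⟩, ?_⟩
      rw [← hmk, ConjClasses.mk_eq_mk_iff_isConj, isConj_comm, isConj_iff]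
      exact ⟨n, rfl⟩
    have hfib2 : ∀ w ∈ Pf.filter (fun v => ConjClasses.mk v = C),
        ((Finset.univ.filter (fun n : G => n ∈ normalizer (zpowers x : Set G))).filter
          (fun n => n * v₀ * n⁻¹ = w)).card = p := by
      intro w hw
      rw [Finset.mem_filter, hmemP] at hw
      obtain ⟨⟨hwP, hw1⟩, hwC⟩ := hw
      rw [← hmk, ConjClasses.mk_eq_mk_iff_isConj, isConj_comm, isConj_iff] at hwC
      obtain ⟨c, hc⟩ := hwC
      have hcN : c ∈ normalizer (zpowers x : Set G) :=
        selfCent_mem_normalizer hp hx hh hv₀1 (hc ▸ hwP)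
      rw [← hP1]
      symm
      apply Finset.card_bij (fun a _ => c * a)
      · intro a ha
        rw [Finset.mem_filter] at ha
        rw [Finset.mem_filter, Finset.mem_filter]
        refine ⟨⟨Finset.mem_univ _, mul_mem hcN (le_normalizer ha.2)⟩, ?_⟩
        have h1 : a * v₀ = v₀ * a := selfCent_comm ha.2 hh
        rw [← hc]
        calc c * a * v₀ * (c * a)⁻¹ = c * (a * v₀) * a⁻¹ * c⁻¹ := by group
          _ = c * v₀ * c⁻¹ := by rw [h1]; group
      · intro a _ b _ hab
        exact mul_left_cancel hab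
      · intro n hn
        rw [Finset.mem_filter, Finset.mem_filter] at hn
        obtain ⟨⟨-, hnN⟩, hnw⟩ := hn
        refine ⟨c⁻¹ * n, ?_, by group⟩
        rw [Finset.mem_filter]
        refine ⟨Finset.mem_univ _, ?_⟩
        rw [← hcv, mem_centralizer_singleton_iff]
        have h2 : n * v₀ * n⁻¹ = c * v₀ * c⁻¹ := by rw [hnw, hc]
        calc c⁻¹ * n * v₀ = c⁻¹ * (n * v₀ * n⁻¹) * n := by group
          _ = v₀ * (c⁻¹ * n) := by rw [h2]; group
    have h3 := Finset.card_eq_sum_card_fiberwise hmapsN
    rw [Finset.sum_congr rfl hfib2, Finset.sum_const, smul_eq_mul, hNcard, mul_comm] at h3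
    exact (Nat.eq_of_mul_eq_mul_right hp.pos h3).symm
  rw [hTcard, ← hPcard, Finset.card_eq_sum_card_fiberwise hmaps, Finset.sum_congr rfl hfib,
    Finset.sum_const, smul_eq_mul]

/-- For `p = 2` the commutator subgroup has even index. -/
theorem selfCent_even_index_two [Finite G] (hx : orderOf x = 2)
    (hC : centralizer ({x} : Set G) = zpowers x) : Even (commutator G).index := by
  haveI : Fact (Nat.Prime 2) := ⟨Nat.prime_two⟩
  obtain ⟨P, hP⟩ := selfCent_sylow Nat.prime_two hx hC
  have hx1 : x ≠ 1 := by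
    intro h
    rw [h, orderOf_one] at hx
    omega
  have hN : normalizer ((P : Subgroup G) : Set G) ≤ centralizer ((P : Subgroup G) : Set G) := by
    rw [hP]
    intro n hn
    rw [mem_centralizer_iff]
    intro a ha
    have h1 : n * x * n⁻¹ ∈ zpowers x := (mem_normalizer_iff.mp hn x).mp (mem_zpowers x)
    have h2 : n * x * n⁻¹ = x := by
      obtain ⟨k, hk⟩ := h1
      simp only at hk
      have h3 : x ^ k = x ^ (k % 2) := by
        have := zpow_mod_orderOf x k
        rw [hx] at this
        exact_mod_cast this.symm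
      have h4 : k % 2 = 0 ∨ k % 2 = 1 := by omega
      rcases h4 with h4 | h4
      · rw [h3, h4, zpow_zero] at hk
        exact absurd hk.symm (selfCent_conj_ne_one hx1)
      · rw [h3, h4, zpow_one] at hk
        exact hk.symm
    have h5 : n ∈ zpowers x := by
      rw [← hC, mem_centralizer_singleton_iff]
      calc n * x = n * x * n⁻¹ * n := by group
        _ = x * n := by rw [h2]
    exact selfCent_comm ha h5
  have hcomp := MonoidHom.ker_transferSylow_isComplement' P hN
  obtain ⟨K, hK⟩ : ∃ K : Subgroup G, K = (MonoidHom.transferSylow P hN).ker := ⟨_, rfl⟩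
  rw [← hK] at hcomp
  haveI : K.Normal := by rw [hK]; infer_instance
  have hidx : K.index = 2 := by
    rw [hcomp.symm.index_eq_card, hP, selfCent_card hx]
  have hle : commutator G ≤ K := by
    have h1 : Nat.card (G ⧸ K) = 2 := by rw [← Subgroup.index_eq_card]; exact hidx
    haveI : IsCyclic (G ⧸ K) := isCyclic_of_prime_card h1
    rw [← Subgroup.Normal.quotient_commutative_iff_commutator_le]
    exact ⟨⟨fun a b => (IsCyclic.commGroup (α := G ⧸ K)).mul_comm a b⟩⟩
  have h6 := Subgroup.index_dvd_of_le hle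
  rw [hidx] at h6
  exact even_iff_two_dvd.mpr h6

/-- An element of `N(P)` of order `q` acting faithfully, for `q ∣ |N(P) : P|` prime to `p`. -/
theorem selfCent_exists_elt [Finite G] (hp : p.Prime) (hx : orderOf x = p)
    (hC : centralizer ({x} : Set G) = zpowers x) (q : ℕ)
    (hq : q ∣ (zpowers x).relIndex (normalizer (zpowers x : Set G))) (hqp : q.Coprime p) :
    ∃ y ∈ normalizer (zpowers x : Set G), y ^ q = 1 ∧
      ∀ i, 0 < i → i < q → y ^ i ∉ zpowers x := by
  classical
  haveI : Fact p.Prime := ⟨hp⟩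
  obtain ⟨e, he⟩ : ∃ e, e = (zpowers x).relIndex (normalizer (zpowers x : Set G)) := ⟨_, rfl⟩
  rw [← he] at hq
  have hNcard : Nat.card (normalizer (zpowers x : Set G)) = p * e := by
    rw [he]; exact selfCent_card_normalizer hx
  have hker : (zpowers x).normalizerMonoidHom.ker
      = (zpowers x).subgroupOf (normalizer (zpowers x : Set G)) := by
    rw [Subgroup.normalizerMonoidHom_ker, selfCent_centralizer_set hC]
  have hcardrange : Nat.card (zpowers x).normalizerMonoidHom.range = e := by
    rw [← Subgroup.index_ker, hker, he]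
    rfl
  haveI hcardP : Fact (Nat.card (zpowers x)).Prime := ⟨by rw [selfCent_card hx]; exact hp⟩
  haveI : IsCyclic (zpowers x) := isCyclic_of_prime_card (selfCent_card hx)
  haveI : IsCyclic (MulAut (zpowers x)) :=
    isCyclic_of_surjective (IsCyclic.mulAutMulEquiv (zpowers x)).symm (MulEquiv.surjective _)
  haveI : IsCyclic (zpowers x).normalizerMonoidHom.range := Subgroup.isCyclic _
  obtain ⟨g₀, hg₀⟩ := IsCyclic.exists_generator (α := (zpowers x).normalizerMonoidHom.range)
  obtain ⟨n₀, hn₀⟩ := g₀.2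
  have hord : orderOf ((zpowers x).normalizerMonoidHom n₀) = e := by
    have h1 : orderOf g₀ = Nat.card (zpowers x).normalizerMonoidHom.range :=
      orderOf_eq_card_of_forall_mem_zpowers hg₀
    rw [hcardrange] at h1
    rw [hn₀, ← h1, Subgroup.orderOf_coe]
  obtain ⟨d, hd⟩ := hq
  have hepos : 0 < e := by
    rcases Nat.eq_zero_or_pos e with h | h
    · rw [h, mul_zero] at hNcard
      exact absurd hNcard Nat.card_pos.ne'
    · exact h
  have hdpos : 0 < d := by
    rcases Nat.eq_zero_or_pos d with h | h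
    · rw [h, mul_zero] at hd
      omega
    · exact h
  refine ⟨(n₀ : G) ^ (p * d), pow_mem n₀.2 _, ?_, ?_⟩
  · have h1 : n₀ ^ (p * e) = 1 := by
      rw [← hNcard]
      exact pow_card_eq_one'
    have h2 : (n₀ : G) ^ (p * e) = 1 := by
      have := congrArg Subtype.val h1
      simpa using this
    rw [← pow_mul, mul_assoc, mul_comm d q, ← hd]
    exact h2
  · intro i hi0 hiq hmem
    have h1 : n₀ ^ (p * d * i) ∈ (zpowers x).normalizerMonoidHom.ker := by
      rw [hker, Subgroup.mem_subgroupOf]
      rw [← pow_mul] at hmem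
      simpa using hmem
    rw [MonoidHom.mem_ker, map_pow] at h1
    have h2 : e ∣ p * d * i := by
      rw [← hord]
      exact orderOf_dvd_of_pow_eq_one h1
    rw [hd] at h2
    have h3 : q ∣ p * i := by
      have h4 : q * d ∣ (p * i) * d := by
        rw [show p * i * d = p * d * i by ring]
        exact h2
      exact Nat.dvd_of_mul_dvd_mul_right hdpos h4
    have h5 : q ∣ i := hqp.dvd_of_dvd_mul_left h3
    exact absurd (Nat.le_of_dvd hi0 h5) (not_le.mpr hiq)

end SelfCent

end Cfsg.Agent.Helper4
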