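import Mathlib
import Cfsg.Agent.Helper4.SelfCent
import Cfsg.Agent.Helper39.AbelDual
import Cfsg.Agent.Helper15.DetChar
import Cfsg.Agent.Helper82.FaithDeg
import Cfsg.Agent.Helper81.CharBasic
import Cfsg.Agent.Helper80.CharIrr
import Cfsg.Agent.Helper80.LinChar
import Cfsg.Agent.Helper79.Basic

/-!
# Characters of groups with a self-centralizing element of prime order (helper4)

`x` of prime order `p`, `P = zpowers x`, `N = N_G(P)`, `e = |N : P|`.

* `selfCent_sum_le`: `∑_{v ∈ P, v ≠ 1} |χ(v)|² ≤ |N|` for irreducible `χ` (no hypothesis on the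
  centralizer is needed: the conjugates of `P ∖ 1` are disjoint).
* `selfCent_res_eq`: if `C_G(x) = P`, `e ≥ 2` and `χ(1) = p - 1` then `χ = -1` on `P ∖ 1`.
* `selfCent_vanish`: then `χ` vanishes on `N ∖ P`.
* `selfCent_det`: the determinantal character of `χ` at a suitable `2`-element of `N`.
-/

set_option autoImplicit false

namespace Cfsg.Agent.Helper4

open Subgroup
open scoped ComplexConjugate

universe u

section SelfCentChar

variable {G : Type u} [Group G] [Fintype G] {p : ℕ} {x : G}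

/-- The norm inequality on the nonidentity elements of a subgroup of prime order. -/
theorem selfCent_sum_le [Fintype (zpowers x)] (hp : p.Prime) (hx : orderOf x = p)
    (χ : Cfsg.IrrCharacter G) :
    ∑ a : zpowers x, Complex.normSq ((χ : G → ℂ) a)
      ≤ Complex.normSq ((χ : G → ℂ) 1) + (Nat.card (normalizer (zpowers x : Set G)) : ℝ) := by
  classical
  obtain ⟨Pf, hPf⟩ : ∃ Pf : Finset G,
      Pf = (Finset.univ.filter (fun v : G => v ∈ zpowers x)).erase 1 := ⟨_, rfl⟩
  have hsplit : ∑ a : zpowers x, Complex.normSq ((χ : G → ℂ) a) =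
      Complex.normSq ((χ : G → ℂ) 1) + ∑ v ∈ Pf, Complex.normSq ((χ : G → ℂ) v) := by
    have h1 : (1 : G) ∈ Finset.univ.filter (fun v : G => v ∈ zpowers x) := by
      simp [one_mem]
    rw [hPf, Finset.add_sum_erase (Finset.univ.filter (fun v : G => v ∈ zpowers x))
        (fun v => Complex.normSq ((χ : G → ℂ) v)) h1,
      Finset.sum_subtype (Finset.univ.filter (fun v : G => v ∈ zpowers x))
        (p := fun v => v ∈ zpowers x) (by intro v; simp)]
  rw [hsplit]
  apply add_le_add_right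
  have hmemP : ∀ v, v ∈ Pf ↔ v ≠ 1 ∧ v ∈ zpowers x := by
    intro v; rw [hPf]; simp
  obtain ⟨F, hF⟩ : ∃ F : G → ℝ, F = fun g => Complex.normSq ((χ : G → ℂ) g) := ⟨_, rfl⟩
  have hFnn : ∀ g, 0 ≤ F g := by intro g; rw [hF]; exact Complex.normSq_nonneg _
  have hFconj : ∀ h g, F (h * g * h⁻¹) = F g := by
    intro h g; rw [hF]; simp only; rw [Helper81.irr_conj]
  have hFtot : ∑ g : G, F g = (Fintype.card G : ℝ) := by
    have h := Helper80.irr_orthogonality_conj χ χ
    rw [if_pos rfl] at h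
    have h2 : ((∑ g : G, F g : ℝ) : ℂ) = (Fintype.card G : ℂ) := by
      rw [← h, Complex.ofReal_sum]
      apply Finset.sum_congr rfl
      intro g _
      rw [hF, Complex.mul_conj]
    exact_mod_cast h2
  obtain ⟨cN, hcN⟩ : ∃ cN : ℕ, cN = Nat.card (normalizer (zpowers x : Set G)) := ⟨_, rfl⟩
  rw [← hcN]
  have hcount : ∀ w : G, (Finset.univ.filter (fun h : G => h⁻¹ * w * h ∈ Pf)).card ≤ cN := by
    intro w
    rcases (Finset.univ.filter (fun h : G => h⁻¹ * w * h ∈ Pf)).eq_empty_or_nonempty with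
      h0 | ⟨h₀, hh₀⟩
    · rw [h0]; simp
    · rw [Finset.mem_filter, hmemP] at hh₀
      have hNf : cN = (Finset.univ.filter
          (fun n : G => n ∈ normalizer (zpowers x : Set G))).card := by
        rw [hcN, Nat.card_eq_fintype_card, Fintype.card_subtype]
      rw [hNf]
      apply Finset.card_le_card_of_injOn (fun h => h₀⁻¹ * h)
      · intro h hh
        rw [Finset.mem_coe, Finset.mem_filter, hmemP] at hh
        rw [Finset.mem_coe, Finset.mem_filter]
        refine ⟨Finset.mem_univ _, ?_⟩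
        apply selfCent_mem_normalizer hp hx hh.2.2 hh.2.1
        have h1 : h₀⁻¹ * h * (h⁻¹ * w * h) * (h₀⁻¹ * h)⁻¹ = h₀⁻¹ * w * h₀ := by group
        rw [h1]; exact hh₀.2.2
      · intro a _ b _ hab
        exact mul_left_cancel hab
  have hkey : (Fintype.card G : ℝ) * ∑ v ∈ Pf, F v =
      ∑ w : G, F w * ((Finset.univ.filter (fun h : G => h⁻¹ * w * h ∈ Pf)).card : ℝ) := by
    calc (Fintype.card G : ℝ) * ∑ v ∈ Pf, F v = ∑ h : G, ∑ v ∈ Pf, F (h * v * h⁻¹) := by
          simp only [hFconj]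
          rw [Finset.sum_const, Finset.card_univ, nsmul_eq_mul]
      _ = ∑ h : G, ∑ w : G, if h⁻¹ * w * h ∈ Pf then F w else 0 := by
          apply Finset.sum_congr rfl
          intro h _
          rw [← Finset.sum_filter]
          have himg : Finset.univ.filter (fun w : G => h⁻¹ * w * h ∈ Pf) =
              Pf.image (fun v => h * v * h⁻¹) := by
            ext w
            rw [Finset.mem_filter, Finset.mem_image]
            constructor
            · intro hw
              exact ⟨h⁻¹ * w * h, hw.2, by group⟩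
            · rintro ⟨v, hv, rfl⟩
              refine ⟨Finset.mem_univ _, ?_⟩
              have h1 : h⁻¹ * (h * v * h⁻¹) * h = v := by group
              rw [h1]; exact hv
          rw [himg, Finset.sum_image]
          intro a _ b _ hab
          exact mul_left_cancel (mul_right_cancel hab)
      _ = ∑ w : G, ∑ h : G, if h⁻¹ * w * h ∈ Pf then F w else 0 := Finset.sum_comm
      _ = ∑ w : G, F w * ((Finset.univ.filter (fun h : G => h⁻¹ * w * h ∈ Pf)).card : ℝ) := by
          apply Finset.sum_congr rfl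
          intro w _
          rw [← Finset.sum_filter, Finset.sum_const, nsmul_eq_mul, mul_comm]
  have hle : (Fintype.card G : ℝ) * ∑ v ∈ Pf, F v ≤ (Fintype.card G : ℝ) * cN := by
    rw [hkey, ← hFtot, Finset.sum_mul]
    apply Finset.sum_le_sum
    intro w _
    apply mul_le_mul_of_nonneg_left _ (hFnn w)
    exact_mod_cast hcount w
  have hGpos : (0 : ℝ) < Fintype.card G := by exact_mod_cast Fintype.card_pos
  have hfin := le_of_mul_le_mul_left hle hGpos
  rw [hF] at hfin
  exact hfin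

theorem selfCent_arith1 (P1 e a σ Q z : ℕ) (h1 : a + σ = P1) (h2 : 3 * σ + 2 * z ≤ Q + 2 * P1)
    (h3 : e ≤ z) (h4 : 2 ≤ e) (h6 : 3 * a ≤ a ^ 2 + 2)
    (h7 : (P1 + 1) * (a ^ 2 + Q) ≤ P1 ^ 2 + (P1 + 1) * e) (h8 : 1 ≤ P1) : False := by
  zify at h1 h2 h3 h4 h6 h7 h8
  have hQ : (P1 : ℤ) - 3 * a + 2 * e ≤ Q := by linarith
  have hp0 : (0 : ℤ) ≤ P1 + 1 := by linarith
  have k1 := mul_le_mul_of_nonneg_left hQ hp0
  have k2 := mul_nonneg hp0 (show (0 : ℤ) ≤ a ^ 2 + 2 - 3 * a by linarith)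
  have k3 := mul_le_mul_of_nonneg_left h4 hp0
  nlinarith [k1, k2, k3]

theorem selfCent_arith2 (P1 e σ Q z : ℕ) (h1 : σ = P1) (h2 : σ + 2 * z ≤ Q) (h3 : e ≤ z)
    (h7 : (P1 + 1) * Q ≤ P1 ^ 2 + (P1 + 1) * e) (h8 : 1 ≤ P1) : False := by
  zify at h1 h2 h3 h7 h8
  have hQ : (P1 : ℤ) + 2 * e ≤ Q := by linarith
  have hp0 : (0 : ℤ) ≤ P1 + 1 := by linarith
  have k1 := mul_le_mul_of_nonneg_left hQ hp0
  have k3 := mul_nonneg hp0 (show (0 : ℤ) ≤ e by positivity)
  nlinarith [k1, k3]

/-- If `C_G(x) = ⟨x⟩`, `|N(P) : P| ≥ 2` and `χ(1) = p - 1`, then `χ = -1` on `P ∖ 1`. -/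
theorem selfCent_res_eq (hp : p.Prime) (hx : orderOf x = p)
    (hC : centralizer ({x} : Set G) = zpowers x)
    (he : 2 ≤ (zpowers x).relIndex (normalizer (zpowers x : Set G)))
    (χ : Cfsg.IrrCharacter G) (hχ : Cfsg.charDegree (χ : G → ℂ) + 1 = p) :
    ∀ v ∈ zpowers x, v ≠ 1 → (χ : G → ℂ) v = -1 := by
  classical
  obtain ⟨e, he'⟩ : ∃ e, e = (zpowers x).relIndex (normalizer (zpowers x : Set G)) := ⟨_, rfl⟩
  rw [← he'] at he
  have hNcard : Nat.card (normalizer (zpowers x : Set G)) = p * e := by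
    rw [he']; exact selfCent_card_normalizer hx
  obtain ⟨P1, hP1⟩ : ∃ P1 : ℕ, P1 = Cfsg.charDegree (χ : G → ℂ) := ⟨_, rfl⟩
  have hpP1 : p = P1 + 1 := by rw [hP1, hχ]
  have hP1pos : 1 ≤ P1 := by
    have := hp.two_le
    omega
  have hcomm : ∀ a b : zpowers x, a * b = b * a :=
    fun a b => Subtype.ext (selfCent_comm a.2 b.2)
  haveI hfinhom : Finite (zpowers x →* ℂˣ) := Helper80.finite_hom
  letI hfthom : Fintype (zpowers x →* ℂˣ) := Fintype.ofFinite _
  have hχc : Cfsg.IsCharacter G (χ : G → ℂ) := Helper79.irr_isCharacter χ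
  have hθ : Cfsg.IsCharacter (zpowers x) (fun a : zpowers x => (χ : G → ℂ) a) :=
    Helper79.isCharacter_restrict hχc _
  obtain ⟨n, hn1, hn2⟩ := Helper39.comm_char_decomp hcomm hθ
  have hn1' : ∀ f : zpowers x →* ℂˣ, (n f : ℂ) = (Nat.card (zpowers x) : ℂ)⁻¹ *
      ∑ a : zpowers x, (χ : G → ℂ) a * conj ((f a : ℂˣ) : ℂ) := hn1
  have hn2' : ∀ a : zpowers x, (χ : G → ℂ) a =
      ∑ f : zpowers x →* ℂˣ, (n f : ℂ) * ((f a : ℂˣ) : ℂ) := hn2
  have hcardP : Nat.card (zpowers x) = p := selfCent_card hx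
  have hcardhom : Fintype.card (zpowers x →* ℂˣ) = p := by
    rw [Helper39.card_hom_comm hcomm, hcardP]
  have hχ1 : (χ : G → ℂ) 1 = (P1 : ℂ) := by
    rw [Helper81.irr_one_eq_charDegree, hP1]
  have hsum : ∑ f : zpowers x →* ℂˣ, n f = P1 := by
    have h := Helper39.comm_char_degree hn2
    have h' : (χ : G → ℂ) 1 = ((∑ f : zpowers x →* ℂˣ, n f : ℕ) : ℂ) := h
    rw [hχ1] at h'
    exact_mod_cast h'.symm
  -- the norm inequality
  have hstar : p * ∑ f : zpowers x →* ℂˣ, (n f) ^ 2 ≤ P1 ^ 2 + p * e := by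
    have hpars := Helper39.comm_char_norm hn1 hn2
    have h1 : ((∑ a : zpowers x, Complex.normSq ((χ : G → ℂ) a) : ℝ) : ℂ) =
        ((p * ∑ f : zpowers x →* ℂˣ, (n f) ^ 2 : ℕ) : ℂ) := by
      rw [Complex.ofReal_sum]
      push_cast
      rw [← hcardP, ← hpars]
      apply Finset.sum_congr rfl
      intro a _
      rw [Complex.mul_conj]
    have h2 : (∑ a : zpowers x, Complex.normSq ((χ : G → ℂ) a) : ℝ) =
        ((p * ∑ f : zpowers x →* ℂˣ, (n f) ^ 2 : ℕ) : ℝ) := by exact_mod_cast h1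
    have h3 := selfCent_sum_le hp hx χ
    rw [h2, hNcard, hχ1, Complex.normSq_natCast] at h3
    have h4 : ((p * ∑ f : zpowers x →* ℂˣ, (n f) ^ 2 : ℕ) : ℝ) ≤
        ((P1 ^ 2 + p * e : ℕ) : ℝ) := by
      push_cast
      push_cast at h3
      nlinarith [h3]
    exact_mod_cast h4
  have hmemC : ∀ g : G, g * x = x * g → g ∈ zpowers x := by
    intro g hg
    rw [← hC, mem_centralizer_singleton_iff]
    exact hg
  -- the orbit lemma
  have horb : ∀ f : zpowers x →* ℂˣ, f ≠ 1 →
      ∃ s : Finset (zpowers x →* ℂˣ), e ≤ s.card ∧ ∀ g ∈ s, g ≠ 1 ∧ n g = n f := by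
    intro f hf
    haveI : Fintype (normalizer (zpowers x : Set G)) := Fintype.ofFinite _
    obtain ⟨act, hact⟩ : ∃ act : normalizer (zpowers x : Set G) → (zpowers x →* ℂˣ),
        ∀ m a, act m a = f ((zpowers x).normalizerMonoidHom m a) :=
      ⟨fun m => f.comp ((zpowers x).normalizerMonoidHom m).toMonoidHom, fun m a => rfl⟩
    have hval : ∀ (m : normalizer (zpowers x : Set G)) (a : zpowers x),
        (((zpowers x).normalizerMonoidHom m a : zpowers x) : G) = (m : G) * a * (m : G)⁻¹ :=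
      fun m a => rfl
    have hfinj : Function.Injective f := by
      haveI : Fact (Nat.card (zpowers x)).Prime := ⟨by rw [hcardP]; exact hp⟩
      rcases f.ker.eq_bot_or_eq_top_of_prime_card with h | h
      · exact (MonoidHom.ker_eq_bot_iff f).mp h
      · exfalso
        apply hf
        ext a
        have h1 : a ∈ f.ker := by rw [h]; exact Subgroup.mem_top a
        rw [MonoidHom.mem_ker.mp h1]
        rfl
    refine ⟨Finset.univ.image act, ?_, ?_⟩
    · have h1 := Finset.card_le_mul_card_image (f := act) Finset.univ p ?_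
      · rw [Finset.card_univ, ← Nat.card_eq_fintype_card, hNcard] at h1
        exact Nat.le_of_mul_le_mul_left h1 hp.pos
      · intro b hb
        rw [Finset.mem_image] at hb
        obtain ⟨m₁, -, rfl⟩ := hb
        have hPf : (Finset.univ.filter (fun v : G => v ∈ zpowers x)).card = p := by
          rw [← hcardP, Nat.card_eq_fintype_card, Fintype.card_subtype]
        rw [← hPf]
        apply Finset.card_le_card_of_injOn
          (fun m : normalizer (zpowers x : Set G) => (m₁ : G)⁻¹ * (m : G))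
        · intro m hm
          rw [Finset.mem_coe, Finset.mem_filter] at hm
          rw [Finset.mem_coe, Finset.mem_filter]
          refine ⟨Finset.mem_univ _, ?_⟩
          have h2 := DFunLike.congr_fun hm.2 ⟨x, mem_zpowers x⟩
          rw [hact, hact] at h2
          have h3 := congrArg Subtype.val (hfinj h2)
          rw [hval, hval] at h3
          apply hmemC
          calc (m₁ : G)⁻¹ * m * x = (m₁ : G)⁻¹ * ((m : G) * x * (m : G)⁻¹) * m := by group
            _ = x * ((m₁ : G)⁻¹ * m) := by rw [h3]; group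
        · intro a _ b _ hab
          exact Subtype.ext (mul_left_cancel hab)
    · intro g hg
      rw [Finset.mem_image] at hg
      obtain ⟨m, -, rfl⟩ := hg
      constructor
      · intro h1
        apply hf
        ext a
        have h2 := DFunLike.congr_fun h1 ((zpowers x).normalizerMonoidHom m⁻¹ a)
        rw [hact] at h2
        have h3 : (zpowers x).normalizerMonoidHom m ((zpowers x).normalizerMonoidHom m⁻¹ a)
            = a := by
          rw [← MulAut.mul_apply, ← map_mul, mul_inv_cancel, map_one, MulAut.one_apply]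
        rw [h3] at h2
        rw [h2]
        simp
      · have h1 : ((n (act m) : ℕ) : ℂ) = (n f : ℂ) := by
          rw [hn1', hn1']
          congr 1
          have h2 : ∀ a : zpowers x, (χ : G → ℂ) a * conj (((act m) a : ℂˣ) : ℂ)
              = (fun b : zpowers x => (χ : G → ℂ) b * conj ((f b : ℂˣ) : ℂ))
                ((zpowers x).normalizerMonoidHom m a) := by
            intro a
            simp only
            rw [hact, hval, Helper81.irr_conj]
          rw [Finset.sum_congr rfl (fun a _ => h2 a)]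
          exact Fintype.sum_equiv ((zpowers x).normalizerMonoidHom m).toEquiv _ _ (fun a => rfl)
        exact_mod_cast h1
  obtain ⟨U, hU⟩ : ∃ U : Finset (zpowers x →* ℂˣ), U = Finset.univ.erase 1 := ⟨_, rfl⟩
  have hUmem : ∀ f, f ∈ U ↔ f ≠ 1 := by intro f; rw [hU]; simp
  have hUcard : U.card = P1 := by
    rw [hU, Finset.card_erase_of_mem (Finset.mem_univ _), Finset.card_univ, hcardhom]
    omega
  have hsumU : n 1 + ∑ f ∈ U, n f = P1 := by
    rw [hU, Finset.add_sum_erase Finset.univ n (Finset.mem_univ 1)]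
    exact hsum
  have hsqU : ∑ f : zpowers x →* ℂˣ, (n f) ^ 2 = (n 1) ^ 2 + ∑ f ∈ U, (n f) ^ 2 := by
    rw [hU, Finset.add_sum_erase Finset.univ (fun f => (n f) ^ 2) (Finset.mem_univ 1)]
  have hI1 : ∀ k : ℕ, 3 * k + 2 * (if k = 0 then 1 else 0) ≤ k ^ 2 + 2 := by
    intro k
    rcases Nat.eq_zero_or_pos k with h | h
    · subst h; simp
    · obtain ⟨j, rfl⟩ := Nat.exists_eq_succ_of_ne_zero h.ne'
      rw [if_neg (Nat.succ_ne_zero j)]
      have := Nat.le_mul_self j
      nlinarith
  have hI2 : ∀ k : ℕ, k + 2 * (if 2 ≤ k then 1 else 0) ≤ k ^ 2 := by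
    intro k
    by_cases h : 2 ≤ k
    · rw [if_pos h]; nlinarith
    · rw [if_neg h]
      have h' : k = 0 ∨ k = 1 := by omega
      rcases h' with rfl | rfl <;> simp
  have hS0 : 3 * ∑ f ∈ U, n f + 2 * (U.filter (fun f => n f = 0)).card ≤
      ∑ f ∈ U, (n f) ^ 2 + 2 * P1 := by
    have h := Finset.sum_le_sum (fun f (_ : f ∈ U) => hI1 (n f))
    rw [Finset.sum_add_distrib, Finset.sum_add_distrib, ← Finset.mul_sum, ← Finset.mul_sum,
      ← Finset.card_filter, Finset.sum_const, smul_eq_mul, hUcard] at h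
    rw [mul_comm 2 P1]
    exact h
  have hS2 : ∑ f ∈ U, n f + 2 * (U.filter (fun f => 2 ≤ n f)).card ≤ ∑ f ∈ U, (n f) ^ 2 := by
    have h := Finset.sum_le_sum (fun f (_ : f ∈ U) => hI2 (n f))
    rw [Finset.sum_add_distrib, ← Finset.mul_sum, ← Finset.card_filter] at h
    exact h
  have hU1 : (U.filter (fun f => n f = 0)).Nonempty →
      e ≤ (U.filter (fun f => n f = 0)).card := by
    rintro ⟨f, hf⟩
    rw [Finset.mem_filter, hUmem] at hf
    obtain ⟨s, hs, hs2⟩ := horb f hf.1
    refine hs.trans (Finset.card_le_card ?_)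
    intro g hg
    rw [Finset.mem_filter, hUmem]
    exact ⟨(hs2 g hg).1, (hs2 g hg).2.trans hf.2⟩
  have hU2 : (U.filter (fun f => 2 ≤ n f)).Nonempty →
      e ≤ (U.filter (fun f => 2 ≤ n f)).card := by
    rintro ⟨f, hf⟩
    rw [Finset.mem_filter, hUmem] at hf
    obtain ⟨s, hs, hs2⟩ := horb f hf.1
    refine hs.trans (Finset.card_le_card ?_)
    intro g hg
    rw [Finset.mem_filter, hUmem]
    exact ⟨(hs2 g hg).1, by rw [(hs2 g hg).2]; exact hf.2⟩
  rw [hsqU, hpP1] at hstar
  have hn10 : n 1 = 0 := by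
    by_contra hne
    have hex : (U.filter (fun f => n f = 0)).Nonempty := by
      by_contra hemp
      rw [Finset.not_nonempty_iff_eq_empty, Finset.filter_eq_empty_iff] at hemp
      have h1 : U.card ≤ ∑ f ∈ U, n f := by
        calc U.card = ∑ f ∈ U, 1 := by simp
          _ ≤ ∑ f ∈ U, n f :=
            Finset.sum_le_sum (fun f hf => Nat.one_le_iff_ne_zero.mpr (hemp hf))
      have hpos : 1 ≤ n 1 := Nat.one_le_iff_ne_zero.mpr hne
      omega
    have h3 := hI1 (n 1)
    rw [if_neg hne] at h3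
    exact selfCent_arith1 P1 e (n 1) _ _ _ hsumU hS0 (hU1 hex) he (by omega) hstar hP1pos
  rw [hn10] at hsumU hstar
  have hS2e : ¬ (U.filter (fun f => 2 ≤ n f)).Nonempty := by
    intro hex
    exact selfCent_arith2 P1 e _ _ _ (by omega) hS2 (hU2 hex) (by simpa using hstar) hP1pos
  have hle1 : ∀ f ∈ U, n f ≤ 1 := by
    intro f hf
    by_contra h
    exact hS2e ⟨f, Finset.mem_filter.mpr ⟨hf, by omega⟩⟩
  have hall : ∀ f ∈ U, n f = 1 := by
    intro f hf
    by_contra h
    have h0 : n f < 1 := lt_of_le_of_ne (hle1 f hf) h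
    have h1 : ∑ g ∈ U, n g < ∑ g ∈ U, 1 := Finset.sum_lt_sum hle1 ⟨f, hf, h0⟩
    rw [Finset.sum_const, smul_eq_mul, mul_one, hUcard] at h1
    omega
  intro v hv hv1
  have ha : (⟨v, hv⟩ : zpowers x) ≠ 1 := fun h => hv1 (congrArg Subtype.val h)
  have hsumall := Helper39.hom_sum_apply_ne hcomm ha
  rw [← Finset.add_sum_erase Finset.univ (fun f : zpowers x →* ℂˣ => ((f ⟨v, hv⟩ : ℂˣ) : ℂ))
    (Finset.mem_univ 1), ← hU] at hsumall
  have h := hn2' ⟨v, hv⟩
  rw [← Finset.add_sum_erase Finset.univ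
    (fun f : zpowers x →* ℂˣ => (n f : ℂ) * ((f ⟨v, hv⟩ : ℂˣ) : ℂ)) (Finset.mem_univ 1), ← hU,
    hn10, Finset.sum_congr rfl (fun f hf => by rw [hall f hf, Nat.cast_one, one_mul])] at h
  simp only [MonoidHom.one_apply, Units.val_one, Nat.cast_zero, zero_mul, zero_add] at h hsumall
  rw [h]
  linear_combination hsumall

/-- `χ` vanishes on `N(P) ∖ P`. -/
theorem selfCent_vanish (hp : p.Prime) (hx : orderOf x = p)
    (hC : centralizer ({x} : Set G) = zpowers x)
    (χ : Cfsg.IrrCharacter G) (hχ : Cfsg.charDegree (χ : G → ℂ) + 1 = p)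
    (hres : ∀ v ∈ zpowers x, v ≠ 1 → (χ : G → ℂ) v = -1) {g : G}
    (hg : g ∈ normalizer (zpowers x : Set G)) (hgP : g ∉ zpowers x) : (χ : G → ℂ) g = 0 := by
  classical
  obtain ⟨m, ρ, hirr, hρ⟩ := χ.2
  obtain ⟨S, hS⟩ : ∃ S : Module.End ℂ (Fin m → ℂ), S = ∑ a : zpowers x, ρ (a : G) := ⟨_, rfl⟩
  have hcardP : Nat.card (zpowers x) = p := selfCent_card hx
  have hFcard : Fintype.card (zpowers x) = p := by rw [← Nat.card_eq_fintype_card, hcardP]
  have hp0 : (p : ℂ) ≠ 0 := by exact_mod_cast hp.pos.ne'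
  have hSS : S * S = (p : ℂ) • S := by
    have h1 : ∀ a : zpowers x, ρ (a : G) * S = S := by
      intro a
      rw [hS, Finset.mul_sum]
      have h2 : ∀ b : zpowers x, ρ (a : G) * ρ (b : G)
          = (fun c : zpowers x => ρ (c : G)) (Equiv.mulLeft a b) := by
        intro b
        simp only [Equiv.coe_mulLeft, Subgroup.coe_mul, map_mul]
      rw [Finset.sum_congr rfl (fun b _ => h2 b)]
      exact Equiv.sum_comp (Equiv.mulLeft a) (fun c : zpowers x => ρ (c : G))
    nth_rewrite 1 [hS]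
    rw [Finset.sum_mul, Finset.sum_congr rfl (fun a _ => h1 a), Finset.sum_const,
      Finset.card_univ, hFcard, Nat.cast_smul_eq_nsmul]
  have htr : LinearMap.trace ℂ (Fin m → ℂ) S = 0 := by
    rw [hS, map_sum]
    have h1 : ∀ a : zpowers x, LinearMap.trace ℂ (Fin m → ℂ) (ρ (a : G))
        = (if a = 1 then (p : ℂ) else 0) - 1 := by
      intro a
      have h2 : LinearMap.trace ℂ (Fin m → ℂ) (ρ (a : G)) = (χ : G → ℂ) a := by
        rw [← hρ]; rfl
      rw [h2]
      by_cases ha : a = 1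
      · rw [if_pos ha, ha, Subgroup.coe_one, Helper81.irr_one_eq_charDegree, ← hχ]
        push_cast
        ring
      · rw [if_neg ha, zero_sub]
        exact hres a a.2 (fun h => ha (Subtype.ext h))
    rw [Finset.sum_congr rfl (fun a _ => h1 a), Finset.sum_sub_distrib, Finset.sum_ite_eq'
      Finset.univ (1 : zpowers x) (fun _ => (p : ℂ)), if_pos (Finset.mem_univ _),
      Finset.sum_const, Finset.card_univ, hFcard]
    simp
  have hS0 : S = 0 := by
    have hE : IsIdempotentElem ((p : ℂ)⁻¹ • S) := by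
      unfold IsIdempotentElem
      rw [smul_mul_smul_comm, hSS, smul_smul, mul_assoc, inv_mul_cancel₀ hp0, mul_one]
    have hE0 := LinearMap.IsIdempotentElem.eq_zero_of_trace_eq_zero hE
      (by rw [map_smul, htr, smul_zero])
    have h2 : S = (p : ℂ) • ((p : ℂ)⁻¹ • S) := by
      rw [smul_smul, mul_inv_cancel₀ hp0, one_smul]
    rw [h2, hE0, smul_zero]
  have hsum0 : ∑ a : zpowers x, (χ : G → ℂ) (g * a) = 0 := by
    have h1 : ∀ a : zpowers x, (χ : G → ℂ) (g * a)
        = LinearMap.trace ℂ (Fin m → ℂ) (ρ g * ρ (a : G)) := by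
      intro a
      rw [← hρ, ← map_mul]
      rfl
    rw [Finset.sum_congr rfl (fun a _ => h1 a), ← map_sum, ← Finset.mul_sum, ← hS, hS0, mul_zero,
      map_zero]
  have hginv : g⁻¹ ∈ normalizer (zpowers x : Set G) := inv_mem hg
  have hmapP : ∀ b : zpowers x, g⁻¹ * b * g * (b : G)⁻¹ ∈ zpowers x := by
    intro b
    have h1 := (mem_normalizer_iff.mp hginv b).mp b.2
    rw [inv_inv] at h1
    exact mul_mem h1 (inv_mem b.2)
  have hinj : Function.Injective
      (fun b : zpowers x => (⟨g⁻¹ * b * g * (b : G)⁻¹, hmapP b⟩ : zpowers x)) := by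
    intro b b' hbb
    have h1 : g⁻¹ * b * g * (b : G)⁻¹ = g⁻¹ * b' * g * (b' : G)⁻¹ := congrArg Subtype.val hbb
    by_contra hne
    have hc1 : ((b' : G)⁻¹ * b) ≠ 1 := by
      intro h
      apply hne
      apply Subtype.ext
      calc (b : G) = b' * ((b' : G)⁻¹ * b) := by group
        _ = b' := by rw [h, mul_one]
    have hcP : ((b' : G)⁻¹ * b) ∈ zpowers x := mul_mem (inv_mem b'.2) b.2
    have hcent := selfCent_centralizer hp hx hC hcP hc1
    apply hgP
    rw [← hcent, mem_centralizer_singleton_iff]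
    have h2 : (b : G) * g * (b : G)⁻¹ = b' * g * (b' : G)⁻¹ := by
      calc (b : G) * g * (b : G)⁻¹ = g * (g⁻¹ * b * g * (b : G)⁻¹) := by group
        _ = g * (g⁻¹ * b' * g * (b' : G)⁻¹) := by rw [h1]
        _ = b' * g * (b' : G)⁻¹ := by group
    calc g * ((b' : G)⁻¹ * b) = (b' : G)⁻¹ * (b' * g * (b' : G)⁻¹) * b := by group
      _ = (b' : G)⁻¹ * ((b : G) * g * (b : G)⁻¹) * b := by rw [h2]
      _ = (b' : G)⁻¹ * b * g := by group
  have hsurj := Finite.injective_iff_surjective.mp hinj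
  have hconst : ∀ a : zpowers x, (χ : G → ℂ) (g * a) = (χ : G → ℂ) g := by
    intro a
    obtain ⟨b, hb⟩ := hsurj a
    have h1 : g⁻¹ * b * g * (b : G)⁻¹ = a := congrArg Subtype.val hb
    have h2 : g * a = (b : G) * g * (b : G)⁻¹ := by
      rw [← h1]; group
    rw [h2, Helper81.irr_conj]
  rw [Finset.sum_congr rfl (fun a _ => hconst a), Finset.sum_const, Finset.card_univ, hFcard,
    nsmul_eq_mul] at hsum0
  rcases mul_eq_zero.mp hsum0 with h | h
  · exact absurd h hp0
  · exact h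

/-- The determinantal character at an element `y` of even order `q` on whose nontrivial powers
`χ` vanishes, when `χ(1) = m q` with `m` odd. -/
theorem selfCent_det (χ : Cfsg.IrrCharacter G) {y : G} {q m : ℕ} (hq2 : Even q) (hq0 : 0 < q)
    (hy : y ^ q = 1) (hvan : ∀ i, 0 < i → i < q → (χ : G → ℂ) (y ^ i) = 0)
    (hdeg : (χ : G → ℂ) 1 = ((m * q : ℕ) : ℂ)) (hm : Odd m) :
    Cfsg.detChar (χ : G → ℂ) y = -1 := by
  classical
  have hm0 : 0 < m := hm.pos
  have hχ10 : (χ : G → ℂ) 1 ≠ 0 := by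
    rw [hdeg]
    exact_mod_cast (Nat.mul_pos hm0 hq0).ne'
  have hord : orderOf y = q := by
    rw [orderOf_eq_iff hq0]
    refine ⟨hy, fun i hi hi0 h1 => ?_⟩
    have := hvan i hi0 hi
    rw [h1] at this
    exact hχ10 this
  have hcardY : Nat.card (zpowers y) = q := by rw [Nat.card_zpowers, hord]
  have hcomm : ∀ a b : zpowers y, a * b = b * a :=
    fun a b => Subtype.ext (selfCent_comm a.2 b.2)
  haveI hfinhom : Finite (zpowers y →* ℂˣ) := Helper80.finite_hom
  letI hfthom : Fintype (zpowers y →* ℂˣ) := Fintype.ofFinite _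
  have hcardhom : Fintype.card (zpowers y →* ℂˣ) = q := by
    rw [Helper39.card_hom_comm hcomm, hcardY]
  have hχc : Cfsg.IsCharacter G (χ : G → ℂ) := Helper79.irr_isCharacter χ
  have hθ : Cfsg.IsCharacter (zpowers y) (fun a : zpowers y => (χ : G → ℂ) a) :=
    Helper79.isCharacter_restrict hχc _
  have h2 : ∀ a : zpowers y, (fun a : zpowers y => (χ : G → ℂ) a) a =
      ∑ f : zpowers y →* ℂˣ, (((fun _ => m) f : ℕ) : ℂ) * ((f a : ℂˣ) : ℂ) := by
    intro a
    simp only
    rw [← Finset.mul_sum]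
    by_cases ha : a = 1
    · rw [ha, Subgroup.coe_one, hdeg]
      simp only [map_one, Units.val_one, Finset.sum_const, Finset.card_univ, hcardhom,
        nsmul_eq_mul, mul_one]
      push_cast
      ring
    · rw [Helper39.hom_sum_apply_ne hcomm ha, mul_zero]
      have h3 := mem_zpowers_iff_mem_range_orderOf.mp a.2
      rw [Finset.mem_image] at h3
      obtain ⟨i, hi, hi2⟩ := h3
      rw [Finset.mem_range, hord] at hi
      rw [← hi2]
      apply hvan i _ hi
      rcases Nat.eq_zero_or_pos i with h0 | h0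
      · exfalso
        apply ha
        apply Subtype.ext
        rw [← hi2, h0, pow_zero]
        rfl
      · exact h0
  have hdet := Helper82.faithDeg_det_diag hθ (fun _ => m) h2 ⟨y, mem_zpowers y⟩
  rw [Helper15.detChar_restrict (zpowers y) (χ : G → ℂ) hχc ⟨y, mem_zpowers y⟩] at hdet
  rw [hdet, Finset.prod_pow]
  -- the product of all values at the generator
  obtain ⟨y₀, hy₀⟩ : ∃ y₀ : zpowers y, y₀ = ⟨y, mem_zpowers y⟩ := ⟨_, rfl⟩
  rw [← hy₀]
  have hgen : ∀ a : zpowers y, a ∈ zpowers y₀ := by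
    intro a
    obtain ⟨k, hk⟩ := a.2
    refine ⟨k, ?_⟩
    apply Subtype.ext
    rw [hy₀, Subgroup.coe_zpow]
    exact hk
  have hordy₀ : orderOf y₀ = q := by
    rw [hy₀, Subgroup.orderOf_mk, hord]
  have hdvd : orderOf (-1 : ℂˣ) ∣ orderOf y₀ := by
    rw [hordy₀]
    apply orderOf_dvd_of_pow_eq_one
    exact hq2.neg_one_pow
  obtain ⟨s₀, hs₀⟩ : ∃ s₀ : zpowers y →* ℂˣ, s₀ y₀ = -1 :=
    ⟨monoidHomOfForallMemZpowers hgen hdvd, monoidHomOfForallMemZpowers_apply_gen hgen hdvd⟩
  have hdetm : ∀ f f' : zpowers y →* ℂˣ, f y₀ = f' y₀ → f = f' := by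
    intro f f' hff
    ext a
    obtain ⟨k, hk⟩ := hgen a
    rw [← hk, map_zpow, map_zpow, hff]
  have hprod : ∏ f ∈ Finset.univ.erase s₀, ((f y₀ : ℂˣ) : ℂ) = 1 := by
    refine Finset.prod_involution (fun f _ => f⁻¹) ?_ ?_ ?_ ?_
    · intro f _
      rw [MonoidHom.inv_apply, ← Units.val_mul, mul_inv_cancel, Units.val_one]
    · intro f hf hne hinv
      rw [Finset.mem_erase] at hf
      have h3 : (f y₀)⁻¹ = f y₀ := by
        have := DFunLike.congr_fun hinv y₀
        rwa [MonoidHom.inv_apply] at this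
      have h4 : ((f y₀ : ℂˣ) : ℂ) * ((f y₀ : ℂˣ) : ℂ) = 1 := by
        nth_rewrite 1 [← h3]
        rw [← Units.val_mul, inv_mul_cancel, Units.val_one]
      rcases mul_self_eq_one_iff.mp h4 with h5 | h5
      · exact hne h5
      · apply hf.1
        apply hdetm
        rw [hs₀]
        apply Units.ext
        rw [h5]
        simp
    · intro f hf
      rw [Finset.mem_erase] at hf
      rw [Finset.mem_erase]
      refine ⟨?_, Finset.mem_univ _⟩
      intro h
      apply hf.1
      apply hdetm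
      have h5 := DFunLike.congr_fun h y₀
      rw [MonoidHom.inv_apply, hs₀] at h5
      rw [hs₀, ← inv_inv (f y₀), h5]
      apply Units.ext
      simp
    · intro f _
      exact inv_inv f
  rw [← Finset.mul_prod_erase Finset.univ (fun f : zpowers y →* ℂˣ => ((f y₀ : ℂˣ) : ℂ))
    (Finset.mem_univ s₀), hprod, hs₀, mul_one]
  simp only [Units.val_neg, Units.val_one]
  exact hm.neg_one_pow

end SelfCentChar

end Cfsg.Agent.Helper4
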