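/-
helper4: piece C of CALL S5787 (helper96): the characteristic abelian subgroups of
`R0 = Q_8 ⊗ D_8` are cyclic.  Everything lives in `Cfsg.Agent.Helper4`.
-/
import Cfsg.Agent.Helper96.Sp4Q3

set_option autoImplicit false

open Cfsg Cfsg.Geo Matrix Cfsg.Agent.Helper96.Q3

namespace Cfsg.Agent.Helper4

variable {F : Type*} [Field F]

/-- Conjugation by a normalising element as an automorphism of a subgroup. -/
def r0cConj {G : Type*} [Group G] (N : Subgroup G) (h : G) (h1 : ∀ x ∈ N, h * x * h⁻¹ ∈ N)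
    (h2 : ∀ x ∈ N, h⁻¹ * x * h ∈ N) : N ≃* N where
  toFun x := ⟨h * x * h⁻¹, h1 x x.2⟩
  invFun x := ⟨h⁻¹ * x * h, h2 x x.2⟩
  left_inv x := by
    apply Subtype.ext
    show h⁻¹ * (h * (x : G) * h⁻¹) * h = x
    group
  right_inv x := by
    apply Subtype.ext
    show h * (h⁻¹ * (x : G) * h) * h⁻¹ = x
    group
  map_mul' x y := by
    apply Subtype.ext
    show h * ((x : G) * (y : G)) * h⁻¹ = (h * (x : G) * h⁻¹) * (h * (y : G) * h⁻¹)
    group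

/-- A characteristic subgroup is stable under conjugation by normalising elements. -/
theorem r0c_stable {G : Type*} [Group G] (N : Subgroup G) (A : Subgroup N)
    (hA : A.Characteristic) (h : G) (h1 : ∀ x ∈ N, h * x * h⁻¹ ∈ N)
    (h2 : ∀ x ∈ N, h⁻¹ * x * h ∈ N) (x : N) (hx : x ∈ A) :
    ∃ x' : N, x' ∈ A ∧ (x' : G) = h * x * h⁻¹ := by
  have h3 := hA.fixed (r0cConj N h h1 h2)
  have h4 : r0cConj N h h1 h2 x ∈ A := by
    have : x ∈ A.comap (r0cConj N h h1 h2).toMonoidHom := by rw [h3]; exact hx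
    exact this
  exact ⟨r0cConj N h h1 h2 x, h4, rfl⟩

/-- The algebra behind both steps: `s² = -1`, `a s = -s a`; then `1 + s` is invertible and
conjugates `a` to `s a`. -/
theorem r0c_alg {R : Type*} [Ring R] [Algebra F R] (h2 : (2 : F) ≠ 0) {s a : R}
    (hs : s * s = -1) (has : a * s = -(s * a)) :
    (1 + s) * ((2 : F)⁻¹ • (1 - s)) = 1 ∧ ((2 : F)⁻¹ • (1 - s)) * (1 + s) = 1 ∧
      (1 + s) * a * ((2 : F)⁻¹ • (1 - s)) = s * a := by
  have e1 : (1 + s) * (1 - s) = (2 : F) • (1 : R) := by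
    have h : (1 + s) * (1 - s) = 1 - s * s := by noncomm_ring
    rw [h, hs, sub_neg_eq_add, two_smul]
  have e2 : (1 - s) * (1 + s) = (2 : F) • (1 : R) := by
    have h : (1 - s) * (1 + s) = 1 - s * s := by noncomm_ring
    rw [h, hs, sub_neg_eq_add, two_smul]
  have e3 : (1 + s) * a * (1 - s) = (2 : F) • (s * a) := by
    have h1 : (1 + s) * a * (1 - s) = a - a * s + s * a - s * (a * s) := by noncomm_ring
    have h3 : s * (-(s * a)) = a := by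
      rw [mul_neg, ← mul_assoc, hs]; simp
    rw [h1, has, h3, two_smul]
    abel
  refine ⟨?_, ?_, ?_⟩
  · rw [mul_smul_comm, e1, smul_smul, inv_mul_cancel₀ h2, one_smul]
  · rw [smul_mul_assoc, e2, smul_smul, inv_mul_cancel₀ h2, one_smul]
  · rw [mul_smul_comm, e3, smul_smul, inv_mul_cancel₀ h2, one_smul]

/-- Two commuting invertible matrices cannot anticommute (`2 ≠ 0`). -/
theorem r0c_anticomm_false (h2 : (2 : F) ≠ 0) {x x' : GL (Fin 2 ⊕ Fin 2) F}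
    (hc : x * x' = x' * x)
    (ha : (x : Matrix (Fin 2 ⊕ Fin 2) (Fin 2 ⊕ Fin 2) F) * (x' : Matrix _ _ F) =
      -((x' : Matrix (Fin 2 ⊕ Fin 2) (Fin 2 ⊕ Fin 2) F) * (x : Matrix _ _ F))) : False := by
  have h1 : (x : Matrix (Fin 2 ⊕ Fin 2) (Fin 2 ⊕ Fin 2) F) * (x' : Matrix _ _ F) =
      (x' : Matrix (Fin 2 ⊕ Fin 2) (Fin 2 ⊕ Fin 2) F) * (x : Matrix _ _ F) := by
    have := congrArg (fun u : GL (Fin 2 ⊕ Fin 2) F => (u : Matrix (Fin 2 ⊕ Fin 2) (Fin 2 ⊕ Fin 2) F)) hc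
    simpa using this
  rw [h1] at ha
  have h3 : ((x' * x : GL (Fin 2 ⊕ Fin 2) F) : Matrix (Fin 2 ⊕ Fin 2) (Fin 2 ⊕ Fin 2) F) +
      ((x' * x : GL (Fin 2 ⊕ Fin 2) F) : Matrix (Fin 2 ⊕ Fin 2) (Fin 2 ⊕ Fin 2) F) = 0 := by
    rw [Units.val_mul]
    nth_rewrite 1 [ha]
    exact neg_add_cancel _
  have h4 := congrArg (fun M : Matrix (Fin 2 ⊕ Fin 2) (Fin 2 ⊕ Fin 2) F =>
    M * (((x' * x)⁻¹ : GL (Fin 2 ⊕ Fin 2) F) : Matrix (Fin 2 ⊕ Fin 2) (Fin 2 ⊕ Fin 2) F)) h3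
  simp only [add_mul, zero_mul, Units.mul_inv] at h4
  have h5 := congrFun (congrFun h4 (Sum.inl 0)) (Sum.inl 0)
  simp at h5
  apply h2
  linear_combination h5

theorem r0c_mJ_sq : (mJ : Matrix (Fin 2) (Fin 2) F) * mJ = -1 := by
  ext i j
  fin_cases i <;> fin_cases j <;> simp [mJ, Matrix.mul_apply, Fin.sum_univ_two]

theorem r0c_mPhi_mJ : (mPhi : Matrix (Fin 2) (Fin 2) F) * mJ = -(mJ * mPhi) := by
  ext i j
  fin_cases i <;> fin_cases j <;> simp [mJ, mPhi, Matrix.mul_apply, Fin.sum_univ_two]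

/-- A matrix of trace `0` and determinant `1` squares to `-1`. -/
theorem r0c_sq_of_trace (a : Matrix (Fin 2) (Fin 2) F) (hdet : a.det = 1) (htr : a.trace = 0) :
    a * a = -1 := by
  rw [Matrix.det_fin_two] at hdet
  rw [Matrix.trace_fin_two] at htr
  ext i j
  fin_cases i <;> fin_cases j <;> simp [Matrix.mul_apply, Fin.sum_univ_two]
  · linear_combination (a 0 0) * htr - hdet
  · linear_combination (a 0 1) * htr
  · linear_combination (a 1 0) * htr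
  · linear_combination (a 1 1) * htr - hdet

/-- The core contradiction: an element `kr a b` of a characteristic abelian subgroup, an
invertible `kr u v` normalising `R0` in both directions whose conjugation sends `kr a b` to a
matrix anticommuting with it. -/
theorem r0c_contra (h2 : (2 : F) ≠ 0) (A : Subgroup (R0 (F := F))) (hA : A.Characteristic)
    (hAc : IsMulCommutative A) (x : R0 (F := F)) (hx : x ∈ A)
    (m m' y : Matrix (Fin 2 ⊕ Fin 2) (Fin 2 ⊕ Fin 2) F) (h1 : m * m' = 1) (h1' : m' * m = 1)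
    (hn : ∀ w ∈ R0 (F := F), (⟨m, m', h1, h1'⟩ : GL (Fin 2 ⊕ Fin 2) F) * w *
      (⟨m, m', h1, h1'⟩ : GL (Fin 2 ⊕ Fin 2) F)⁻¹ ∈ R0 (F := F))
    (hn' : ∀ w ∈ R0 (F := F), (⟨m, m', h1, h1'⟩ : GL (Fin 2 ⊕ Fin 2) F)⁻¹ * w *
      (⟨m, m', h1, h1'⟩ : GL (Fin 2 ⊕ Fin 2) F) ∈ R0 (F := F))
    (hy : m * ((x : GL (Fin 2 ⊕ Fin 2) F) : Matrix (Fin 2 ⊕ Fin 2) (Fin 2 ⊕ Fin 2) F) * m' = y)
    (hanti : ((x : GL (Fin 2 ⊕ Fin 2) F) : Matrix (Fin 2 ⊕ Fin 2) (Fin 2 ⊕ Fin 2) F) * y =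
      -(y * ((x : GL (Fin 2 ⊕ Fin 2) F) : Matrix (Fin 2 ⊕ Fin 2) (Fin 2 ⊕ Fin 2) F))) : False := by
  obtain ⟨x', hx', hx'eq⟩ := r0c_stable (R0 (F := F)) A hA _ hn hn' x hx
  have hc : (x : GL (Fin 2 ⊕ Fin 2) F) * (x' : GL (Fin 2 ⊕ Fin 2) F) =
      (x' : GL (Fin 2 ⊕ Fin 2) F) * (x : GL (Fin 2 ⊕ Fin 2) F) := by
    have h := hAc.is_comm.comm ⟨x, hx⟩ ⟨x', hx'⟩
    have h' := congrArg (fun u : A => ((u : R0 (F := F)) : GL (Fin 2 ⊕ Fin 2) F)) h
    simpa using h'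
  have hmat : ((x' : GL (Fin 2 ⊕ Fin 2) F) : Matrix (Fin 2 ⊕ Fin 2) (Fin 2 ⊕ Fin 2) F) = y := by
    rw [hx'eq, ← hy]
    rfl
  refine r0c_anticomm_false h2 hc ?_
  rw [hmat]
  exact hanti

/-- **Piece C of CALL S5787.** -/
theorem r0_char_cyclic [Fintype F] (hF : Fintype.card F = 3)
    (hmem : ∀ g : GL (Fin 2 ⊕ Fin 2) F, g ∈ R0 (F := F) ↔ ∃ a ∈ Q8set (F := F),
      ∃ b ∈ D8set (F := F), (g : Matrix (Fin 2 ⊕ Fin 2) (Fin 2 ⊕ Fin 2) F) = kr a b)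
    (hnorm : ∀ (g : GL (Fin 2 ⊕ Fin 2) F) (A B : Matrix (Fin 2) (Fin 2) F) (c : F),
      (g : Matrix (Fin 2 ⊕ Fin 2) (Fin 2 ⊕ Fin 2) F) = kr A B → A.det ≠ 0 → c ≠ 0 → Bᵀ * B = c • 1 →
      ∀ x ∈ R0 (F := F), g * x * g⁻¹ ∈ R0 (F := F))
    (hQ : ∀ a ∈ Q8set (F := F), a ≠ 1 → a ≠ -1 → ∃ a' ∈ Q8set (F := F), a * a' = -(a' * a))
    (hQsq : ∀ a ∈ Q8set (F := F), a * a = 1 ∨ a * a = -1)
    (hD : ∀ b ∈ D8set (F := F), b = 1 ∨ b = -1 ∨ b = mJ ∨ b = -mJ ∨ b = mPhi ∨ b = -mPhi ∨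
      b = mJ * mPhi ∨ b = -(mJ * mPhi))
    (A : Subgroup (R0 (F := F))) (hA : A.Characteristic) (hAc : IsMulCommutative A) : IsCyclic A := by
  classical
  have h3 : (3 : F) = 0 := by
    have := Nat.cast_card_eq_zero F
    rw [hF] at this
    exact_mod_cast this
  have h2 : (2 : F) ≠ 0 := by
    intro h
    have : (1 : F) = 0 := by linear_combination h3 - h
    exact one_ne_zero this
  have hc0 : ((2 : F)⁻¹) ≠ 0 := inv_ne_zero h2
  -- Step 1: the `Q_8`-component of every element of `A` is `±1`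
  have step1 : ∀ x : R0 (F := F), x ∈ A → ∀ a ∈ Q8set (F := F), ∀ b ∈ D8set (F := F),
      ((x : GL (Fin 2 ⊕ Fin 2) F) : Matrix (Fin 2 ⊕ Fin 2) (Fin 2 ⊕ Fin 2) F) = kr a b →
      a = 1 ∨ a = -1 := by
    intro x hx a ha b hb hxab
    by_contra hne
    push_neg at hne
    obtain ⟨s, hs, has⟩ := hQ a ha hne.1 hne.2
    have hadet : a.det = 1 := ha.1
    have ha0 : a ≠ 0 := by
      rintro rfl
      rw [Matrix.det_fin_two] at hadet
      simp at hadet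
    have hss : s * s = -1 := by
      rcases hs.2 with h | h | h
      · exact r0c_sq_of_trace s hs.1 h
      · exfalso
        rw [h, mul_one, one_mul] at has
        apply ha0
        have h4 : (2 : F) • a = 0 := by rw [two_smul]; nth_rewrite 1 [has]; exact neg_add_cancel _
        exact (smul_eq_zero.mp h4).resolve_left h2
      · exfalso
        rw [h] at has
        simp only [mul_neg, mul_one, neg_mul, one_mul, neg_neg] at has
        apply ha0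
        have h4 : (2 : F) • a = 0 := by
          rw [two_smul]
          nth_rewrite 2 [← has]
          exact add_neg_cancel _
        exact (smul_eq_zero.mp h4).resolve_left h2
    obtain ⟨e1, e2, e3⟩ := r0c_alg (F := F) h2 hss has
    have hm1 : kr (1 + s) (1 : Matrix (Fin 2) (Fin 2) F) * kr ((2 : F)⁻¹ • (1 - s)) 1 = 1 := by
      rw [kr_mul, e1, one_mul, kr_one]
    have hm2 : kr ((2 : F)⁻¹ • (1 - s)) (1 : Matrix (Fin 2) (Fin 2) F) * kr (1 + s) 1 = 1 := by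
      rw [kr_mul, e2, one_mul, kr_one]
    have hd1 : (1 + s).det ≠ 0 := by
      intro h
      have := congrArg Matrix.det e1
      rw [Matrix.det_mul, h, zero_mul, Matrix.det_one] at this
      exact zero_ne_one this
    have hd2 : ((2 : F)⁻¹ • (1 - s)).det ≠ 0 := by
      intro h
      have := congrArg Matrix.det e1
      rw [Matrix.det_mul, h, mul_zero, Matrix.det_one] at this
      exact zero_ne_one this
    have hone : (1 : Matrix (Fin 2) (Fin 2) F)ᵀ * 1 = (1 : F) • 1 := by simp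
    refine r0c_contra h2 A hA hAc x hx _ _ (kr (s * a) b) hm1 hm2 ?_ ?_ ?_ ?_
    · exact hnorm _ (1 + s) 1 1 rfl hd1 one_ne_zero hone
    · intro w hw
      have := hnorm (⟨kr (1 + s) 1, kr ((2 : F)⁻¹ • (1 - s)) 1, hm1, hm2⟩ :
        GL (Fin 2 ⊕ Fin 2) F)⁻¹ ((2 : F)⁻¹ • (1 - s)) 1 1 rfl hd2 one_ne_zero hone w hw
      rwa [inv_inv] at this
    · rw [hxab, kr_mul, kr_mul, e3, one_mul, mul_one]
    · rw [hxab, kr_mul, kr_mul, ← mul_assoc, has, neg_mul, kr_neg_left]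
  -- Step 2: the `D_8`-component is `±1` or `±mJ`
  have step2 : ∀ x : R0 (F := F), x ∈ A → ∀ b ∈ D8set (F := F),
      ((x : GL (Fin 2 ⊕ Fin 2) F) : Matrix (Fin 2 ⊕ Fin 2) (Fin 2 ⊕ Fin 2) F) = kr 1 b →
      b * mJ = -(mJ * b) → False := by
    intro x hx b hb hxb hanti
    obtain ⟨e1, e2, e3⟩ := r0c_alg (F := F) h2 (r0c_mJ_sq (F := F)) hanti
    have hm1 : kr (1 : Matrix (Fin 2) (Fin 2) F) (1 + mJ) * kr 1 ((2 : F)⁻¹ • (1 - mJ)) = 1 := by
      rw [kr_mul, e1, one_mul, kr_one]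
    have hm2 : kr (1 : Matrix (Fin 2) (Fin 2) F) ((2 : F)⁻¹ • (1 - mJ)) * kr 1 (1 + mJ) = 1 := by
      rw [kr_mul, e2, one_mul, kr_one]
    have hz1 : ((1 : Matrix (Fin 2) (Fin 2) F) + mJ)ᵀ * (1 + mJ) = (2 : F) • 1 := by
      ext i j
      fin_cases i <;> fin_cases j <;>
        simp [mJ, Matrix.mul_apply, Fin.sum_univ_two, Matrix.one_apply] <;> ring
    have hz2 : ((2 : F)⁻¹ • ((1 : Matrix (Fin 2) (Fin 2) F) - mJ))ᵀ * ((2 : F)⁻¹ • (1 - mJ)) =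
        (2 * (2 : F)⁻¹ * (2 : F)⁻¹) • 1 := by
      ext i j
      fin_cases i <;> fin_cases j <;>
        simp [mJ, Matrix.mul_apply, Fin.sum_univ_two, Matrix.one_apply] <;> ring
    have hdet1 : (1 : Matrix (Fin 2) (Fin 2) F).det ≠ 0 := by
      rw [Matrix.det_one]; exact one_ne_zero
    refine r0c_contra h2 A hA hAc x hx _ _ (kr 1 (mJ * b)) hm1 hm2 ?_ ?_ ?_ ?_
    · exact hnorm _ 1 (1 + mJ) 2 rfl hdet1 h2 hz1
    · intro w hw
      have := hnorm (⟨kr 1 (1 + mJ), kr 1 ((2 : F)⁻¹ • (1 - mJ)), hm1, hm2⟩ :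
        GL (Fin 2 ⊕ Fin 2) F)⁻¹ 1 ((2 : F)⁻¹ • (1 - mJ)) (2 * (2 : F)⁻¹ * (2 : F)⁻¹) rfl hdet1
        (mul_ne_zero (mul_ne_zero h2 hc0) hc0) hz2 w hw
      rwa [inv_inv] at this
    · rw [hxb, kr_mul, kr_mul, e3, one_mul, mul_one]
    · rw [hxb, kr_mul, kr_mul, ← mul_assoc, hanti, neg_mul, kr_neg_right]
  -- Step 3: every element of `A` is a power of `z = kr 1 mJ`
  have hz1 : kr (1 : Matrix (Fin 2) (Fin 2) F) mJ * kr 1 (-mJ) = 1 := by
    rw [kr_mul, mul_neg, r0c_mJ_sq, neg_neg, one_mul, kr_one]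
  have hz2 : kr (1 : Matrix (Fin 2) (Fin 2) F) (-mJ) * kr 1 mJ = 1 := by
    rw [kr_mul, neg_mul, r0c_mJ_sq, neg_neg, one_mul, kr_one]
  obtain ⟨z, hzdef⟩ : ∃ z : GL (Fin 2 ⊕ Fin 2) F,
      z = ⟨kr 1 mJ, kr 1 (-mJ), hz1, hz2⟩ := ⟨_, rfl⟩
  have hzm : (z : Matrix (Fin 2 ⊕ Fin 2) (Fin 2 ⊕ Fin 2) F) = kr 1 mJ := by rw [hzdef]
  have hzi : ((z⁻¹ : GL (Fin 2 ⊕ Fin 2) F) : Matrix (Fin 2 ⊕ Fin 2) (Fin 2 ⊕ Fin 2) F) =
      kr 1 (-mJ) := by rw [hzdef]; rfl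
  have hpow : ∀ x : A, ((x : R0 (F := F)) : GL (Fin 2 ⊕ Fin 2) F) ∈ Subgroup.zpowers z := by
    intro x
    obtain ⟨a, ha, b, hb, hxab⟩ := (hmem _).1 (x : R0 (F := F)).2
    have hb' : ∃ b' ∈ D8set (F := F),
        (((x : R0 (F := F)) : GL (Fin 2 ⊕ Fin 2) F) : Matrix (Fin 2 ⊕ Fin 2) (Fin 2 ⊕ Fin 2) F) =
          kr 1 b' := by
      rcases step1 (x : R0 (F := F)) x.2 a ha b hb hxab with h | h
      · exact ⟨b, hb, by rw [hxab, h]⟩
      · refine ⟨-b, ?_, by rw [hxab, h, kr_neg_left, kr_neg_right]⟩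
        show (-b)ᵀ * (-b) = 1
        rw [Matrix.transpose_neg, neg_mul_neg]
        exact hb
    obtain ⟨b', hb', hxb'⟩ := hb'
    rcases hD b' hb' with h | h | h | h | h | h | h | h
    · -- `x = 1`
      have : ((x : R0 (F := F)) : GL (Fin 2 ⊕ Fin 2) F) = 1 := by
        apply Units.ext
        rw [hxb', h, kr_one]; rfl
      rw [this]; exact one_mem _
    · -- `x = z ^ 2`
      have : ((x : R0 (F := F)) : GL (Fin 2 ⊕ Fin 2) F) = z * z := by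
        apply Units.ext
        rw [hxb', h, Units.val_mul, hzm, kr_mul, r0c_mJ_sq, one_mul]
      rw [this]
      exact mul_mem (Subgroup.mem_zpowers z) (Subgroup.mem_zpowers z)
    · have : ((x : R0 (F := F)) : GL (Fin 2 ⊕ Fin 2) F) = z := by
        apply Units.ext
        rw [hxb', h, hzm]
      rw [this]; exact Subgroup.mem_zpowers z
    · have : ((x : R0 (F := F)) : GL (Fin 2 ⊕ Fin 2) F) = z⁻¹ := by
        apply Units.ext
        rw [hxb', h, hzi]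
      rw [this]; exact inv_mem (Subgroup.mem_zpowers z)
    · exact absurd (by rw [h]; exact r0c_mPhi_mJ) (step2 (x : R0 (F := F)) x.2 b' hb' hxb')
    · refine absurd ?_ (step2 (x : R0 (F := F)) x.2 b' hb' hxb')
      rw [h, neg_mul, r0c_mPhi_mJ, mul_neg]
    · refine absurd ?_ (step2 (x : R0 (F := F)) x.2 b' hb' hxb')
      rw [h, mul_assoc, r0c_mPhi_mJ, mul_neg]
    · refine absurd ?_ (step2 (x : R0 (F := F)) x.2 b' hb' hxb')
      rw [h, neg_mul, mul_assoc, r0c_mPhi_mJ, mul_neg]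
  have hinj : Function.Injective
      ((((R0 (F := F)).subtype.comp A.subtype).codRestrict (Subgroup.zpowers z) hpow)) := by
    intro x y hxy
    have h := congrArg (fun u : Subgroup.zpowers z => (u : GL (Fin 2 ⊕ Fin 2) F)) hxy
    exact Subtype.ext (Subtype.ext h)
  exact isCyclic_of_injective _ hinj

end Cfsg.Agent.Helper4
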