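import Mathlib

set_option autoImplicit false

namespace Cfsg.Agent.Helper4.TECNT

open Matrix Polynomial
open scoped Kronecker

theorem count_of_prod {K : Type*} [Field K] {ι : Type*} [Fintype ι] (μ : ι → K) (Φ : K[X])
    (m : ℕ) (hΦ : Φ.Separable) (h1 : Φ.eval 1 ≠ 0) (hdeg : 1 ≤ Φ.natDegree)
    (h : ∏ p : ι, (X - C (μ p)) = Φ * (X - 1) ^ m) :
    (∀ p p' : ι, p ≠ p' → μ p = μ p' → μ p = 1) ∧
      Nat.card {p : ι // μ p = 1} = m ∧ ∃ p, μ p ≠ 1 := by
  classical
  have hΦ0 : Φ ≠ 0 := fun h0 => by rw [h0] at h1; simp at h1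
  have hX1 : (X - 1 : K[X]) ≠ 0 := by
    have := X_sub_C_ne_zero (1 : K); simpa using this
  have hprod0 : Φ * (X - 1) ^ m ≠ 0 := mul_ne_zero hΦ0 (pow_ne_zero m hX1)
  have hL : (∏ p : ι, (X - C (μ p))).roots = (Finset.univ : Finset ι).val.map μ := by
    rw [Polynomial.roots_prod _ _ (by rw [h]; exact hprod0)]
    simp [Multiset.bind_singleton]
  have hR : (Φ * (X - 1) ^ m).roots = Φ.roots + m • ({1} : Multiset K) := by
    rw [roots_mul hprod0, roots_pow]
    congr 2
    have := roots_X_sub_C (1 : K)
    simpa using this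
  have hcount : ∀ c : K, ((Finset.univ : Finset ι).filter (fun p => μ p = c)).card
      = Φ.roots.count c + m * (if c = 1 then 1 else 0) := by
    intro c
    have e1 : ((Finset.univ : Finset ι).val.map μ).count c
        = ((Finset.univ : Finset ι).filter (fun p => μ p = c)).card := by
      rw [Multiset.count_map, Finset.card_def, Finset.filter_val]
      congr 1
      apply Multiset.filter_congr
      intro x _
      exact eq_comm
    rw [← e1, ← hL, h, hR, Multiset.count_add, Multiset.count_nsmul, Multiset.count_singleton]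
  have hroot1 : Φ.roots.count 1 = 0 := by
    rw [count_roots]
    exact rootMultiplicity_eq_zero (by simpa [IsRoot] using h1)
  have hnd : ∀ c : K, Φ.roots.count c ≤ 1 := fun c =>
    Multiset.nodup_iff_count_le_one.1 (nodup_roots hΦ) c
  have hm : ((Finset.univ : Finset ι).filter (fun p => μ p = 1)).card = m := by
    rw [hcount 1, hroot1]; simp
  refine ⟨?_, ?_, ?_⟩
  · intro p p' hpp hμ
    by_contra hne
    have h2 := hcount (μ p)
    rw [if_neg hne, mul_zero, add_zero] at h2
    have h3 : 1 < ((Finset.univ : Finset ι).filter (fun q => μ q = μ p)).card := by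
      rw [Finset.one_lt_card]
      exact ⟨p, by simp, p', by simp [hμ], hpp⟩
    have := hnd (μ p)
    omega
  · rw [Nat.card_eq_fintype_card, Fintype.card_subtype]
    exact hm
  · by_contra hall
    push_neg at hall
    have hfil : ((Finset.univ : Finset ι).filter (fun p => μ p = 1)) = Finset.univ := by
      ext p; simp [hall p]
    rw [hfil, Finset.card_univ] at hm
    have hd := congrArg natDegree h
    rw [natDegree_prod_of_monic _ _ (fun p _ => monic_X_sub_C (μ p))] at hd
    have hd2 : (Φ * (X - 1) ^ m).natDegree = Φ.natDegree + m := by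
      rw [natDegree_mul hΦ0 (pow_ne_zero m hX1), natDegree_pow]
      have : (X - 1 : K[X]).natDegree = 1 := by
        have := natDegree_X_sub_C (1 : K); simpa using this
      rw [this, mul_one]
    rw [hd2] at hd
    simp only [natDegree_X_sub_C, Finset.sum_const, Finset.card_univ, smul_eq_mul, mul_one] at hd
    omega

end Cfsg.Agent.Helper4.TECNT
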