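import Mathlib

set_option autoImplicit false

namespace Cfsg.Agent.Helper4.TFNTS

open Matrix Polynomial
open scoped Kronecker

theorem exists_dvd_of_dvd_card_sp {q : ℕ} (d r : ℕ) (hr : r.Prime) (hrq : ¬ r ∣ q)
    (h : r ∣ q ^ (d ^ 2) * ∏ i ∈ Finset.range d, (q ^ (2 * (i + 1)) - 1)) :
    ∃ j : ℕ, 0 < j ∧ j ≤ d ∧ r ∣ q ^ (2 * j) - 1 := by
  rcases hr.dvd_mul.1 h with h1 | h1
  · exact absurd (hr.dvd_of_dvd_pow h1) hrq
  · obtain ⟨i, hi, hdvd⟩ := (hr.prime.dvd_finsetProd_iff _).1 h1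
    exact ⟨i + 1, Nat.succ_pos i, Nat.succ_le_of_lt (Finset.mem_range.1 hi), hdvd⟩

end Cfsg.Agent.Helper4.TFNTS
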