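import Mathlib
import Cfsg.Prelude.Def_GeometricClasses
import Cfsg.Agent.Helper90.UFRDefs
import Cfsg.Agent.Helper90.UFRBase
import Cfsg.Agent.Helper37.Sf2
import Cfsg.Agent.Helper69.UFRSIMPOW

/-!
helper4: piece BAD2U (`bad_two_u`) of CALL S5982 (helper90).
-/

set_option autoImplicit false


namespace Cfsg.Agent.Helper4

open Module Polynomial Cfsg.Agent.Helper90.UFR Cfsg.Agent.Helper37

section fin
variable {F : Type*} [Field F] [Fintype F]

/-! ## PIECE BAD2U -/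
theorem bad_two_u (h2 : (2 : F) ≠ 0) (q₀ : ℕ) (hq : Fintype.card F = q₀ ^ 2) (n : ℕ)
    (hv : padicValNat 2 (Fintype.card F - 1) < padicValNat 2 n)
    (f : (Fin n → F) → (Fin n → F) → F) (hf : Cfsg.Geo.IsUnitaryFormPow q₀ f) : IsBadU f 2 := by
  classical
  have hchar := sq_ringChar_ne h2
  obtain ⟨hneg, hq₀⟩ := sf_card_facts h2 q₀ hq
  have hodd : Fintype.card F % 2 = 1 := FiniteField.odd_card_of_char_ne_two hchar
  have hq1 : Fintype.card F - 1 ≠ 0 := by
    have := Fintype.one_lt_card (α := F)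
    omega
  have h2n : 2 ∣ n := by
    have h1 : 1 ≤ padicValNat 2 n := by omega
    exact dvd_of_one_le_padicValNat h1
  have hn0 : n ≠ 0 := by
    rintro rfl
    simp at hv
  obtain ⟨m, rfl⟩ := h2n
  have hm : 1 ≤ m := by omega
  obtain ⟨t, w, hw, htw⟩ := Nat.exists_eq_two_pow_mul_odd hq1
  have ht : 2 ^ t ∣ m := by
    have h1 : t ≤ padicValNat 2 (Fintype.card F - 1) :=
      (padicValNat_dvd_iff_le hq1).mp ⟨w, htw⟩
    have h3 : 2 ^ (t + 1) ∣ 2 * m := (padicValNat_dvd_iff_le (by omega)).mpr (by omega)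
    rw [pow_succ, mul_comm] at h3
    exact Nat.dvd_of_mul_dvd_mul_left (by norm_num) h3
  obtain ⟨m', hm'⟩ := ht
  obtain ⟨g, hg⟩ := IsCyclic.exists_ofOrder_eq_natCard (α := Fˣ)
  have hcard : Nat.card Fˣ = Fintype.card F - 1 := by
    rw [Nat.card_eq_fintype_card, Fintype.card_units]
  obtain ⟨u, hu⟩ : ∃ u : Fˣ, u = g ^ w := ⟨_, rfl⟩
  have hum : u ^ m = 1 := by
    rw [hu, ← pow_mul]
    have : w * m = (Fintype.card F - 1) * m' := by rw [hm', htw]; ring
    rw [this, ← hcard, ← hg, pow_mul, pow_orderOf_eq_one, one_pow]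
  have hunsq : ¬ IsSquare (u : F) := by
    intro hsq
    have h1 := (FiniteField.isSquare_iff hchar u.ne_zero).mp hsq
    have h3 : u ^ (Fintype.card F / 2) = 1 := by
      apply Units.ext
      rw [Units.val_pow_eq_pow_val, h1, Units.val_one]
    rw [hu, ← pow_mul] at h3
    have h4 := orderOf_dvd_of_pow_eq_one h3
    rw [hg, hcard] at h4
    have h5 : Fintype.card F - 1 = 2 * (Fintype.card F / 2) := by omega
    rw [h5] at h4
    have h6 : 0 < Fintype.card F / 2 := by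
      have := Fintype.one_lt_card (α := F)
      omega
    have h7 : 2 ∣ w := Nat.dvd_of_mul_dvd_mul_right h6 h4
    rcases hw with ⟨r, hr⟩
    omega
  obtain ⟨z, hz⟩ : ∃ z : F, z = -(u : F) := ⟨_, rfl⟩
  have hzns : ¬ IsSquare z := by
    intro h
    apply hunsq
    have h3 := hneg.mul h
    rwa [hz, neg_one_mul, neg_neg] at h3
  have hz0 : z ≠ 0 := by
    rw [hz]
    exact neg_ne_zero.mpr u.ne_zero
  have hzm : (-z) ^ m = 1 := by
    rw [hz, neg_neg, ← Units.val_pow_eq_pow_val, hum, Units.val_one]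
  obtain ⟨Bι, hBι⟩ : ∃ Bι : Matrix (Fin m ⊕ Fin m) (Fin m ⊕ Fin m) F,
      Bι = Matrix.fromBlocks 0 (z • 1) 1 0 := ⟨_, rfl⟩
  have hBB : Bι * Bι = z • 1 := by
    rw [hBι, Matrix.fromBlocks_multiply, ← Matrix.fromBlocks_one, Matrix.fromBlocks_smul]
    simp
  have hdet : (Matrix.reindex (sqPar m) (sqPar m) Bι).det = 1 := by
    rw [Matrix.det_reindex_self, hBι, sf_det_blk, hzm]
  have hxx : Matrix.reindex (sqPar m) (sqPar m) Bι * Matrix.reindex (sqPar m) (sqPar m) Bι =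
      z • (1 : Matrix (Fin (2 * m)) (Fin (2 * m)) F) := by
    rw [sq_reindex_mul, hBB, sq_reindex_smul_one]
  obtain ⟨i₀⟩ : Nonempty (Fin (2 * m)) := ⟨⟨0, by omega⟩⟩
  obtain ⟨x, hxv⟩ : ∃ x : GL (Fin (2 * m)) F,
      (x : Matrix (Fin (2 * m)) (Fin (2 * m)) F) = Matrix.reindex (sqPar m) (sqPar m) Bι :=
    ⟨Matrix.GeneralLinearGroup.mkOfDetNeZero _ (by rw [hdet]; exact one_ne_zero), rfl⟩
  have hxx' : ((x ^ 2 : GL (Fin (2 * m)) F) : Matrix (Fin (2 * m)) (Fin (2 * m)) F)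
      = z • (1 : Matrix (Fin (2 * m)) (Fin (2 * m)) F) := by
    rw [pow_two, Units.val_mul, hxv]
    exact hxx
  refine ⟨x, ?_, ⟨z, hxx'⟩, ?_, ?_⟩
  · show Matrix.GeneralLinearGroup.det x = 1
    apply Units.ext
    rw [Matrix.GeneralLinearGroup.val_det_apply, hxv, hdet, Units.val_one]
  · intro lam hlam
    apply hzns
    refine ⟨lam, ?_⟩
    have h1 := hxx'
    rw [pow_two, Units.val_mul, hlam, Matrix.smul_mul, Matrix.mul_smul, Matrix.one_mul,
      smul_smul] at h1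
    have h3 := congrFun (congrFun h1 i₀) i₀
    simp only [Matrix.smul_apply, Matrix.one_apply_eq, smul_eq_mul, mul_one] at h3
    exact h3.symm
  · intro hconj
    obtain ⟨c, hc0, hcq, hc2⟩ := Cfsg.Agent.Helper69.sim_pow q₀ hq (2 * m) (by omega) f hf
      x 2 z hxx' hconj
    apply hzns
    rw [FiniteField.isSquare_iff hchar hz0, hq]
    obtain ⟨b, hb⟩ : ∃ b, q₀ = 2 * b + 1 := ⟨q₀ / 2, by omega⟩
    have h5 : q₀ ^ 2 / 2 = (q₀ + 1) * b := by
      rw [hb]
      have : (2 * b + 1) ^ 2 = 2 * ((2 * b + 1 + 1) * b) + 1 := by ring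
      rw [this]
      omega
    rw [h5, pow_mul, ← hc2, ← pow_mul]
    have h6 : c ^ (2 * b) * c = 1 * c := by
      rw [← pow_succ, ← hb, one_mul]
      exact hcq
    exact mul_right_cancel₀ hc0 h6

end fin

end Cfsg.Agent.Helper4
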