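import Mathlib
import Cfsg.Prelude.Def_GeometricClasses
import Cfsg.Agent.Helper90.UFRDefs
import Cfsg.Agent.Helper90.UFRBase
import Cfsg.Agent.Helper37.Sf2
import Cfsg.Agent.Helper99.SFRDIAG
import Cfsg.Agent.Helper59.UFRGOODDIAG

/-!
helper4: piece GOOD2O (`good_two_odd`) of CALL S5982 (helper90).
-/

set_option autoImplicit false


namespace Cfsg.Agent.Helper4

open Module Polynomial Cfsg.Agent.Helper90.UFR

section fin
variable {F : Type*} [Field F] [Fintype F]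

omit [Fintype F] in
/-- determinant of an element of `Cfsg.Geo.specialLinear` -/
theorem ufr_det_of_mem {n : ℕ} {x : GL (Fin n) F} (hx : x ∈ Cfsg.Geo.specialLinear (Fin n) F) :
    (x : Matrix (Fin n) (Fin n) F).det = 1 := by
  have h1 : Matrix.GeneralLinearGroup.det x = 1 := hx
  have h3 := congrArg Units.val h1
  simpa using h3

/-! ## PIECE GOOD2O -/
theorem good_two_odd (h2 : (2 : F) ≠ 0) (q₀ : ℕ) (hq : Fintype.card F = q₀ ^ 2) (n : ℕ)
    (hn : 1 ≤ n) (hv : padicValNat 2 n ≤ padicValNat 2 (Fintype.card F - 1))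
    (f : (Fin n → F) → (Fin n → F) → F) (hf : Cfsg.Geo.IsUnitaryFormPow q₀ f)
    (x : GL (Fin n) F) (hx : x ∈ Cfsg.Geo.specialLinear (Fin n) F) (z : F)
    (hxz : ((x ^ 2 : GL (Fin n) F) : Matrix (Fin n) (Fin n) F)
      = z • (1 : Matrix (Fin n) (Fin n) F)) : IsConjU f x := by
  classical
  have hdet : (x : Matrix (Fin n) (Fin n) F).det = 1 := ufr_det_of_mem hx
  have hxx : (x : Matrix (Fin n) (Fin n) F) * (x : Matrix (Fin n) (Fin n) F)
      = z • (1 : Matrix (Fin n) (Fin n) F) := by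
    rw [← hxz, pow_two, Units.val_mul]
  obtain ⟨w, hw⟩ : IsSquare z := by
    by_contra hz
    exact Cfsg.Agent.Helper37.sf_caseB h2 q₀ hq hn ⟨x.val, hdet⟩ z hz hxx hv
  have hz0 : z ≠ 0 := by
    rintro rfl
    have h := congrArg Matrix.det hxx
    haveI : Nonempty (Fin n) := ⟨⟨0, by omega⟩⟩
    rw [Matrix.det_mul, hdet, zero_smul, Matrix.det_zero] at h
    simp at h
  have hw0 : w ≠ 0 := by
    rintro rfl
    exact hz0 (by rw [hw, mul_zero])
  obtain ⟨hneg, hq₀⟩ := Cfsg.Agent.Helper37.sf_card_facts h2 q₀ hq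
  have hodd : Odd q₀ := Nat.odd_iff.mpr hq₀
  obtain ⟨A, hAdef⟩ : ∃ A : Matrix (Fin n) (Fin n) F, A = w⁻¹ • x.val := ⟨_, rfl⟩
  have hA : A * A = 1 := by
    rw [hAdef, Matrix.smul_mul, Matrix.mul_smul, hxx, smul_smul, smul_smul, hw]
    have : w⁻¹ * w⁻¹ * (w * w) = 1 := by field_simp
    rw [this, one_smul]
  have hT : (Matrix.toLin' A) ^ 2 = 1 := by
    rw [pow_two, Module.End.mul_eq_comp, ← Matrix.toLin'_mul, hA, Matrix.toLin'_one]
    rfl
  have h2' : ((2 : ℕ) : F) ≠ 0 := by exact_mod_cast h2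
  have hm1 : (-1 : F) ≠ 1 := fun h => h2 (by linear_combination (-1 : F) * h)
  obtain ⟨b, e, hb⟩ := Cfsg.Agent.Helper99.diag_basis (Matrix.toLin' A) 2 h2' hT (-1 : F)
    (by norm_num) hm1 n (Module.finrank_fin_fun F)
  have hxb : ∀ i, (x : Matrix (Fin n) (Fin n) F).mulVec (b i) = (w * (-1) ^ (e i)) • b i := by
    intro i
    have h1 := hb i
    rw [Matrix.toLin'_apply, hAdef, Matrix.smul_mulVec] at h1
    have h3 := congrArg (fun v => w • v) h1
    simp only [smul_smul] at h3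
    rw [mul_inv_cancel₀ hw0, one_smul] at h3
    exact h3
  have hc0 : w ^ (q₀ + 1) ≠ 0 := pow_ne_zero _ hw0
  have hcq : (w ^ (q₀ + 1)) ^ q₀ = w ^ (q₀ + 1) := by
    rw [← pow_mul]
    have h1 : (q₀ + 1) * q₀ = q₀ ^ 2 + q₀ := by ring
    rw [h1, pow_add, ← hq, FiniteField.pow_card, pow_succ, mul_comm]
  refine Cfsg.Agent.Helper59.good_of_diag59 q₀ hq n (by omega) f hf x b
    (fun i => w * (-1) ^ (e i)) hxb (w ^ (q₀ + 1)) hc0 hcq ?_
  refine Multiset.map_congr rfl fun i _ => ?_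
  have hε : ((-1 : F) ^ (e i)) * ((-1 : F) ^ (e i)) = 1 := by
    rw [← mul_pow]
    simp
  have hεinv : ((-1 : F) ^ (e i))⁻¹ = (-1 : F) ^ (e i) := inv_eq_of_mul_eq_one_right hε
  have hεq : ((-1 : F) ^ (e i)) ^ q₀ = (-1 : F) ^ (e i) := by
    rw [← pow_mul, mul_comm, pow_mul, hodd.neg_one_pow]
  rw [mul_pow, hεq, pow_succ, mul_inv, hεinv]
  field_simp

end fin

end Cfsg.Agent.Helper4
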