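import Mathlib
import Cfsg.Prelude.Def_GeometricClasses
import Cfsg.Agent.Helper90.UFRDefs
import Cfsg.Agent.Helper90.UFRBase
import Cfsg.Agent.Helper99.SFRDIAG
import Cfsg.Agent.Helper60.SFRDETB
import Cfsg.Agent.Helper34.SFRCOMB
import Cfsg.Agent.Helper46.SFRGOODEXCore
import Cfsg.Agent.Helper59.UFRGOODDIAG

/-!
helper4: piece GOODEXU (`good_of_exc_u`) of CALL S5982 (helper90).
-/

set_option autoImplicit false


namespace Cfsg.Agent.Helper4

open Module Polynomial Cfsg.Agent.Helper90.UFR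

section fin
variable {F : Type*} [Field F] [Fintype F]

omit [Fintype F] in
/-- determinant of an element of `Cfsg.Geo.specialLinear` -/
theorem ufrx_det_of_mem {n : ℕ} {x : GL (Fin n) F} (hx : x ∈ Cfsg.Geo.specialLinear (Fin n) F) :
    (x : Matrix (Fin n) (Fin n) F).det = 1 := by
  have h1 : Matrix.GeneralLinearGroup.det x = 1 := hx
  have h3 := congrArg Units.val h1
  simpa using h3

/-! ## PIECE GOODEXU -/
theorem good_of_exc_u (q₀ : ℕ) (hq : Fintype.card F = q₀ ^ 2) (r : ℕ) [Fact r.Prime]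
    (hr35 : r = 3 ∨ r = 5) (hv : padicValNat r (q₀ - 1) = 1)
    (f : (Fin r → F) → (Fin r → F) → F) (hf : Cfsg.Geo.IsUnitaryFormPow q₀ f)
    (x : GL (Fin r) F) (hx : x ∈ Cfsg.Geo.specialLinear (Fin r) F) (z : F)
    (hxz : ((x ^ r : GL (Fin r) F) : Matrix (Fin r) (Fin r) F)
      = z • (1 : Matrix (Fin r) (Fin r) F)) : IsConjU f x := by
  classical
  have hrp : r.Prime := Fact.out
  have hr2 : r ≠ 2 := by rcases hr35 with h | h <;> omega
  have hr0 : 0 < r := hrp.pos
  -- arithmetic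
  have hr1 : r ∣ q₀ - 1 := dvd_of_one_le_padicValNat (by rw [hv])
  have hq₀ : 2 ≤ q₀ := by
    by_contra h
    have h0 : q₀ - 1 = 0 := by omega
    rw [h0] at hv
    simp at hv
  have hnd : ¬ r ∣ q₀ + 1 := by
    intro h
    have h2 : r ∣ (q₀ + 1) - (q₀ - 1) := Nat.dvd_sub h hr1
    have h3 : (q₀ + 1) - (q₀ - 1) = 2 := by omega
    rw [h3] at h2
    exact hr2 ((Nat.prime_dvd_prime_iff_eq hrp Nat.prime_two).mp h2)
  obtain ⟨N₁, hN₁⟩ := hr1
  have hN₁r : ¬ r ∣ N₁ := by
    intro h
    obtain ⟨N₂, hN₂⟩ := h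
    have h2 : r ^ 2 ∣ q₀ - 1 := ⟨N₂, by rw [hN₁, hN₂]; ring⟩
    have h3 := (padicValNat_dvd_iff_le (p := r) (by omega : q₀ - 1 ≠ 0)).mp h2
    omega
  have hq1 : Fintype.card F - 1 = r * (N₁ * (q₀ + 1)) := by
    rw [hq, ← mul_assoc, ← hN₁]
    have h := Nat.sq_sub_sq q₀ 1
    rw [one_pow] at h
    rw [h, mul_comm]
  have hrq : r ∣ Fintype.card F - 1 := ⟨_, hq1⟩
  have hNr : ¬ r ∣ N₁ * (q₀ + 1) := by
    intro h
    rcases (Nat.Prime.dvd_mul hrp).mp h with h | h
    · exact hN₁r h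
    · exact hnd h
  have hrF : (r : F) ≠ 0 := by
    intro h0
    have h1 : addOrderOf (1 : F) ∣ r :=
      addOrderOf_dvd_of_nsmul_eq_zero (by rw [nsmul_eq_mul, mul_one]; exact h0)
    have h2 : addOrderOf (1 : F) ∣ Fintype.card F := addOrderOf_dvd_card
    rcases (Nat.dvd_prime hrp).mp h1 with h | h
    · rw [AddMonoid.addOrderOf_eq_one_iff] at h
      exact one_ne_zero h
    · rw [h] at h2
      have h3 : r ∣ Fintype.card F - (Fintype.card F - 1) := Nat.dvd_sub h2 hrq
      have h4 : Fintype.card F - (Fintype.card F - 1) = 1 := by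
        have := Fintype.card_pos (α := F)
        omega
      rw [h4] at h3
      exact hrp.one_lt.ne' (Nat.dvd_one.mp h3)
  have hdet : (x : Matrix (Fin r) (Fin r) F).det = 1 := ufrx_det_of_mem hx
  have hxpow : (x : Matrix (Fin r) (Fin r) F) ^ r = z • (1 : Matrix (Fin r) (Fin r) F) := by
    rw [← hxz, Units.val_pow_eq_pow_val]
  have hzr : z ^ r = 1 := by
    have h1 := congrArg Matrix.det hxpow
    rw [Matrix.det_pow, hdet, one_pow, Matrix.det_smul, Matrix.det_one, mul_one,
      Fintype.card_fin] at h1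
    exact h1.symm
  have hz0 : z ≠ 0 := by
    intro h
    rw [h, zero_pow hr0.ne'] at hzr
    exact zero_ne_one hzr
  -- `z` is an `r`-th power
  obtain ⟨μ, hμ⟩ : ∃ μ : F, μ ^ r = z := by
    by_contra hcon
    have hz : ∀ b : F, b ^ r ≠ z := fun b hb => hcon ⟨b, hb⟩
    obtain ⟨s, hs, hdet'⟩ := Cfsg.Agent.Helper60.det_of_irr r hr2 r
      (x : Matrix (Fin r) (Fin r) F) z hz hxpow
    have hs1 : s = 1 := by
      have : r * s = r * 1 := by omega
      exact Nat.eq_of_mul_eq_mul_left hr0 this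
    rw [hs1, pow_one, hdet] at hdet'
    exact hz 1 (by rw [one_pow, hdet'])
  have hμ0 : μ ≠ 0 := by
    intro h
    rw [h, zero_pow hr0.ne'] at hμ
    exact hz0 hμ.symm
  -- `z = 1`
  have hz1 : z = 1 := by
    have h1 : μ ^ (r * r) = 1 := by rw [pow_mul, hμ, hzr]
    have h2 : μ ^ (r * (N₁ * (q₀ + 1))) = 1 := by
      rw [← hq1]
      exact FiniteField.pow_card_sub_one_eq_one μ hμ0
    have h3 : orderOf μ ∣ Nat.gcd (r * r) (r * (N₁ * (q₀ + 1))) :=
      Nat.dvd_gcd (orderOf_dvd_of_pow_eq_one h1) (orderOf_dvd_of_pow_eq_one h2)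
    rw [Nat.gcd_mul_left, (Nat.Prime.coprime_iff_not_dvd hrp).mpr hNr, mul_one] at h3
    rw [← hμ]
    exact orderOf_dvd_iff_pow_eq_one.mp h3
  subst hz1
  have hT : (Matrix.toLin' (x : Matrix (Fin r) (Fin r) F)) ^ r = 1 := by
    rw [Cfsg.Agent.Helper46.sfrx_toLin'_pow, hxpow, one_smul, Matrix.toLin'_one]
    rfl
  -- a primitive root
  obtain ⟨u, hu⟩ := exists_prime_orderOf_dvd_card (G := Fˣ) r
    (by rw [Fintype.card_units]; exact hrq)
  have hζo : orderOf (u : F) = r := by rw [orderOf_units, hu]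
  have hζr : (u : F) ^ r = 1 := by rw [← hζo]; exact pow_orderOf_eq_one _
  have hζ1 : (u : F) ≠ 1 := by
    intro h
    rw [← orderOf_eq_one_iff, hζo] at h
    exact hrp.one_lt.ne' h
  have hζ0 : (u : F) ≠ 0 := u.ne_zero
  obtain ⟨b, e, hb⟩ := Cfsg.Agent.Helper99.diag_basis
    (Matrix.toLin' (x : Matrix (Fin r) (Fin r) F)) r hrF hT (u : F) hζr hζ1 r
    (Module.finrank_fin_fun F)
  -- `r ∣ ∑ e i`
  have hdet2 : LinearMap.det (Matrix.toLin' (x : Matrix (Fin r) (Fin r) F))
      = (u : F) ^ (∑ i, e i) := by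
    rw [← LinearMap.det_toMatrix b]
    have hmat : LinearMap.toMatrix b b (Matrix.toLin' (x : Matrix (Fin r) (Fin r) F))
        = Matrix.diagonal fun i => (u : F) ^ e i := by
      ext i j
      rw [LinearMap.toMatrix_apply, hb, map_smul, Finsupp.smul_apply, b.repr_self,
        Finsupp.single_apply, Matrix.diagonal_apply]
      by_cases hij : i = j
      · subst hij; simp
      · rw [if_neg hij, if_neg (Ne.symm hij)]; simp
    rw [hmat, Matrix.det_diagonal, Finset.prod_pow_eq_pow_sum]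
  have hsum : r ∣ ∑ i, e i := by
    have h1 : (u : F) ^ (∑ i, e i) = 1 := by rw [← hdet2, LinearMap.det_toLin', hdet]
    have h2 := orderOf_dvd_of_pow_eq_one h1
    rwa [hζo] at h2
  obtain ⟨t, ht⟩ := Cfsg.Agent.Helper34.comb_sym r hr35 e hsum
  have hζq : (u : F) ^ q₀ = (u : F) := by
    have h1 : q₀ = (q₀ - 1) + 1 := by omega
    rw [h1, pow_succ, hN₁, pow_mul, hζr, one_pow, one_mul]
  have hxb : ∀ i, (x : Matrix (Fin r) (Fin r) F).mulVec (b i) = ((u : F) ^ (e i)) • b i := by
    intro i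
    have h1 := hb i
    rwa [Matrix.toLin'_apply] at h1
  have hc0 : (u : F) ^ (2 * t) ≠ 0 := pow_ne_zero _ hζ0
  have hcq : ((u : F) ^ (2 * t)) ^ q₀ = (u : F) ^ (2 * t) := by
    rw [← pow_mul, mul_comm, pow_mul, hζq]
  refine Cfsg.Agent.Helper59.good_of_diag59 q₀ hq r hr0 f hf x b (fun i => (u : F) ^ (e i))
    hxb ((u : F) ^ (2 * t)) hc0 hcq ?_
  have hLHS : (Finset.univ.val.map fun i : Fin r => ((u : F) ^ (e i)) ^ q₀)
      = Finset.univ.val.map fun i : Fin r => (u : F) ^ (e i) := by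
    refine Multiset.map_congr rfl fun i _ => ?_
    rw [← pow_mul, mul_comm, pow_mul, hζq]
  rw [hLHS, Multiset.ext]
  intro a
  rw [Multiset.count_map, Multiset.count_map]
  by_cases ha : a ^ r = 1
  · have hprim : IsPrimitiveRoot (u : F) r := by
      rw [← hζo]; exact IsPrimitiveRoot.orderOf _
    haveI : NeZero r := ⟨hr0.ne'⟩
    obtain ⟨k, -, rfl⟩ := hprim.eq_pow_of_pow_eq_one ha
    have hj := ht (k + (r - 1) * t)
    have hpow : ∀ a c : ℕ, (u : F) ^ a = (u : F) ^ c ↔ a % r = c % r := by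
      intro a c
      rw [← Units.val_pow_eq_pow_val, ← Units.val_pow_eq_pow_val, Units.val_inj,
        pow_eq_pow_iff_modEq, hu]
      rfl
    have hr' : (r - 1) * t + t = r * t := by
      rw [← Nat.succ_mul, Nat.succ_eq_add_one, Nat.sub_add_cancel hr0]
    have hrt : (u : F) ^ ((r - 1) * t) * (u : F) ^ t = 1 := by
      rw [← pow_add, hr', pow_mul, hζr, one_pow]
    have h1 : ∀ i : Fin r, ((u : F) ^ k = (u : F) ^ (e i)) ↔
        e i % r = (t + (k + (r - 1) * t)) % r := by
      intro i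
      have h3 : t + (k + (r - 1) * t) = k + r * t := by omega
      rw [h3, Nat.add_mul_mod_self_left, ← hpow, eq_comm]
    have h2 : ∀ i : Fin r, ((u : F) ^ k = (u : F) ^ (2 * t) * ((u : F) ^ (e i))⁻¹) ↔
        (e i + (k + (r - 1) * t)) % r = t % r := by
      intro i
      rw [← hpow, pow_add, pow_add, two_mul, pow_add]
      have hE0 : (u : F) ^ (e i) ≠ 0 := pow_ne_zero _ hζ0
      generalize (u : F) ^ (e i) = E at hE0 ⊢
      generalize (u : F) ^ k = K
      generalize (u : F) ^ ((r - 1) * t) = R at hrt ⊢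
      generalize (u : F) ^ t = T at hrt ⊢
      constructor
      · intro h
        rw [h]
        have h5 : E * (T * T * E⁻¹ * R) = T * (R * T) := by field_simp
        rw [h5, hrt, mul_one]
      · intro h
        have h4 : E * K = T * T := by linear_combination T * h - E * K * hrt
        rw [eq_mul_inv_iff_mul_eq₀ hE0]
        linear_combination h4
    calc Multiset.card (Multiset.filter (fun i : Fin r => (u : F) ^ k = (u : F) ^ (e i))
          Finset.univ.val)
        = (Finset.univ.filter fun i : Fin r => e i % r = (t + (k + (r - 1) * t)) % r).card := by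
          rw [Finset.card_def, Finset.filter_val]
          exact congrArg _ (Multiset.filter_congr fun i _ => h1 i)
      _ = (Finset.univ.filter fun i : Fin r => (e i + (k + (r - 1) * t)) % r = t % r).card := hj
      _ = Multiset.card (Multiset.filter
            (fun i : Fin r => (u : F) ^ k = (u : F) ^ (2 * t) * ((u : F) ^ (e i))⁻¹)
            Finset.univ.val) := by
          rw [Finset.card_def, Finset.filter_val]
          exact congrArg _ (Multiset.filter_congr fun i _ => (h2 i).symm)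
  · have hroot : ∀ j : ℕ, ((u : F) ^ j) ^ r = 1 := fun j => by
      rw [← pow_mul, mul_comm, pow_mul, hζr, one_pow]
    rw [Multiset.filter_eq_nil.mpr, Multiset.filter_eq_nil.mpr]
    · intro i _ h
      apply ha
      rw [h, mul_pow, inv_pow, hroot, hroot, inv_one, mul_one]
    · intro i _ h
      apply ha
      rw [h, hroot]

end fin

end Cfsg.Agent.Helper4
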